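/- ALTSEC tower, slot RED: no group of degree 27 with small fixed spaces maps onto `A₁₂`. -/
import Cfsg.Agent.H71.ASFT

set_option autoImplicit false

namespace H71.AS
open Equiv Module Subgroup Cfsg H40.AS
open scoped commutatorElement

section Lin
variable {k V : Type} [Field k] [AddCommGroup V] [Module k V] [FiniteDimensional k V]

theorem eig_le_add (f : End k V) (U : Submodule k V) (hU : U ≤ U.comap f) (μ : k) :
    finrank k (f.eigenspace μ) ≤ finrank k (End.eigenspace (f.restrict hU) μ) +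
      finrank k (End.eigenspace (U.mapQ U f hU) μ) := by
  have h := (U.mkQ.domRestrict (f.eigenspace μ)).finrank_range_add_finrank_ker
  have h1 : finrank k (LinearMap.range (U.mkQ.domRestrict (f.eigenspace μ))) ≤
      finrank k (End.eigenspace (U.mapQ U f hU) μ) := Submodule.finrank_mono (by
    rintro _ ⟨v, rfl⟩
    refine End.mem_eigenspace_iff.2 ?_
    change U.mkQ (f v) = μ • U.mkQ v
    rw [End.mem_eigenspace_iff.1 v.2, map_smul])
  have h2 : finrank k (LinearMap.ker (U.mkQ.domRestrict (f.eigenspace μ))) ≤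
      finrank k (End.eigenspace (f.restrict hU) μ) := by
    rw [← Submodule.finrank_map_subtype_eq, ← U.finrank_map_subtype_eq]
    refine Submodule.finrank_mono ?_
    rintro _ ⟨v, hv, rfl⟩
    exact ⟨⟨v, (Submodule.Quotient.mk_eq_zero U).1 hv⟩,
      End.mem_eigenspace_iff.2 (Subtype.ext (End.mem_eigenspace_iff.1 v.2)), rfl⟩
  omega

theorem finrank_le_three {f : End k V} (hf : ∀ v, f (f (f v)) = v) (h3 : (3 : k) ≠ 0) {ω : k}
    (hω : ω ^ 2 + ω + 1 = 0) : finrank k V ≤ finrank k (f.eigenspace 1) +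
      finrank k (f.eigenspace ω) + finrank k (f.eigenspace (ω ^ 2)) := by
  have key : ∀ (μ : k) (v : V), μ ^ 3 = 1 → v + μ ^ 2 • f v + μ • f (f v) ∈ f.eigenspace μ :=
    fun μ v h => End.mem_eigenspace_iff.2 (by
      rw [map_add, map_add, map_smul, map_smul, hf, smul_add, smul_add, smul_smul, smul_smul,
        ← pow_succ', h]
      module)
  have w3 : ω ^ 3 = 1 := by linear_combination (ω - 1) * hω
  have ht : (⊤ : Submodule k V) ≤ f.eigenspace 1 ⊔ f.eigenspace ω ⊔ f.eigenspace (ω ^ 2) := by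
    intro v _
    have := Submodule.add_mem_sup (Submodule.add_mem_sup (key 1 v (one_pow 3)) (key ω v w3))
      (key (ω ^ 2) v (by rw [← pow_mul, mul_comm, pow_mul, w3, one_pow]))
    refine (Submodule.smul_mem_iff _ h3).1 ?_
    convert this using 1
    have e1 : (ω ^ 2) ^ 2 = ω := by linear_combination ω * w3
    have e2 : ω ^ 2 = -1 - ω := by linear_combination hω
    rw [e1, e2]
    module
  have a := Submodule.finrank_mono ht
  have b := Submodule.finrank_add_le_finrank_add_finrank (f.eigenspace 1 ⊔ f.eigenspace ω)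
    (f.eigenspace (ω ^ 2))
  have c := Submodule.finrank_add_le_finrank_add_finrank (f.eigenspace 1) (f.eigenspace ω)
  rw [finrank_top] at a
  omega

theorem finrank_biSup {ι : Type} {D : ι → Submodule k V} (hi : iSupIndep D) (S : Finset ι) :
    finrank k ↥(⨆ i ∈ S, D i) = ∑ i ∈ S, finrank k (D i) := by
  classical
  induction S using Finset.induction_on with
  | empty => simp
  | insert i S h ih =>
    have := Submodule.finrank_sup_add_finrank_inf_eq (D i) (⨆ i ∈ S, D i)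
    have hd : D i ⊓ ⨆ i ∈ S, D i = ⊥ := (hi.disjoint_biSup (y := (S : Set ι)) h).eq_bot
    rw [hd, finrank_bot, add_zero] at this
    rw [Finset.iSup_insert, Finset.sum_insert h, this, ih]

theorem moved_le {X : Type} [Fintype X] [DecidableEq X] (τ : X → X) (hτ : ∀ x, τ (τ (τ x)) = x)
    (A : End k (X → k)) (hA : ∀ f x, A f x = f (τ x)) {ω : k} (hω : ω ^ 3 = 1) :
    (Finset.univ.filter fun x => τ x ≠ x).card ≤ 3 * finrank k (A.eigenspace ω) := by
  obtain ⟨n, hn⟩ := exists_injective_nat X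
  let T : Finset X := Finset.univ.filter fun a => n a < n (τ a) ∧ n a < n (τ (τ a))
  have hT : ∀ a, a ∈ T ↔ n a < n (τ a) ∧ n a < n (τ (τ a)) := fun a => by simp [T]
  have h1 : (Finset.univ.filter fun x => τ x ≠ x) ⊆ T ∪ T.image τ ∪ T.image (τ ∘ τ) := by
    intro a ha
    have a1 : n (τ a) ≠ n a := fun e => (Finset.mem_filter.1 ha).2 (hn e)
    have a2 : n (τ (τ a)) ≠ n a := fun e => a1 (congrArg n
      ((congrArg τ (hn e)).symm.trans (hτ a)))
    have a3 : n (τ (τ a)) ≠ n (τ a) := fun e => a2 (congrArg n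
      ((congrArg τ (hn e)).symm.trans (hτ a)))
    simp only [Finset.mem_union, Finset.mem_image, hT]
    by_cases c1 : n a < n (τ a) ∧ n a < n (τ (τ a))
    · exact Or.inl (Or.inl c1)
    by_cases c2 : n (τ (τ a)) < n (τ a)
    · exact Or.inl (Or.inr ⟨τ (τ a), by rw [hτ]; omega, hτ a⟩)
    · exact Or.inr ⟨τ a, by rw [hτ]; omega, hτ a⟩
  have h2 : T.card ≤ finrank k (A.eigenspace ω) := by
    let res : A.eigenspace ω →ₗ[k] (T → k) :=
      LinearMap.funLeft k k (Subtype.val : T → X) ∘ₗ (A.eigenspace ω).subtype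
    have hs : LinearMap.range res = ⊤ := by
      rw [eq_top_iff]
      intro g _
      let g' : X → k := fun x => if h : x ∈ T then g ⟨x, h⟩ else 0
      refine ⟨⟨fun x => g' x + ω ^ 2 * g' (τ x) + ω * g' (τ (τ x)), End.mem_eigenspace_iff.2
        (funext fun x => ?_)⟩, funext fun a => ?_⟩
      · simp only [hA, hτ, Pi.smul_apply, smul_eq_mul]
        linear_combination -g' (τ x) * hω
      · have ha := (hT a).1 a.2
        have b1 : τ a ∉ T := by rw [hT, hτ]; omega
        have b2 : τ (τ a) ∉ T := by rw [hT, hτ]; omega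
        change g' a + ω ^ 2 * g' (τ a) + ω * g' (τ (τ a)) = g a
        simp [g', b1, b2]
    have := res.finrank_range_le
    rwa [hs, finrank_top, finrank_fintype_fun_eq_card, Fintype.card_coe] at this
  have h3 := Finset.card_le_card h1
  have h4 := Finset.card_union_le (T ∪ T.image τ) (T.image (τ ∘ τ))
  have h5 := Finset.card_union_le T (T.image τ)
  have h6 := Finset.card_image_le (s := T) (f := τ)
  have h7 := Finset.card_image_le (s := T) (f := τ ∘ τ)
  omega

end Lin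

theorem top_of_sylow {G : Type} [Group G] [Finite G] {C : Subgroup G}
    (h : ∀ (l : ℕ) [Fact l.Prime], ∃ S : Sylow l G, (S : Subgroup G) ≤ C) : C = ⊤ := by
  by_contra e
  obtain ⟨l, pr, hl⟩ := Nat.exists_prime_and_dvd (mt index_eq_one.1 e)
  have := Fact.mk pr
  obtain ⟨S, hS⟩ := h l
  exact S.not_dvd_index (hl.trans (index_dvd_of_le hS))

variable {H : Type} [Group H] [Finite H] {π : H →* Perm (Fin 12)} {p : ℕ} [Fact p.Prime]
  {k : Type} [Field k] [CharP k p] [IsAlgClosed k]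

omit [Finite H] in
theorem m12 (h : Mn π) (hM : M12) (p : ℕ) [Fact p.Prime] [CharP k p] (h2 : (2 : k) ≠ 0)
    (h3 : (3 : k) ≠ 0) {V : Type}
    [AddCommGroup V] [Module k V] [FiniteDimensional k V] (σ : Representation k H V)
    (hd : finrank k V ≤ 27) (hσ : ∀ y, π y = 1 → σ y = 1) {s : H} (hs : (π s).IsThreeCycle) {ω : k}
    (hω : ω ^ 2 + ω + 1 = 0) : 8 * finrank k (End.eigenspace (σ s) ω) ≤ finrank k V := by
  obtain ⟨ρ', e⟩ := h.descend σ hσ
  exact e s ▸ hM p k h2 h3 V ρ' hd (h.φ s) hs ω hω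

omit [Finite H] [Fact p.Prime] [CharP k p] [IsAlgClosed k] in
theorem fix_inv {V : Type} [AddCommGroup V] [Module k V] (σ : Representation k H V)
    (Q : Subgroup H) [hQ : Q.Normal] (g : H) :
    H22.fixSp σ Q ≤ (H22.fixSp σ Q).comap (σ g) := fun v hv y hy => by
  rw [← End.mul_apply, ← map_mul, show y * g = g * (g⁻¹ * y * g) by group, map_mul, End.mul_apply,
    hv _ (hQ.conj_mem' y hy g)]

theorem m12p (h : Mn π) (hM : M12) (h2 : (2 : k) ≠ 0) (h3 : (3 : k) ≠ 0) (hP : IsPGroup p π.ker)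
    {s : H} (hs : (π s).IsThreeCycle) {ω : k} (hω : ω ^ 2 + ω + 1 = 0) (n : ℕ) :
    ∀ (V : Type) [AddCommGroup V] [Module k V] [FiniteDimensional k V] (σ : Representation k H V),
      finrank k V = n → n ≤ 27 → 8 * finrank k (End.eigenspace (σ s) ω) ≤ n := by
  induction n using Nat.strong_induction_on with
  | _ n ih =>
  intro V _ _ _ σ hn hd
  rcases subsingleton_or_nontrivial V with hV | hV
  · simp [finrank_zero_of_subsingleton]
  obtain ⟨v, -, h0, hv⟩ := H90.exists_fixed_of_isPGroup hP (σ.comp π.ker.subtype) ⊤ top_ne_bot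
    fun _ _ _ => trivial
  have hU := fix_inv σ π.ker
  have d1 := (H22.fixSp σ π.ker).finrank_quotient_add_finrank
  have d2 : 1 ≤ finrank k (H22.fixSp σ π.ker) := Submodule.one_le_finrank_iff.2
    ((Submodule.ne_bot_iff _).2 ⟨v, fun y hy => hv ⟨y, hy⟩, h0⟩)
  have a1 := eig_le_add (σ s) _ (hU s) ω
  have a2 := m12 h hM p h2 h3 (σ.subrepresentation _ hU) (by omega)
    (fun y hy => LinearMap.ext fun w => Subtype.ext (w.2 y hy)) hs hω
  have a3 := ih _ (by omega) _ (σ.quotient _ hU) rfl (by omega)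
  change 8 * finrank k (End.eigenspace ((σ s).restrict (hU s)) ω) ≤ _ at a2
  change 8 * finrank k (End.eigenspace (Submodule.mapQ _ _ (σ s) (hU s)) ω) ≤ _ at a3
  omega

omit [Finite H] in
theorem exists_three (h : Mn π) : ∃ s, (π s).IsThreeCycle := by
  have h3 : (swap (0 : Fin 12) 1 * swap 0 2).IsThreeCycle :=
    Perm.isThreeCycle_swap_mul_swap_same (by decide) (by decide) (by decide)
  obtain ⟨s, hs⟩ := h.surj ⟨_, h3.mem_alternatingGroup⟩
  have e : π s = swap 0 1 * swap 0 2 := congrArg Subtype.val hs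
  exact ⟨s, e ▸ h3⟩

omit [CharP k p] in
theorem exists_omega : ∃ ω : k, ω ^ 2 + ω + 1 = 0 := by
  obtain ⟨ω, h⟩ := IsAlgClosed.exists_root (Polynomial.X ^ 2 + Polynomial.X + 1 : Polynomial k)
    (by rw [show (Polynomial.X ^ 2 + Polynomial.X + 1 : Polynomial k).degree = 2 by compute_degree!]
        decide)
  exact ⟨ω, by simpa using h⟩

variable {V : Type} [AddCommGroup V] [Module k V] [FiniteDimensional k V]
  {ρ : Representation k H V}

theorem caseP (h : Mn π) (hM : M12) (h2 : (2 : k) ≠ 0) (h3 : (3 : k) ≠ 0) (hP : IsPGroup p π.ker)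
    (hd : finrank k V = 27) (hF : ∀ s : H, s ≠ 1 → ∀ e : ℕ, (e : k) ≠ 0 → s ^ e = 1 →
      finrank k (End.eigenspace (ρ s) 1) ≤ 17) : False := by
  obtain ⟨t, ht⟩ := exists_three h
  obtain ⟨a, ha⟩ := hP ⟨t ^ 3, by rw [MonoidHom.mem_ker, map_pow, ← ht.orderOf, pow_orderOf_eq_one]⟩
  have hp : p ≠ 3 := by
    rintro rfl
    exact h3 (by exact_mod_cast CharP.cast_eq_zero k 3)
  have hs : (π (t ^ p ^ a)).IsThreeCycle := by
    rw [map_pow, ← card_support_eq_three_iff, Perm.support_pow_coprime, ht.card_support]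
    rw [ht.orderOf]
    exact Nat.Coprime.pow_left _ ((Nat.coprime_primes Fact.out Nat.prime_three).2 hp)
  have h1 : (t ^ p ^ a) ^ 3 = 1 := by
    rw [← pow_mul, mul_comm, pow_mul]
    exact congrArg Subtype.val ha
  generalize t ^ p ^ a = s at hs h1
  obtain ⟨ω, hω⟩ := exists_omega (k := k)
  have b1 := m12p h hM h2 h3 hP hs hω _ V ρ hd le_rfl
  have b2 := m12p h hM h2 h3 hP hs (ω := ω ^ 2) (by linear_combination (ω ^ 2 - ω + 1) * hω) _ V ρ
    hd le_rfl
  have b3 := hF s (by rintro rfl; exact hs.ne_one (map_one π)) 3 (by exact_mod_cast h3) h1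
  have b4 := finrank_le_three (f := ρ s) (fun v => by
    rw [← End.mul_apply, ← End.mul_apply, ← map_mul, ← map_mul, ← pow_three', h1, map_one,
      End.one_apply]) h3 hω
  omega

theorem caseZ (h : Mn π) (hS : S12) (h2 : (2 : k) ≠ 0) (h3 : (3 : k) ≠ 0)
    (hZ : ∀ K : Subgroup H, K.Normal → K ≤ π.ker → ¬ p ∣ Nat.card K → K ≤ center H)
    (hd : finrank k V = 27) (hf : ∀ g, ρ g = 1 → g = 1) : IsPGroup p π.ker := by
  by_contra hP
  let P : Sylow p π.ker := default
  let Q := (P : Subgroup π.ker).map π.ker.subtype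
  have : Q.Normal := h.sylow P
  have hQ : IsPGroup p Q := P.isPGroup'.map _
  have hc : ∀ (l : ℕ) [Fact l.Prime], l ≠ p → ∀ S : Sylow l π.ker,
      (S : Subgroup π.ker).map π.ker.subtype ≤ center H := fun l _ hl S =>
    hZ _ (h.sylow S) (map_subtype_le _) fun e => by
      obtain ⟨n, hn⟩ := (IsPGroup.iff_card.1 (S.isPGroup'.map π.ker.subtype))
      rw [hn] at e
      exact hl ((Nat.prime_dvd_prime_iff_eq Fact.out Fact.out).1
        ((Fact.out : p.Prime).dvd_of_dvd_pow e)).symm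
  obtain ⟨l, _, hl, S, hS0⟩ : ∃ (l : ℕ) (_ : Fact l.Prime), l ≠ p ∧ ∃ S : Sylow l π.ker,
      (S : Subgroup π.ker) ≠ ⊥ := by
    by_contra! e
    have : (P : Subgroup π.ker) = ⊤ := top_of_sylow fun l _ => by
      by_cases hl : l = p
      · subst hl; exact ⟨P, le_rfl⟩
      · exact ⟨default, by rw [e l inferInstance hl]; exact bot_le⟩
    exact hP ((this ▸ P.isPGroup').of_equiv topEquiv)
  obtain ⟨⟨z, hzS⟩, hz1⟩ := ne_bot_iff_exists_ne_one.1 hS0
  have hdis := IsPGroup.disjoint_of_ne p l hl.symm _ _ P.isPGroup' S.isPGroup'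
  have hzQ : ∀ y ∈ (S : Subgroup π.ker), (y : H) ∈ Q → y = 1 := by
    rintro y hy ⟨y', hy', e⟩
    obtain rfl : y' = y := Subtype.ext e
    exact disjoint_def.1 hdis hy' hy
  have hQk : Q ≤ π.ker := map_subtype_le _
  have hk : (QuotientGroup.lift Q π hQk).ker ≤ center (H ⧸ Q) := by
    have e : ((center (H ⧸ Q)).comap (QuotientGroup.mk' Q)).subgroupOf π.ker = ⊤ :=
      top_of_sylow fun l _ => by
        by_cases hl : l = p
        · subst hl
          exact ⟨P, fun y hy => by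
            have : (y : H ⧸ Q) = 1 := (QuotientGroup.eq_one_iff _).2 ⟨y, hy, rfl⟩
            exact mem_subgroupOf.2 (mem_comap.2 (this ▸ one_mem _ : ((y : H) : H ⧸ Q) ∈ _))⟩
        · refine ⟨default, fun y hy => mem_subgroupOf.2 (mem_comap.2 (mem_center_iff.2 fun g => ?_))⟩
          obtain ⟨g, rfl⟩ := QuotientGroup.mk'_surjective Q g
          rw [← map_mul, ← map_mul]
          exact congrArg _ (mem_center_iff.1 (hc l hl default ⟨y, hy, rfl⟩) g)
    intro y hy
    obtain ⟨y, rfl⟩ := QuotientGroup.mk_surjective y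
    exact mem_subgroupOf.1 (e ▸ mem_top _ : (⟨y, hy⟩ : π.ker) ∈ _)
  have D := (h.quot Q hQk).dc (by decide) hk (z := ((z : H) : H ⧸ Q)) z.2 fun e =>
    hz1 (Subtype.ext (hzQ z hzS ((QuotientGroup.eq_one_iff _).1 e)))
  have zz : (z : H) * z = 1 := congrArg Subtype.val
    (hzQ (z * z) (mul_mem hzS hzS) ((QuotientGroup.eq_one_iff _).1 D.zz))
  have hzc := mem_center_iff.1 (hc l hl S ⟨z, hzS, rfl⟩)
  have hW : ∀ g, End.eigenspace (ρ z) (-1) ≤ (End.eigenspace (ρ z) (-1)).comap (ρ g) :=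
    fun g v hv => End.mem_eigenspace_iff.2 (by
      rw [← End.mul_apply, ← map_mul]
      exact (congrArg (fun x => ρ x v) (hzc g)).symm.trans (by
        simp only [map_mul, End.mul_apply]
        exact (congrArg (ρ g) (End.mem_eigenspace_iff.1 hv)).trans (map_smul _ _ _)))
  obtain ⟨w, hw⟩ : ∃ w, ρ z w - w ≠ 0 := by
    by_contra! e
    exact hz1 (Subtype.ext (Subtype.ext (hf z (LinearMap.ext fun w => sub_eq_zero.1 (e w)))))
  obtain ⟨v, hv, h0, hv'⟩ := H90.exists_fixed_of_isPGroup hQ (ρ.comp Q.subtype)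
    (End.eigenspace (ρ z) (-1)) ((Submodule.ne_bot_iff _).2 ⟨_, End.mem_eigenspace_iff.2 (by
      rw [map_sub, ← End.mul_apply, ← map_mul, zz, map_one]; simp), hw⟩) fun g => hW g
  have hU : ∀ g, End.eigenspace (ρ z) (-1) ⊓ H22.fixSp ρ Q ≤
      (End.eigenspace (ρ z) (-1) ⊓ H22.fixSp ρ Q).comap (ρ g) :=
    fun g v hv => ⟨hW g hv.1, fix_inv ρ Q g hv.2⟩
  have : Nontrivial ↥(End.eigenspace (ρ z) (-1) ⊓ H22.fixSp ρ Q) :=
    Submodule.nontrivial_iff_ne_bot.2 ((Submodule.ne_bot_iff _).2 ⟨v, ⟨hv, fun y hy => hv' ⟨y, hy⟩⟩, h0⟩)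
  have a := hS _ _ _ D p k h2 h3 _ (QuotientGroup.lift Q (ρ.subrepresentation _ hU)
    fun y hy => LinearMap.ext fun w => Subtype.ext (w.2.2 y hy))
    (LinearMap.ext fun w => Subtype.ext ((End.mem_eigenspace_iff.1 w.2.1).trans (neg_one_smul k _)))
  have := (End.eigenspace (ρ z) (-1) ⊓ H22.fixSp ρ Q).finrank_le
  omega

theorem caseR {R : Subgroup H} {l : ℕ} (hR : MR π R l) (hS : Sec 12) (hM : M12) (h2 : (2 : k) ≠ 0)
    (h3 : (3 : k) ≠ 0) (hp : ¬ p ∣ Nat.card R) (hd : finrank k V = 27) (hf : ∀ g, ρ g = 1 → g = 1)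
    (hF : ∀ s : H, s ≠ 1 → ∀ e : ℕ, (e : k) ≠ 0 → s ^ e = 1 →
      finrank k (End.eigenspace (ρ s) 1) ≤ 17) : False := by
  classical
  have h := hR.mn
  have := hR.nm
  have hinj : Function.Injective ρ := (injective_iff_map_eq_one ρ).2 hf
  have he : (Nat.card R : k) ≠ 0 := fun e => hp ((CharP.cast_eq_zero_iff k p _).1 e)
  have hpw : ∀ x ∈ R, x ^ Nat.card R = 1 := fun x hx =>
    congrArg Subtype.val (pow_card_eq_one' (x := (⟨x, hx⟩ : R)))
  have hb := hR.card_bar (d := 10) fun l _ U _ _ _ σ a _ =>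
    (bd_ge l 12).trans (hS H π h.range l _ U σ a)
  have hcm : ∀ x ∈ R, ∀ y ∈ π.ker, Commute y x := fun x hx y hy => hinj (by
    rw [map_mul, map_mul]
    refine H22.ext_of_wt (fun z : ↥(R ⊓ center H) => ρ z) (fun s t => ?_)
      (fun s => ⟨_, he, by rw [← map_pow, hpw _ s.2.1, map_one]⟩) _ _ fun χ v hv => ?_
    · rw [Commute, SemiconjBy, ← map_mul, ← map_mul, mem_center_iff.1 t.2.2]
    by_cases h0 : v = 0
    · simp [h0]
    have hU : ∀ g, W ρ (R ⊓ center H) χ ≤ (W ρ (R ⊓ center H) χ).comap (ρ g) := fun g v hv z => by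
      rw [← map_smul, ← hv z, ← End.mul_apply, ← End.mul_apply, ← map_mul, ← map_mul,
        mem_center_iff.1 z.2.2]
    have : Nontrivial (W ρ (R ⊓ center H) χ) :=
      Submodule.nontrivial_iff_ne_bot.2 ((Submodule.ne_bot_iff _).2 ⟨v, hv, h0⟩)
    have hle : finrank k (W ρ (R ⊓ center H) χ) ≤ 27 := hd ▸ Submodule.finrank_le _
    have := hR.comm_of_small (ρ.subrepresentation _ hU)
      (fun z a b => ⟨χ ⟨z, a, b⟩, LinearMap.ext fun w => Subtype.ext (w.2 ⟨z, a, b⟩)⟩)
      ((Nat.pow_le_pow_left hle 2).trans_lt (lt_of_lt_of_le (by norm_num) hb)) x hx y hy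
    exact congrArg Subtype.val (LinearMap.congr_fun this.eq ⟨v, hv⟩))
  have htop := H22.iSup_wt_eq_top (fun x : R => ρ x)
    (fun s t => by rw [Commute, SemiconjBy, ← map_mul, ← map_mul, (hcm t t.2 s (hR.le s.2)).eq])
    (fun s => ⟨_, he, by rw [← map_pow, hpw _ s.2, map_one]⟩)
  have hsum : ∑ χ : WL ρ R, finrank k (W ρ R χ.1) = 27 := by
    have e : ⨆ χ ∈ (Finset.univ : Finset (WL ρ R)), W ρ R χ.1 = ⊤ := by
      rw [eq_top_iff, ← htop]
      refine iSup_le fun χ => ?_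
      by_cases h0 : W ρ R χ = ⊥
      · exact h0.le.trans bot_le
      · exact le_iSup₂_of_le (⟨χ, h0⟩ : WL ρ R) (Finset.mem_univ _) le_rfl
    rw [← finrank_biSup indep, e, finrank_top, hd]
  obtain ⟨s, hs⟩ := exists_three h
  obtain ⟨u, hu, hus⟩ : ∃ u ∈ R, u * s ≠ s * u := by
    by_contra! e
    rcases h.dich (centralizer (R : Set H)) with e1 | e1
    · exact hs.ne_one (e1 e)
    · exact hR.nc fun x hx => mem_center_iff.2 fun g =>
        ((e1 ▸ mem_top g : g ∈ centralizer (R : Set H)) x hx).symm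
  have ht : u⁻¹ * (s⁻¹ * u * s) ∈ R := R.mul_mem (R.inv_mem hu) (hR.nm.conj_mem' u hu s)
  have b1 := hF _ (fun e => hus (by
    rw [inv_mul_eq_one] at e
    nth_rw 2 [e]
    group)) _ he (hpw _ ht)
  have b2 : ∑ χ ∈ Finset.univ.filter (fun χ : WL ρ R => s⁻¹ • χ = χ), finrank k (W ρ R χ.1) ≤ 17 := by
    rw [← finrank_biSup indep]
    refine (Submodule.finrank_mono (iSup₂_le fun χ hχ v hv => End.mem_eigenspace_iff.2 ?_)).trans b1
    have e1 : s • χ = χ := (inv_smul_eq_iff.1 (Finset.mem_filter.1 hχ).2).symm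
    have e2 := congrFun (congrArg Subtype.val e1) ⟨u, hu⟩
    have e3 := hv (MulAut.conjNormal s⁻¹ ⟨u, hu⟩)
    rw [smul_val] at e2
    rw [e2, ← hv ⟨u, hu⟩] at e3
    simp only [MulAut.conjNormal_apply, inv_inv] at e3
    rw [map_mul, End.mul_apply, e3, ← End.mul_apply, ← map_mul, inv_mul_cancel, map_one, one_smul,
      End.one_apply]
  let _ : MulAction H (Σ χ : WL ρ R, Fin (finrank k (W ρ R χ.1))) :=
    { smul := fun g q => ⟨g • q.1, Fin.cast (finrank_smul g q.1).symm q.2⟩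
      one_smul := fun q => Sigma.ext (one_smul H q.1)
        ((Fin.heq_ext_iff (finrank_smul 1 q.1)).2 rfl)
      mul_smul := fun g g' q => Sigma.ext (mul_smul g g' q.1)
        ((Fin.heq_ext_iff ((finrank_smul _ q.1).trans
          ((finrank_smul g _).trans (finrank_smul g' q.1)).symm)).2 rfl) }
  have hk : ∀ y ∈ π.ker, ∀ q : Σ χ : WL ρ R, Fin (finrank k (W ρ R χ.1)), y • q = q :=
    fun y hy q => Sigma.ext (smul_of_comm (fun x hx => hcm x hx y hy) q.1)
      ((Fin.heq_ext_iff (finrank_smul y q.1)).2 rfl)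
  obtain ⟨ω, hω⟩ := exists_omega (k := k)
  have hX : finrank k ((Σ χ : WL ρ R, Fin (finrank k (W ρ R χ.1))) → k) = 27 := by
    rw [finrank_fintype_fun_eq_card, Fintype.card_sigma, ← hsum]
    simp
  have b3 := m12 h hM p h2 h3 (permRep k H (Σ χ : WL ρ R, Fin (finrank k (W ρ R χ.1)))) hX.le
    (fun y hy => permRep_eq_one (hk y hy)) hs hω
  have b4 := moved_le (fun q : Σ χ : WL ρ R, Fin (finrank k (W ρ R χ.1)) => s⁻¹ • q) (fun q => by
      rw [← mul_smul, ← mul_smul, ← pow_three']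
      exact hk _ (by rw [MonoidHom.mem_ker, map_pow, map_inv, inv_pow, ← hs.orderOf,
        pow_orderOf_eq_one, inv_one]) q)
    (permRep k H _ s) (fun _ _ => rfl) (ω := ω) (by linear_combination (ω - 1) * hω)
  have b5 : ∑ χ ∈ Finset.univ.filter (fun χ : WL ρ R => ¬ s⁻¹ • χ = χ), finrank k (W ρ R χ.1) ≤
      (Finset.univ.filter fun q : Σ χ : WL ρ R, Fin (finrank k (W ρ R χ.1)) => s⁻¹ • q ≠ q).card := by
    refine le_trans (le_of_eq ?_) (Finset.card_le_card (s := (Finset.univ.filter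
      fun χ : WL ρ R => ¬ s⁻¹ • χ = χ).sigma fun _ => Finset.univ) fun q hq => ?_)
    · simp
    · exact Finset.mem_filter.2 ⟨Finset.mem_univ _, fun e =>
        (Finset.mem_filter.1 (Finset.mem_sigma.1 hq).1).2 (congrArg Sigma.fst e)⟩
  have b6 := Finset.sum_filter_add_sum_filter_not Finset.univ (fun χ : WL ρ R => s⁻¹ • χ = χ)
    fun χ => finrank k (W ρ R χ.1)
  omega

theorem jobRed : H40.AS.JobRed := by
  intro hS hM hS' H _ _ π hπ p _ k _ _ _ h2 h3 V _ _ _ ρ hd hf hF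
  obtain ⟨L, h⟩ := exists_mn (by decide) hπ
  have hf' : ∀ g, (ρ.comp L.subtype) g = 1 → g = 1 := fun g hg => Subtype.ext (hf g hg)
  have hF' : ∀ s : L, s ≠ 1 → ∀ e : ℕ, (e : k) ≠ 0 → s ^ e = 1 →
      finrank k (End.eigenspace ((ρ.comp L.subtype) s) 1) ≤ 17 := fun s h1 e he hs =>
    hF s (fun e => h1 (Subtype.ext e)) e he (congrArg Subtype.val hs)
  refine caseP h hM h2 h3 (caseZ (p := p) h hS' h2 h3 (fun K hK hle hp => ?_) hd hf') hd hF'
  by_contra hc
  obtain ⟨R, hR, l, hl⟩ := exists_mr h hK hle hc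
  exact caseR (p := p) hl hS hM h2 h3 (fun e => hp (e.trans (card_dvd_of_le hR))) hd hf' hF'

end H71.AS
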