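/- C7 tower: the characteristic two core, case C (JobE4C). -/
import Cfsg.Agent.H60.WrKit

set_option autoImplicit false
set_option maxHeartbeats 400000

namespace H71.C7
open Cfsg Cfsg.Geo Matrix H19 Module H60.Wr
local notation "em" => H60.Wr.em
open scoped MatrixGroups

universe u
variable {F : Type u} [Field F] {k t : ℕ} {i : Fin t} {M : Subgroup (GG k t F)}
  {N' : EE k t F} {w v : Fin k → F}

theorem inC_ext {c c' : EE k t F} (hc : InC i c) (hc' : InC i c') (hw : w ≠ 0)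
    (h : ∀ e, c *ᵥ (ten k F i).t e w = c' *ᵥ (ten k F i).t e w) : c = c' := by
  obtain ⟨ψ, hψ⟩ := exists_dot_one hw
  have hψ0 : ψ ≠ 0 := by rintro rfl; simp at hψ
  refine em_cancel (ro_ne_zero hw hψ0) hc hc' ?_
  rw [hc, hc']
  refine fix_iff.1 (fun y hy => ?_) ψ
  obtain ⟨e, rfl⟩ := (ten k F i).mem_LS_span.1 hy
  exact h e

/-- `N'(e ⊗ v) = N'(c (e ⊗ w))`. -/
def Th (i : Fin t) (N' : EE k t F) (w v : Fin k → F) (c : EE k t F) : Prop :=
  InC i c ∧ ∀ e, N' *ᵥ (ten k F i).t e v = N' *ᵥ (c *ᵥ (ten k F i).t e w)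

theorem Th.add {v' : Fin k → F} {c c' : EE k t F} (h : Th i N' w v c) (h' : Th i N' w v' c') :
    Th i N' w (v + v') (c + c') :=
  ⟨h.1.add h'.1, fun e => by rw [map_add, mulVec_add, h.2, h'.2, add_mulVec, mulVec_add]⟩

theorem Th.self : Th i N' w w 1 := ⟨InC.one, fun e => by rw [one_mulVec]⟩

theorem exists_th (hw : w ≠ 0) (hr : finrank F (rg N') = k ^ (t - 1))
    (hinj : LS i (F ∙ w) ⊓ kn N' = ⊥) (v : Fin k → F) : ∃ c, Th i N' w v c := by
  let L : (Fin k → F) → (UU k F i →ₗ[F] VV k t F) := fun x =>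
    toLin' N' ∘ₗ ((ten k F i).t.flip x)
  have hL : ∀ x e, L x e = N' *ᵥ (ten k F i).t e x := fun x e => by simp [L]
  have hi : Function.Injective (L w) := by
    rw [← LinearMap.ker_eq_bot, eq_bot_iff]
    intro e he
    rw [LinearMap.mem_ker, hL] at he
    have : (ten k F i).t e w ∈ LS i (F ∙ w) ⊓ kn N' :=
      ⟨(ten k F i).t_mem_LS e (Submodule.mem_span_singleton_self w), mem_kn.2 he⟩
    rw [hinj, Submodule.mem_bot, H56.Ten.t_eq_zero] at this
    exact this.resolve_right hw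
  have hle : ∀ x, LinearMap.range (L x) ≤ rg N' := fun x => by
    rintro _ ⟨e, rfl⟩; exact mem_rg.2 ⟨_, (hL x e).symm⟩
  have heq : LinearMap.range (L w) = rg N' :=
    Submodule.eq_of_le_of_finrank_eq (hle w) (by
      rw [LinearMap.finrank_range_of_inj hi, finrank_U, hr])
  let κ : UU k F i →ₗ[F] UU k F i := (LinearEquiv.ofInjective (L w) hi).symm.toLinearMap ∘ₗ
    (L v).codRestrict (LinearMap.range (L w)) fun e => heq ▸ hle v ⟨e, rfl⟩
  have hκ : ∀ e, L w (κ e) = L v e := fun e => by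
    have := (LinearEquiv.ofInjective (L w) hi).apply_symm_apply
      ⟨L v e, heq ▸ hle v ⟨e, rfl⟩⟩
    exact congrArg Subtype.val this
  obtain ⟨c, hc, hc'⟩ := exists_inC i κ
  exact ⟨c, hc, fun e => by rw [hc', ← hL, ← hL, hκ]⟩

theorem sw_inj {N : EE k t F} {τ : GG k t F} (h : Sw N N' τ) (h2 : N * N = 0)
    (h0 : rg N' ⊓ kn N = ⊥) : rg N ⊓ kn N' = ⊥ := by
  rw [eq_bot_iff, ← h0]
  refine le_inf h.inf' (inf_le_left.trans ?_)
  rintro _ ⟨y, rfl⟩
  rw [mem_kn, toLin'_apply, mulVec_mulVec, h2, zero_mulVec]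

theorem th_unit {B : Frm (Fin k) F} (H : C2 M) (hM : M ≤ (B.pow t).Iso)
    (hσ : ∀ c, B.σ c = c → c = 0 ∨ c = 1) {φ χ : Fin k → F} (hw : Rt M i w φ) (hv : Rt M i v χ)
    (e1 : φ ⬝ᵥ v = 0) (e2 : χ ⬝ᵥ w = 0) (hvw : v ∉ F ∙ w) {τ τ' : GG k t F} (hτ : τ ∈ M)
    (hτ' : τ' ∈ M) (s1 : Sw (em i (ro w φ)) N' τ) (s2 : Sw (em i (ro v χ)) N' τ')
    (hinj : LS i (F ∙ v) ⊓ kn N' = ⊥) {c : EE k t F} (hc : Th i N' w v c) :
    (B.pow t).adj c * c = 1 := by
  have hδ : cj (τ' * τ) (em i (ro w φ)) = em i (ro v χ) := by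
    rw [cj_mul, s1.conj, ← s2.conj, ← cj_mul, s2.sq, cj_one]
  have hδM : τ' * τ ∈ M := mul_mem hτ' hτ
  have hT : τ' * τ ∈ TT k t F := H.R hδM hw (hδ ▸ H.root_mem hv)
  obtain ⟨s, d, hd, hsd⟩ := (nm_of_cj hT hw.not_sc (hδ ▸ InA.em i _)).exists_eq
  -- `s w` is a multiple of `v`
  obtain ⟨α, hα⟩ : ∃ α : F, (s : Mk k F) *ᵥ w = α • v := by
    rw [hsd, cj_mul, hd.cj_em, cj_emG_em, em_inj, cj_ro] at hδ
    obtain ⟨y, hy⟩ := exists_dot_one' hw.2.1
    have := congrArg (· *ᵥ ((s : Mk k F) *ᵥ y)) hδ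
    simp only [ro_mulVec] at this
    rw [← dotProduct_mulVec, mulVec_mulVec, Units.inv_mul, one_mulVec, hy, one_smul] at this
    exact ⟨_, this⟩
  obtain ⟨ψ, hψ1, hψ2⟩ : ∃ ψ : Fin k → F, ψ ⬝ᵥ w = 1 ∧ ψ ⬝ᵥ v = 0 := by
    have : w ∉ F ∙ v := by
      intro h
      obtain ⟨a, ha⟩ := Submodule.mem_span_singleton.1 h
      have a0 : a ≠ 0 := by rintro rfl; exact hw.1 (by simpa using ha.symm)
      exact hvw (Submodule.mem_span_singleton.2 ⟨a⁻¹, by rw [← ha, smul_smul, inv_mul_cancel₀ a0,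
        one_smul]⟩)
    obtain ⟨ψ, h1, h2⟩ := exists_dot_of_notMem this
    exact ⟨ψ, h1, h2 v (Submodule.mem_span_singleton_self v)⟩
  obtain ⟨κ, hκ⟩ := hc.1.exists_end
  obtain ⟨μ, hμ⟩ := hd.exists_end
  have key : ∀ e, c *ᵥ (ten k F i).t e w =
      ((-(ψ ⬝ᵥ (s : Mk k F) *ᵥ v)) • (d : EE k t F)) *ᵥ (ten k F i).t e w := fun e => by
    set z := (ten k F i).t e v - (ten k F i).t (κ e) w with hz
    have z1 : N' *ᵥ z = 0 := by rw [hz, mulVec_sub, hc.2, hκ, sub_self]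
    have z2 : em i (ro w φ) *ᵥ z = 0 := by
      rw [hz, mulVec_sub, em_t, em_t, ro_mulVec, ro_mulVec, e1, hw.2.2.1]; simp
    have z3 : em i (ro v χ) *ᵥ z = 0 := by
      rw [hz, mulVec_sub, em_t, em_t, ro_mulVec, ro_mulVec, e2, hv.2.2.1]; simp
    have z4 : ((τ' * τ : GG k t F) : EE k t F) *ᵥ z = z := by
      rw [Units.val_mul, ← mulVec_mulVec, s1.fix z z2 z1, s2.fix z z3 z1]
    rw [hsd, Units.val_mul, coe_emG, ← mulVec_mulVec] at z4
    have z5 := congrArg (em i (ro w ψ) *ᵥ ·) z4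
    simp only [hz, mulVec_sub, hμ, em_t, ro_mulVec, hα, hψ1, hψ2, smul_zero, mulVec_smul,
      zero_smul, map_zero, one_smul, sub_zero, zero_sub, map_smul] at z5
    rw [hκ, smul_mulVec, hμ, neg_smul, z5, neg_neg]
  have hcd : c = (-(ψ ⬝ᵥ (s : Mk k F) *ᵥ v)) • (d : EE k t F) :=
    inC_ext hc.1 (hd.smul _) hw.1 key
  generalize -(ψ ⬝ᵥ (s : Mk k F) *ᵥ v) = γ at hcd
  have hγ : γ ≠ 0 := by
    rintro rfl
    have := nontrivial_U (k := k) (F := F) i hw.1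
    obtain ⟨e, he⟩ := exists_ne (0 : UU k F i)
    have h1 := hc.2 e
    rw [hcd, zero_smul, zero_mulVec, mulVec_zero] at h1
    have : (ten k F i).t e v ∈ LS i (F ∙ v) ⊓ kn N' :=
      ⟨(ten k F i).t_mem_LS e (Submodule.mem_span_singleton_self v), mem_kn.2 h1⟩
    rw [hinj, Submodule.mem_bot, H56.Ten.t_eq_zero] at this
    exact this.elim he hv.1
  have h1 : (B.pow t).adj ((τ' * τ : GG k t F) : EE k t F) * (τ' * τ : GG k t F) = 1 :=
    In.adj_mul (In.coe.2 (hM hδM))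
  rw [hsd, Units.val_mul, coe_emG, Frm.adj_mul, adj_em] at h1
  have h2 : em i (B.adj s * (s : Mk k F)) * ((B.pow t).adj d * (d : EE k t F)) =
      (1 : F) • (1 : EE k t F) := by
    rw [one_smul, ← h1, map_mul, ← hd.adj B (B.adj s), mul_assoc (em i _), mul_assoc (em i _),
      ← mul_assoc (em i (s : Mk k F)), hd.adj B, mul_assoc]
  obtain ⟨-, m, hm⟩ := sc_of_em_mul ((hd.adj B).mul hd) one_ne_zero h2
  have h3 : (B.pow t).adj c * c = (B.σ γ * γ * m) • (1 : EE k t F) := by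
    rw [hcd, Frm.adj_smul, smul_mul_smul_comm, hm, smul_smul, pow_sig]
  have : Nonempty (Fin k) := ⟨⟨0, by have := H.k3; omega⟩⟩
  have h4 : B.σ (B.σ γ * γ * m) = B.σ γ * γ * m := by
    have := congrArg (B.pow t).adj h3
    rw [Frm.adj_mul, Frm.adj_adj, Frm.adj_smul, Frm.adj_one, h3, pow_sig] at this
    exact (smul_left_injective F one_ne_zero this).symm
  rcases hσ _ h4 with h | h
  · exfalso
    have m0 : m ≠ 0 := by
      rintro rfl
      rw [hm] at h2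
      simp at h2
    exact mul_ne_zero (mul_ne_zero (by simpa using hγ) hγ) m0 h
  · rw [h3, h, one_smul]

theorem jobE4C : JobE4C.{u} := by
  intro hT F _ _ k t M N' i w φ H hC hO hw hE
  obtain ⟨B, hM, k4, hσ, hroot, hv⟩ := hC
  obtain ⟨hww, r, hr, rfl⟩ := root_iso hM hw
  obtain ⟨v, v', hv⟩ := hv w hw.1 hww
  have rt : ∀ z, B.f z z = 0 → z ∉ F ∙ w → ∃ c : F, Rt M i z (c • ph B z) := fun z h1 h2 =>
    hroot i w _ hw z (by rintro rfl; exact h2 (zero_mem _)) h1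
  -- the critical intersection is zero
  have h0 : LS i (F ∙ w) ⊓ rg N' = ⊥ := by
    obtain ⟨a1, a2, a3⟩ := hv v (by simp)
    obtain ⟨c, hc⟩ := rt v a1 a3
    have e : (c • ph B v) ⬝ᵥ w = 0 := by
      rw [smul_dotProduct, ph_dot, B.eq_zero_comm.1 a2, smul_zero]
    obtain ⟨τ, -, hτ⟩ := hT F k t M N' i v _ w H hO hc hw.1 (hE.le hc e) (Or.inr k4)
    have h1 : LS i (F ∙ w) ⊓ rg N' ≤ LS i (F ∙ v) := by
      refine le_trans (le_inf inf_le_right (inf_le_left.trans ?_))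
        (hτ.inf.trans (rg_em_ro i hc.2.1 v).le)
      rw [kn_em, LS_le_LS, Submodule.span_singleton_le_iff_mem, mem_kn, ro_mulVec, e, zero_smul]
    rw [eq_bot_iff, ← (ten k F i).LS_bot,
      ← (Submodule.disjoint_span_singleton_of_notMem a3).eq_bot, H56.Ten.LS_inf]
    exact le_inf inf_le_left h1
  have h1 : ∀ z χ, Rt M i z χ → rg N' ⊓ kn (em i (ro z χ)) = ⊥ := fun z χ hz => by
    have := hE i z χ hz
    rw [h0, finrank_bot, Nat.le_zero, Submodule.finrank_eq_zero] at this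
    exact this
  have h2 : ∀ z χ, Rt M i z χ → ∃ τ ∈ M, Sw (em i (ro z χ)) N' τ := fun z χ hz =>
    hT F k t M N' i z χ z H hO hz hz.1 (by rw [h1 z χ hz]; exact bot_le)
      (Or.inl (Submodule.mem_span_singleton_self z))
  have h3 : ∀ z χ, Rt M i z χ → LS i (F ∙ z) ⊓ kn N' = ⊥ := fun z χ hz => by
    obtain ⟨τ, -, hτ⟩ := h2 z χ hz
    rw [← rg_em_ro i hz.2.1]
    exact sw_inj hτ hz.em_sq (h1 z χ hz)
  obtain ⟨τ, hτ, sτ⟩ := h2 w _ hw
  have h4 : ∀ z c, B.f z z = 0 → B.f z w = 0 → z ∉ F ∙ w → Th i N' w z c →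
      (B.pow t).adj c * c = 1 := fun z c a1 a2 a3 hc => by
    obtain ⟨b, hb⟩ := rt z a1 a3
    obtain ⟨τ', hτ', sτ'⟩ := h2 z _ hb
    exact th_unit H hM hσ hw hb (by rw [smul_dotProduct, ph_dot, a2, smul_zero])
      (by rw [smul_dotProduct, ph_dot, B.eq_zero_comm.1 a2, smul_zero]) a3 hτ hτ' sτ sτ'
      (h3 z _ hb) hc
  have h5 : ∀ z c, B.f z z = 0 → B.f z w = 0 → z ∉ F ∙ w → Th i N' w z c →
      (B.pow t).adj c + c = -1 := fun z c a1 a2 a3 hc => by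
    have b1 := h4 z c a1 a2 a3 hc
    have b2 := h4 (z + w) (c + 1)
      (by rw [B.add_left, B.add_right, B.add_right, a1, a2, hww, B.eq_zero_comm.1 a2]; simp)
      (by rw [B.add_left, a2, hww, add_zero])
      (fun h => a3 (by simpa using sub_mem h (Submodule.mem_span_singleton_self w)))
      (hc.add Th.self)
    rw [Frm.adj_add, Frm.adj_one, add_mul, mul_add, mul_add, b1, mul_one, one_mul, one_mul] at b2
    linear_combination (norm := noncomm_ring) b2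
  obtain ⟨c, hc⟩ := exists_th hw.1 hO.rank (h3 w _ hw) v
  obtain ⟨c', hc'⟩ := exists_th hw.1 hO.rank (h3 w _ hw) v'
  obtain ⟨a1, a2, a3⟩ := hv v (by simp)
  obtain ⟨b1, b2, b3⟩ := hv v' (by simp)
  obtain ⟨d1, d2, d3⟩ := hv (v + v') (by simp)
  have g1 := h5 v c a1 a2 a3 hc
  have g2 := h5 v' c' b1 b2 b3 hc'
  have g3 := h5 _ _ d1 d2 d3 (hc.add hc')
  rw [Frm.adj_add] at g3
  have : Nonempty (Fin k) := ⟨⟨0, by omega⟩⟩
  have : (1 : EE k t F) = 0 := by linear_combination (norm := noncomm_ring) g1 + g2 - g3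
  exact one_ne_zero this

end H71.C7
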