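import Cfsg.Agent.H58.ElMu
import Cfsg.Agent.H53.CLay
import Cfsg.Agent.H57.SLCard
import Cfsg.Prelude.Def_GeometricClasses

/-!
Elements of prime order of `PSL_n(q)` conjugate into a subgroup `H` of `GL_n(q)`: reduction to
elementary divisors, and the standard derangements.
-/

set_option autoImplicit false
set_option maxHeartbeats 400000
set_option linter.unusedSectionVars false
open Polynomial Module Matrix H53 H58 Cfsg.Geo

namespace H71.El

variable {F : Type*} [Field F] {ι : Type} [Fintype ι] [DecidableEq ι] {H : Subgroup (GL ι F)}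
  {r : ℕ} {A : Matrix ι ι F}

/-- some element of `H` has the elementary divisors `s` -/
def GC (H : Subgroup (GL ι F)) (s : Multiset F[X]) : Prop := ∃ h ∈ H, med (h : Matrix ι ι F) = s

/-- `A` has determinant one and order `r` modulo scalars -/
structure Po (r : ℕ) (A : Matrix ι ι F) : Prop where
  det : A.det = 1
  pow : ∃ z : F, A ^ r = z • 1
  ne : ∀ z : F, A ≠ z • 1

/-- the left side of the rows -/
def AllS (H : Subgroup (GL ι F)) (r : ℕ) : Prop :=
  ∀ x : SpecialLinearGroup ι F,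
    (∃ z : F, ((x ^ r : SpecialLinearGroup ι F) : Matrix ι ι F) = z • (1 : Matrix ι ι F)) →
    (∀ z : F, (x : Matrix ι ι F) ≠ z • (1 : Matrix ι ι F)) →
    ∃ P : SpecialLinearGroup ι F, P⁻¹ * x * P ∈ H.comap SpecialLinearGroup.toGL

/-- every element of order `r` is conjugate in `GL` into `H` -/
def AllG (H : Subgroup (GL ι F)) (r : ℕ) : Prop := ∀ A : Matrix ι ι F, Po r A → GC H (med A)

theorem allS_iff_gl : (∀ x ∈ specialLinear ι F,
    (∃ z : F, ((x ^ r : GL ι F) : Matrix ι ι F) = z • (1 : Matrix ι ι F)) →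
    (∀ z : F, (x : Matrix ι ι F) ≠ z • (1 : Matrix ι ι F)) →
    ∃ g ∈ specialLinear ι F, g⁻¹ * x * g ∈ H) ↔ AllS H r := by
  rw [specialLinear, ← H57.range_toGL_eq_ker_det]
  constructor
  · intro h x h1 h2
    obtain ⟨_, ⟨P, rfl⟩, h3⟩ := h _ ⟨x, rfl⟩ (by rw [← map_pow]; exact h1) h2
    exact ⟨P, by simpa using h3⟩
  · rintro h _ ⟨x, rfl⟩ h1 h2
    obtain ⟨P, h3⟩ := h x (by rw [← map_pow] at h1; exact h1) h2
    exact ⟨_, ⟨P, rfl⟩, by simpa using h3⟩

theorem relIndex_eq : H.relIndex (specialLinear ι F) =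
    (H.comap (SpecialLinearGroup.toGL : SpecialLinearGroup ι F →* GL ι F)).index := by
  rw [specialLinear, ← H57.range_toGL_eq_ker_det, Subgroup.index_comap]

theorem gc_of_mem {x P : SpecialLinearGroup ι F}
    (h : P⁻¹ * x * P ∈ H.comap SpecialLinearGroup.toGL) : GC H (med (x : Matrix ι ι F)) := by
  have : IsConj x (P⁻¹ * x * P) := isConj_iff.2 ⟨P⁻¹, by rw [inv_inv]⟩
  exact ⟨_, h, ((isConj_iff_med_eq _ _).1 (isConj_coe_of_isConj_sl this)).symm⟩

theorem exists_sl (h : A.det = 1) : ∃ x : SpecialLinearGroup ι F, (x : Matrix ι ι F) = A :=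
  ⟨⟨A, h⟩, rfl⟩

theorem AllS.allG (h : AllS H r) : AllG H r := fun A hA => by
  obtain ⟨x, rfl⟩ := exists_sl hA.det
  obtain ⟨P, h1⟩ := h x hA.pow hA.ne
  exact gc_of_mem h1

theorem exists_mem_of_gc {x : SpecialLinearGroup ι F} (h : GC H (med (x : Matrix ι ι F)))
    (hd : ∀ c : Fˣ, ∃ k ∈ H, c * GeneralLinearGroup.det k ∈ detC (x : Matrix ι ι F)) :
    ∃ P : SpecialLinearGroup ι F, P⁻¹ * x * P ∈ H.comap SpecialLinearGroup.toGL := by
  obtain ⟨h, hh, e⟩ := h
  obtain ⟨g, hg⟩ := isConj_matrix_iff.1 ((isConj_iff_med_eq _ _).2 e.symm)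
  obtain ⟨k, hk, h1⟩ := hd (GeneralLinearGroup.det g)
  rw [mul_comm, ← map_mul] at h1
  obtain ⟨P, h2, h3⟩ := (det_mem_detC_iff _ _).1 h1
  obtain ⟨P', e0⟩ := exists_sl h2
  refine ⟨P'⁻¹, ?_⟩
  have e1 : SpecialLinearGroup.toGL P' = P := Units.ext e0
  have : P * SpecialLinearGroup.toGL x * P⁻¹ = k * h * k⁻¹ := Units.ext (by
    rw [Units.val_mul, Units.val_mul, SpecialLinearGroup.coe_GL_coe_matrix, h3, _root_.mul_inv_rev]
    simp only [Units.val_mul, ← hg, mul_assoc])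
  rw [Subgroup.mem_comap, inv_inv, map_mul, map_mul, map_inv, e1, this]
  exact H.mul_mem (H.mul_mem hk hh) (H.inv_mem hk)

theorem allS_iff (hd : ∀ A : Matrix ι ι F, Po r A → detC A = ⊤) : AllS H r ↔ AllG H r :=
  ⟨AllS.allG, fun h x h1 h2 => exists_mem_of_gc (h x ⟨x.det_coe, h1, h2⟩) fun c =>
    ⟨1, H.one_mem, by rw [hd x ⟨x.det_coe, h1, h2⟩]; trivial⟩⟩

theorem Po.isUnit (h : Po r A) : IsUnit A := (isUnit_iff_isUnit_det A).2 (h.det ▸ isUnit_one)

theorem detC_smul (c : F) (hc : c ≠ 0) (A : Matrix ι ι F) : detC (c • A) = detC A := by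
  ext d
  simp only [mem_detC, Matrix.mul_smul, Matrix.smul_mul, (smul_right_injective _ hc).eq_iff]

theorem smul_inv_smul' {c : F} (hc : c ≠ 0) (A : Matrix ι ι F) : c • c⁻¹ • A = A := smul_inv_smul₀ hc A

/-- in characteristic `p`, an element of order `p` modulo scalars is a scalar times a unipotent -/
theorem exists_unip [Finite F] [Nonempty ι] (p : ℕ) [Fact p.Prime] [CharP F p] (h : Po p A) :
    ∃ (c : F) (B : Matrix ι ι F), c ≠ 0 ∧ A = c • B ∧ IsNilpotent (B - 1) ∧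
      ∀ k ∈ mjt B, 0 < k ∧ k ≤ p := by
  obtain ⟨z, hz⟩ := h.pow
  obtain ⟨b, hb, -, h1⟩ := exists_scale_char p h.isUnit hz
  rw [← map_smul] at h1
  exact ⟨b, _, hb, (smul_inv_smul' hb A).symm,
    (isNilpotent_toLin'_sub_one _).1 (isNilpotent_of_pow_char p h1), le_of_pow_char p h1⟩

theorem detC_top [Finite F] [Nonempty ι] (p : ℕ) [hp : Fact p.Prime] [CharP F p] (hr : r.Prime)
    (h2 : r = 2 ∨ r ≠ p) (h : Po r A) : detC A = ⊤ := by
  by_cases hrp : r = p
  · subst hrp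
    obtain rfl : r = 2 := by tauto
    obtain ⟨c, B, hc, rfl, h1, h3⟩ := exists_unip 2 h
    obtain ⟨k, hk⟩ := Multiset.exists_mem_of_ne_zero (s := mjt B)
      (by rintro e; have := sum_mjt B; rw [e] at this; exact Fintype.card_ne_zero this.symm)
    rw [detC_smul c hc]
    refine eq_top_of_pow_mem_of_coprime_card (pow_mem_detC_of_mjt h1 hk) ?_
    obtain ⟨h4, h5⟩ := h3 k hk
    rw [Nat.card_units]
    have := not_dvd_pow_sub_one hr (char_dvd_card (F := F) 2) Nat.card_pos one_pos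
    rw [pow_one] at this
    interval_cases k
    · simp
    · exact (Nat.Prime.coprime_iff_not_dvd hr).2 this
  · obtain ⟨z, hz⟩ := h.pow
    exact (isSS_of_pow_eq_smul (natCast_ne_zero_of_prime_ne p hr hrp)
      (ne_zero_of_pow_eq_smul h.isUnit hz) hz).detC_eq_top

theorem gc_iff_end {s : Multiset F[X]} {P : End F (ι → F) → Prop}
    (hH : ∀ g : GL ι F, g ∈ H ↔ P (toLin' (g : Matrix ι ι F))) (hP : ∀ f, P f → IsUnit f) :
    GC H s ↔ ∃ f, P f ∧ ed f = s := by
  refine ⟨fun ⟨h, h1, h2⟩ => ⟨_, (hH h).1 h1, h2⟩, fun ⟨f, h1, h2⟩ => ?_⟩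
  obtain ⟨g, rfl⟩ := exists_gl_toLin'_eq (hP f h1)
  exact ⟨g, (hH g).2 h1, h2⟩

theorem GC.smul (hZ : scalars ι F ≤ H) (h : GC H (med A)) {c : F} (hc : c ≠ 0) :
    GC H (med (c • A)) := by
  obtain ⟨h, h1, h2⟩ := h
  refine ⟨_, H.mul_mem (hZ ⟨Units.mk0 c hc, rfl⟩) h1, ?_⟩
  have := med_smul (Units.mk0 c hc) A
  rw [← h2, ← med_smul] at this
  rw [← show _ = med (c • A) from this.symm]
  congr 1
  simp [smul_eq_diagonal_mul]

theorem GC.of_smul (hZ : scalars ι F ≤ H) {c : F} (hc : c ≠ 0) (h : GC H (med (c • A))) :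
    GC H (med A) := by simpa [hc] using h.smul hZ (inv_ne_zero hc)

theorem med_eq_of_nonpow (hr : r.Prime) {B : Matrix ι ι F} {z : F} (hz : ∀ b, b ^ r ≠ z)
    (h : A ^ r = z • 1) (h' : B ^ r = z • 1) : med A = med B := by
  obtain ⟨k, h1, h2⟩ := ed_of_nonpow hr hz (toLin'_pow_eq h)
  obtain ⟨l, h3, h4⟩ := ed_of_nonpow hr hz (toLin'_pow_eq h')
  obtain rfl : k = l := Nat.eq_of_mul_eq_mul_right hr.pos (h1.symm.trans h3)
  exact h2.trans h4.symm

theorem pow_eq_of_med {B : Matrix ι ι F} (h : med A = med B) {z : F} (h' : B ^ r = z • 1) :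
    A ^ r = z • 1 := by rwa [pow_eq_smul_one_iff_med, h, ← pow_eq_smul_one_iff_med]

theorem ne_of_med {B : Matrix ι ι F} (h : med A = med B) (h' : ∀ z : F, B ≠ z • 1) (z : F) :
    A ≠ z • 1 := fun e => h' z (by simpa using pow_eq_of_med (r := 1) h.symm (by simpa using e))

theorem Po.exLin (hr : r.Prime) (h : Po r A) {z : F} (hz : ∀ b, b ^ r ≠ z) (h1 : A ^ r = z • 1) :
    ExLin F r (Fintype.card ι) := by
  obtain ⟨k, h2, h3⟩ := ed_of_nonpow hr hz (toLin'_pow_eq h1)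
  exact ⟨k, z, by simpa using h2, hz, by rw [← det_of_med_replicate hr.ne_zero h3, h.det]⟩

theorem exists_po_nonpow [Nonempty ι] (hr : r.Prime) (h : ExLin F r (Fintype.card ι)) :
    ∃ (A : Matrix ι ι F) (z : F), Po r A ∧ (∀ b, b ^ r ≠ z) ∧ A ^ r = z • 1 := by
  obtain ⟨k, c, h1, h2, h3⟩ := h
  obtain ⟨A, hA⟩ := exists_med_eq (n := ι) (s := Multiset.replicate k (X ^ r - C c))
    (fun P hP => Multiset.eq_of_mem_replicate hP ▸ isPP_of_irreducible
      (monic_X_pow_sub_C c hr.ne_zero) (X_pow_sub_C_irreducible_of_prime hr h2))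
    (by simp [h1])
  have hk : k ≠ 0 := by rintro rfl; exact Fintype.card_ne_zero (α := ι) (by simp [h1])
  have h4 := (pow_eq_smul_one_iff_med A r c).2 fun P hP => by
      rw [hA] at hP; rw [Multiset.eq_of_mem_replicate hP]
  exact ⟨A, c, ⟨by rw [det_of_med_replicate hr.ne_zero hA, h3], ⟨c, h4⟩,
    ne_smul_of_mem_med (P := X ^ r - C c) (by rw [hA]; exact Multiset.mem_replicate.2 ⟨hk, rfl⟩)
      (by simpa using hr.one_lt)⟩, h2, h4⟩

/-- the two kinds of elements -/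
theorem Po.cases [Nonempty ι] (hr : r.Prime) (h : Po r A) :
    (∃ (c : F) (B : Matrix ι ι F), c ≠ 0 ∧ A = c • B ∧ B ^ r = 1 ∧ ∀ z : F, B ≠ z • 1) ∨
      ∃ z : F, (∀ b, b ^ r ≠ z) ∧ A ^ r = z • 1 := by
  obtain ⟨z, hz⟩ := h.pow
  by_cases hb : ∃ b, b ^ r = z
  · obtain ⟨b, rfl⟩ := hb
    have hb : b ≠ 0 := fun e => ne_zero_of_pow_eq_smul h.isUnit hz (by simp [e, hr.ne_zero])
    exact .inl ⟨b, _, hb, (smul_inv_smul' hb A).symm, smul_pow_eq_one hb hz, fun z e =>
      h.ne (b * z) (by rw [← smul_inv_smul' hb A, e, smul_smul])⟩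
  · exact .inr ⟨z, by simpa using hb, hz⟩

/-! ### Diagonalisable elements -/

/-- linear factors -/
noncomputable abbrev lin (t : Multiset F) : Multiset F[X] := t.map fun a => X - C a

theorem lin_inj {s t : Multiset F} (h : lin s = lin t) : s = t :=
  Multiset.map_injective (fun a b e => by simpa using congrArg (coeff · 0) e) h

theorem lin_scl (c : Fˣ) (t : Multiset F) :
    (lin t).map (scl c) = lin (t.map fun a => (c : F) * a) := by
  simp only [lin, Multiset.map_map]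
  exact Multiset.map_congr rfl fun a _ => by
    simp only [Function.comp_apply, scl_apply, X_sub_C_scaleRoots, mul_comm]

theorem lin_pstar {σ : F →+* F} {t : Multiset F} (h : 0 ∉ t) :
    (lin t).map (pstar σ) = lin (t.map fun a => (σ a)⁻¹) := by
  simp only [lin, Multiset.map_map]
  exact Multiset.map_congr rfl fun a ha => pstar_X_sub_C (by rintro rfl; exact h ha)

theorem med_smul_lin {t : Multiset F} (h : med A = lin t) {c : F} (hc : c ≠ 0) :
    med (c • A) = lin (t.map (c * ·)) := by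
  have := med_smul (Units.mk0 c hc) A
  rwa [h, lin_scl] at this

theorem det_lin {t : Multiset F} (h : med A = lin t) : A.det = t.prod := by
  rw [← LinearMap.det_toLin', det_of_lin t h]

theorem pow_lin {t : Multiset F} (h : med A = lin t) {z : F} :
    A ^ r = z • 1 ↔ ∀ a ∈ t, a ^ r = z := by
  simp [pow_eq_smul_one_iff_med, h, dvd_iff_isRoot, sub_eq_zero]

theorem card_lin {t : Multiset F} (h : med A = lin t) : t.card = Fintype.card ι := by
  simpa [h] using sum_natDegree_med A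

theorem exists_lin {t : Multiset F} (h : t.card = Fintype.card ι) :
    ∃ A : Matrix ι ι F, med A = lin t :=
  exists_med_eq (fun P hP => by obtain ⟨a, -, rfl⟩ := Multiset.mem_map.1 hP; exact isPP_X_sub_C a)
    (by simpa using h)

theorem exists_po_lin {t : Multiset F} (h : t.card = Fintype.card ι) (hp : t.prod = 1) {z : F}
    (hz : ∀ a ∈ t, a ^ r = z) {a b : F} (ha : a ∈ t) (hb : b ∈ t) (hab : a ≠ b) :
    ∃ A : Matrix ι ι F, Po r A ∧ med A = lin t := by
  obtain ⟨A, hA⟩ := exists_lin h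
  refine ⟨A, ⟨(det_lin hA).trans hp, ⟨z, (pow_lin hA).2 hz⟩, fun c e => hab ?_⟩, hA⟩
  have := (pow_lin (r := 1) hA).1 (by rw [pow_one, e])
  simpa using (this a ha).trans (this b hb).symm

theorem exists_lin_of_pow [Finite F] (hr : r.Prime) (h0 : (r : F) ≠ 0) (hq : r ∣ Nat.card F - 1)
    (h : A ^ r = 1) : ∃ t : Multiset F, med A = lin t := by
  refine ⟨(med A).map fun P => -P.coeff 0, ?_⟩
  rw [lin, Multiset.map_map]
  refine (Multiset.map_id _).symm.trans (Multiset.map_congr rfl fun P hP => ?_)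
  rcases (pow_prime_eq_one_iff_med hr h0 A).1 h P hP with rfl | h1
  · simp
  · obtain ⟨ω, -, rfl⟩ := lin_of_mem_cycF h0 hq h1
    simp

/-- an injective map permuting `t` has two fixed points whose quotient has order `r` -/
def Rig (r : ℕ) (t : Multiset F) : Prop := 0 ∉ t ∧ ∀ φ : F → F, Function.Injective φ → t.map φ = t →
  ∃ a ω, a ≠ 0 ∧ IsPrimitiveRoot ω r ∧ φ a = a ∧ φ (a * ω) = a * ω

theorem exists_rig_of {a ω c z : F} {i j k : ℕ} (ha : a ≠ 0) (hω : IsPrimitiveRoot ω r) (hr : 1 < r)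
    (hc : k ≠ 0 → c ≠ a ∧ c ≠ a * ω ∧ c ^ r = z) (hi : 0 < i) (hj : 0 < j) (h1 : i ≠ j) (h2 : i ≠ k)
    (h3 : j ≠ k) (hz : a ^ r = z) (hp : a ^ i * (a * ω) ^ j * c ^ k = 1)
    (hn : i + j + k = Fintype.card ι) :
    ∃ (A : Matrix ι ι F) (t : Multiset F), Po r A ∧ med A = lin t ∧ Rig r t := by
  classical
  have hab : a ≠ a * ω := fun e => hω.ne_one hr (by simpa [ha] using e.symm)
  set t := Multiset.replicate i a + Multiset.replicate j (a * ω) + Multiset.replicate k c with ht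
  have hm : ∀ x ∈ t, x = a ∨ x = a * ω ∨ (x = c ∧ k ≠ 0) := fun x hx => by
    simp only [ht, Multiset.mem_add, Multiset.mem_replicate] at hx; tauto
  have hz' : ∀ x ∈ t, x ^ r = z := fun x hx => by
    rcases hm x hx with rfl | rfl | ⟨rfl, h⟩
    · exact hz
    · rw [mul_pow, hω.pow_eq_one, mul_one, hz]
    · exact (hc h).2.2
  have ma : a ∈ t := by simp [ht, hi.ne', Multiset.mem_replicate]
  have mb : a * ω ∈ t := by simp [ht, hj.ne', Multiset.mem_replicate]
  obtain ⟨A, h4, h5⟩ := exists_po_lin (ι := ι) (r := r) (by simp [ht, hn]) (by simpa [ht] using hp) hz' ma mb hab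
  refine ⟨A, t, h4, h5, fun h => ?_, fun φ hφ e => ?_⟩
  · exact pow_ne_zero r ha (hz.trans ((hz' 0 h).symm.trans (zero_pow (by omega))))
  have ca : t.count a = i := by
    by_cases h : k = 0
    · simp [ht, h, Multiset.count_replicate, hab.symm]
    · simp [ht, Multiset.count_replicate, hab.symm, (hc h).1]
  have cb : t.count (a * ω) = j := by
    by_cases h : k = 0
    · simp [ht, h, Multiset.count_replicate, hab]
    · simp [ht, Multiset.count_replicate, hab, (hc h).2.1]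
  have cc : k ≠ 0 → t.count c = k := fun h => by
    simp [ht, Multiset.count_replicate, (hc h).1.symm, (hc h).2.1.symm]
  have key : ∀ x ∈ t, φ x ∈ t ∧ t.count (φ x) = t.count x := fun x hx =>
    ⟨e ▸ Multiset.mem_map_of_mem _ hx, by rw [← Multiset.count_map_eq_count' φ t hφ x, e]⟩
  refine ⟨a, ω, ha, hω, ?_, ?_⟩
  · obtain ⟨h6, h7⟩ := key a ma
    rcases hm _ h6 with h | h | ⟨h, h'⟩
    · exact h
    · rw [h, ca, cb] at h7; omega
    · rw [h, ca, cc h'] at h7; omega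
  · obtain ⟨h6, h7⟩ := key _ mb
    rcases hm _ h6 with h | h | ⟨h, h'⟩
    · rw [h, ca, cb] at h7; omega
    · exact h
    · rw [h, cb, cc h'] at h7; omega

/-- the standard derangement when `r ∣ q - 1` -/
theorem exists_rig [Finite F] (hr : r.Prime) (h2 : r ≠ 2) (hq : r ∣ Nat.card F - 1)
    (hn : 3 ≤ Fintype.card ι) (h6 : ¬ (Fintype.card ι = 6 ∧ r = 3))
    (hx : ¬ ((r = 3 ∨ r = 5) ∧ Fintype.card ι = r ∧ padicValNat r (Nat.card F - 1) = 1)) :
    ∃ (A : Matrix ι ι F) (t : Multiset F), Po r A ∧ med A = lin t ∧ Rig r t := by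
  have := Fact.mk hr
  obtain ⟨ζ, hζ⟩ := exists_prim_of_dvd hq
  have h0 := hζ.ne_zero hr.ne_zero
  obtain ⟨m, hm⟩ : ∃ m, Fintype.card ι = m + 1 := ⟨_, (Nat.sub_add_cancel (by omega)).symm⟩
  by_cases h1 : r ∣ Fintype.card ι
  swap
  · refine exists_rig_of (c := 0) (i := m) (j := 1) (k := 0) h0
      (hζ.pow_of_coprime _ ((Nat.Prime.coprime_iff_not_dvd hr).2 h1).symm).inv hr.one_lt (by simp)
      (by omega) one_pos (by omega) (by omega) one_ne_zero rfl ?_ hm.symm
    rw [hm]; field_simp; ring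
  by_cases h3 : 5 ≤ r ∧ 6 ≤ Fintype.card ι
  · refine exists_rig_of (a := 1) (c := (ζ ^ 2)⁻¹) (i := m - 2) (j := 2) (k := 1) one_ne_zero hζ
      hr.one_lt (fun _ => ⟨fun e => ?_, fun e => ?_, ?_⟩) (by omega) two_pos (by omega) (by omega)
      (by omega) rfl (by field_simp; simp) (by omega)
    · exact hζ.pow_ne_one_of_pos_of_lt two_ne_zero (by omega) (inv_eq_one.1 e)
    · refine hζ.pow_ne_one_of_pos_of_lt three_ne_zero (by omega) ?_
      rw [one_mul] at e
      calc ζ ^ 3 = ζ ^ 2 * ζ := pow_succ _ _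
        _ = ζ ^ 2 * (ζ ^ 2)⁻¹ := by rw [e]
        _ = 1 := mul_inv_cancel₀ (pow_ne_zero _ h0)
    · rw [inv_pow, ← pow_mul, mul_comm, pow_mul, hζ.pow_eq_one]; simp
  have h4 : r = 3 ∨ 5 ≤ r := by
    have := hr.two_le
    by_contra h
    obtain rfl : r = 4 := by omega
    exact absurd hr (by decide)
  by_cases h5 : r = 3 ∧ 4 ≤ Fintype.card ι
  · obtain ⟨rfl, h5⟩ := h5
    exact exists_rig_of (a := 1) (c := 0) (i := m - 2) (j := 3) (k := 0) one_ne_zero hζ
      hr.one_lt (by simp) (by omega) three_pos (by omega) (by omega) (by omega) rfl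
      (by simp [hζ.pow_eq_one]) (by omega)
  have h7 : Fintype.card ι = r := le_antisymm (by omega) (Nat.le_of_dvd (by omega) h1)
  have h8 : r ^ 2 ∣ Nat.card F - 1 := by
    have h9 : Nat.card F - 1 ≠ 0 := by have : 1 < Nat.card F := Finite.one_lt_card; omega
    have := (padicValNat_dvd_iff_le h9).1 ((pow_one r).symm ▸ hq)
    exact (padicValNat_dvd_iff_le h9).2 (by omega)
  obtain ⟨η, hη⟩ := exists_prim_of_dvd h8
  have h9 := hη.ne_zero (pow_ne_zero _ hr.ne_zero)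
  refine exists_rig_of (c := 0) (i := m) (j := 1) (k := 0) h9
    (hη.pow (pow_pos hr.pos _) (sq r)).inv hr.one_lt (by simp)
    (by omega) one_pos (by omega) (by omega) one_ne_zero rfl ?_ hm.symm
  rw [← h7, hm]; field_simp; ring

theorem symm3 : ∀ a b c : ZMod 3, a + (b + c) = 0 → ∃ d, ({a, b, c} : Multiset _).map
    (fun x => -(d + x)) = ({a, b, c} : Multiset _).map (d + ·) := by decide +kernel

theorem symm5 : ∀ a b c e f : ZMod 5, a + (b + (c + (e + f))) = 0 → ∃ d,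
    ({a, b, c, e, f} : Multiset _).map (fun x => -(d + x)) =
      ({a, b, c, e, f} : Multiset _).map (d + ·) := by decide +kernel

theorem symm35 (h : r = 3 ∨ r = 5) (τ : Multiset (ZMod r)) (hc : τ.card = r) (hs : τ.sum = 0) :
    ∃ d, τ.map (fun x => -(d + x)) = τ.map (d + ·) := by
  rcases h with rfl | rfl
  · obtain ⟨a, b, c, rfl⟩ := Multiset.card_eq_three.1 hc
    exact symm3 a b c (by simpa using hs)
  · obtain ⟨a, τ, rfl, h⟩ := Multiset.card_eq_succ_iff.1 hc
    obtain ⟨b, c, e, f, rfl⟩ := Multiset.card_eq_four.1 h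
    exact symm5 a b c e f (by simpa using hs)

theorem ne_zero_of_dvd [Finite F] (hq : r ∣ Nat.card F - 1) : (r : F) ≠ 0 := fun h => by
  have := Fintype.ofFinite F
  obtain ⟨k, hk⟩ := hq
  have h1 : 0 < Nat.card F := Nat.card_pos
  have : ((Nat.card F : ℕ) : F) = (r * k + 1 : ℕ) := by congr 1; omega
  simp [h] at this

/-- the exceptional case `n = r ∈ {3, 5}` -/
theorem Po.symm [Finite F] (h35 : r = 3 ∨ r = 5) (hn : Fintype.card ι = r)
    (hv : padicValNat r (Nat.card F - 1) = 1) (h : Po r A) : ∃ (c : F) (t : Multiset F), c ≠ 0 ∧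
      (∀ a ∈ t, a ^ r = 1) ∧ t.map (·⁻¹) = t ∧ med (c • A) = lin t := by
  have hr : r.Prime := by rcases h35 with rfl | rfl <;> decide
  have := Fact.mk hr
  have : NeZero r := ⟨hr.ne_zero⟩
  have : Nonempty ι := Fintype.card_pos_iff.1 (hn ▸ hr.pos)
  have hq : r ∣ Nat.card F - 1 := dvd_of_one_le_padicValNat hv.ge
  obtain ⟨ζ, hζ⟩ := exists_prim_of_dvd hq
  rcases h.cases hr with ⟨c, B, hc, rfl, h1, -⟩ | ⟨z, h1, h2⟩
  swap
  · exact (((not_exLin_iff hq Fintype.card_ne_zero).2 ⟨by simp [hn, hv], by omega⟩)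
      (h.exLin hr h1 h2)).elim
  obtain ⟨t, ht⟩ := exists_lin_of_pow hr (ne_zero_of_dvd hq) hq h1
  have h2 := (pow_lin (z := 1) ht).1 (by simpa using h1)
  set ψ := AddChar.zmodChar r hζ.pow_eq_one
  have hψ : ∀ x, ψ x ^ r = 1 := fun x => by rw [← AddChar.map_nsmul_eq_pow]; simp
  obtain ⟨τ, rfl⟩ : ∃ τ : Multiset (ZMod r), τ.map ψ = t := by
    have : CanLift F (ZMod r) ψ fun a => ∃ x, ψ x = a := ⟨fun _ h => h⟩
    refine CanLift.prf (self := Multiset.canLift ψ fun a => ∃ x, ψ x = a) t fun a ha => ?_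
    obtain ⟨i, -, rfl⟩ := hζ.eq_pow_of_pow_eq_one (h2 a ha)
    exact ⟨i, AddChar.zmodChar_apply' _ _⟩
  have h3 : ∀ τ : Multiset (ZMod r), ψ τ.sum = (τ.map ψ).prod := fun τ =>
    Multiset.induction_on τ (by simp) fun a s ih => by simp [AddChar.map_add_eq_mul, ih]
  have h4 := h.det
  rw [det_smul, det_lin ht, ← h3, hn] at h4
  have h5 : c ^ r = 1 := by
    have e1 : orderOf c ∣ r ^ 2 := orderOf_dvd_of_pow_eq_one (by
      have := congrArg (· ^ r) h4
      simp only [mul_pow, hψ, mul_one, one_pow] at this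
      rw [sq, pow_mul, this])
    have := Fintype.ofFinite F
    have e2 : orderOf c ∣ Nat.card F - 1 := orderOf_dvd_of_pow_eq_one (by
      rw [Nat.card_eq_fintype_card]; exact FiniteField.pow_card_sub_one_eq_one c hc)
    obtain ⟨k, hk, e3⟩ := (Nat.dvd_prime_pow hr).1 e1
    have := (padicValNat_dvd_iff_le (ne_zero_of_dvd_card dvd_rfl)).1 (e3 ▸ e2)
    exact orderOf_dvd_iff_pow_eq_one.1 (e3 ▸ (pow_dvd_pow r (by omega)).trans (pow_one r).dvd)
  rw [h5, one_mul, AddChar.zmodChar_apply, hζ.pow_eq_one_iff_dvd] at h4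
  obtain ⟨d, hd⟩ := symm35 h35 τ (by simpa [hn] using card_lin ht)
    ((ZMod.val_eq_zero _).1 (Nat.eq_zero_of_dvd_of_lt h4 (ZMod.val_lt _)))
  have h6 : ψ d ≠ 0 := fun e => by simpa [e, hr.ne_zero] using hψ d
  refine ⟨ψ d * c⁻¹, (τ.map (d + ·)).map ψ, by simp [h6, hc], fun a ha => ?_, ?_, ?_⟩
  · obtain ⟨x, -, rfl⟩ := Multiset.mem_map.1 ha; exact hψ x
  · conv_rhs => rw [← hd]
    simp only [Multiset.map_map, Function.comp_def, AddChar.map_neg_eq_inv]
  · rw [smul_smul, inv_mul_cancel_right₀ hc, med_smul_lin ht h6]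
    simp [AddChar.map_add_eq_mul]

/-- the standard derangement when `r ∤ q - 1` -/
theorem exists_po_cyc [Finite F] (hr : r.Prime) (h0 : (r : F) ≠ 0)
    (hi : orderOf (Nat.card F : ZMod r) ≠ 1) {a : ℕ} (ha : 0 < a)
    (hn : a * orderOf (Nat.card F : ZMod r) ≤ Fintype.card ι) :
    ∃ (A : Matrix ι ι F) (φ : F[X]), φ ∈ cycF F r ∧ Po r A ∧ A ^ r = 1 ∧ med A =
      Multiset.replicate a φ +
        Multiset.replicate (Fintype.card ι - a * orderOf (Nat.card F : ZMod r)) (X - 1) := by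
  obtain ⟨φ, hφ⟩ := cycF_nonempty h0
  obtain ⟨x, h1, h2, h3⟩ := exists_sl_cyc (n := ι) hr h0 hi (s := Multiset.replicate a φ)
    (fun P hP => Multiset.eq_of_mem_replicate hP ▸ hφ) (Multiset.card_pos.1 (by simpa using ha))
    (N := Fintype.card ι - a * orderOf (Nat.card F : ZMod r)) (by simp; omega)
  exact ⟨x, φ, hφ, ⟨x.det_coe, ⟨1, h1⟩, h2⟩, by simpa using h1, h3⟩

theorem exists_po_mjt (p : ℕ) [Fact p.Prime] [CharP F p] {μ : Multiset ℕ}
    (h : ∀ k ∈ μ, 0 < k ∧ k ≤ p) (hs : μ.sum = Fintype.card ι) (h1 : ∃ k ∈ μ, 1 < k) :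
    ∃ A : Matrix ι ι F, Po p A ∧ A ^ p = 1 ∧ mjt A = μ ∧ med A = μ.map fun k => (X - 1) ^ k := by
  obtain ⟨x, h2, h3, h4⟩ := exists_sl_mjt (F := F) (n := ι) p h hs h1
  refine ⟨x, ⟨x.det_coe, ⟨1, by simpa using h2⟩, h3⟩, h2, h4, h4 ▸ ed_eq_map_jt ?_⟩
  exact (isNilpotent_toLin'_sub_one _).2 ⟨p, (pow_char_eq_one_iff (F := F) p _).1 h2⟩

/-! ### Indices -/

theorem relIndex_dvd_index {G : Type*} [Group G] [Finite G] (H N : Subgroup G) [N.Normal] :
    H.relIndex N ∣ H.index := by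
  have h1 := Subgroup.relIndex_mul_relIndex (H ⊓ N) H (H ⊔ N) inf_le_left le_sup_left
  have h2 := Subgroup.relIndex_mul_relIndex (H ⊓ N) N (H ⊔ N) inf_le_right le_sup_right
  rw [Subgroup.inf_relIndex_left] at h1
  rw [Subgroup.inf_relIndex_right, Subgroup.relIndex_sup_right, mul_comm, ← h1] at h2
  rw [Nat.eq_of_mul_eq_mul_left (Nat.pos_of_ne_zero Subgroup.index_ne_zero_of_finite) h2]
  exact Subgroup.relIndex_dvd_index_of_le le_sup_left

theorem index_mul_dvd [Finite F] {G : Type*} [Group G] (φ : G →* GL ι F)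
    (hi : Function.Injective φ) (h : ∀ g, φ g ∈ H) :
    (H.comap (SpecialLinearGroup.toGL : SpecialLinearGroup ι F →* GL ι F)).index * Nat.card G ∣
      Nat.card (GL ι F) := by
  have : (specialLinear ι F).Normal := MonoidHom.normal_ker _
  rw [← relIndex_eq, ← φ.range.index_mul_card, Nat.card_congr (MonoidHom.ofInjective hi).toEquiv]
  exact Nat.mul_dvd_mul_right ((relIndex_dvd_index _ _).trans
    (Subgroup.index_dvd_of_le (by rintro _ ⟨g, rfl⟩; exact h g))) _

theorem index_mul_dvd_sl {G : Type*} [Group G] (φ : G →* SpecialLinearGroup ι F)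
    (hi : Function.Injective φ) (h : ∀ g, SpecialLinearGroup.toGL (φ g) ∈ H) :
    (H.comap (SpecialLinearGroup.toGL : SpecialLinearGroup ι F →* GL ι F)).index * Nat.card G ∣
      Nat.card (SpecialLinearGroup ι F) := by
  rw [← φ.range.index_mul_card, Nat.card_congr (MonoidHom.ofInjective hi).toEquiv]
  exact Nat.mul_dvd_mul_right (Subgroup.index_dvd_of_le (by rintro _ ⟨g, rfl⟩; exact h g)) _

end H71.El
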