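import Cfsg.Agent.H71.El5
import Cfsg.Agent.H56.TenMat

/-!
Elements of prime order of `PSL_n(q)` and stabilisers of tensor decompositions.
-/

set_option autoImplicit false
set_option maxHeartbeats 400000
set_option linter.unusedSectionVars false
open Polynomial Module Matrix H53 H58 H56 Cfsg.Geo

namespace H71.El

variable {F E W : Type*} [Field F] [AddCommGroup E] [Module F E] [FiniteDimensional F E]
  [AddCommGroup W] [Module F W] [FiniteDimensional F W] {r : ℕ}

theorem kds_nsmul (a : ℕ) (s : Multiset F[X]) (Q : F[X]) : kds (a • s) Q = a * kds s Q := by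
  induction a with
  | zero => simp
  | succ a ih => rw [succ_nsmul, kds_add, ih, Nat.succ_mul]

theorem count_lin [DecidableEq F] [DecidableEq F[X]] (t : Multiset F) (a : F) :
    (lin t).count (X - C a) = t.count a :=
  Multiset.count_map_eq_count' _ _ (fun a b e => by simpa using congrArg (coeff · 0) e) a

theorem eq_one_of_lt [Finite F] (hr : r.Prime) (h0 : (r : F) ≠ 0) {f : End F E} (h : f ^ r = 1)
    (h1 : finrank F E < orderOf (Nat.card F : ZMod r)) : f = 1 := by
  obtain ⟨s, N, h2, h3⟩ := exists_ed_of_pow_eq_one hr h0 h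
  have h4 := dg_cyc h0 h2 N
  rw [← h3, dg_ed] at h4
  obtain rfl : s = 0 := Multiset.card_eq_zero.1 (by
    by_contra h5
    have := Nat.mul_le_mul_right (orderOf (Nat.card F : ZMod r)) (Nat.one_le_iff_ne_zero.2 h5)
    omega)
  simpa using (pow_eq_smul_one_iff_ed f 1 1).2 (by simp +contextual [h3, Multiset.mem_replicate])

section Ten
variable {V : Type*} [AddCommGroup V] [Module F V] [FiniteDimensional F V] (T : Ten F E W V)

/-- `β ↦ 1 ⊗ β` -/
noncomputable def rtA : End F W →ₐ[F] End F V where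
  toFun := T.tl 1
  map_one' := T.hom_ext fun e w => by simp
  map_mul' _ _ := T.hom_ext fun e w => by simp
  map_zero' := T.hom_ext fun e w => by simp
  map_add' _ _ := T.hom_ext fun e w => by simp
  commutes' _ := T.hom_ext fun e w => by simp

theorem ed_rtA (β : End F W) : ed (rtA T β) = finrank F E • ed β := by
  refine ed_eq_of_kd (fun P hP => ed_isPP β P (Multiset.mem_of_mem_nsmul hP)) fun φ _ _ k => ?_
  rw [kds_nsmul, ← kd_eq_kds, kd, kd, aeval_algHom_apply, ← T.finrank_LS]
  generalize aeval β (φ ^ k) = γ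
  have h : ∀ l y, T.cL l (rtA T γ y) = γ (T.cL l y) := fun l y => LinearMap.congr_fun
    (T.hom_ext (f := T.cL l ∘ₗ rtA T γ) (g := γ ∘ₗ T.cL l) fun e w => by simp [rtA]) y
  refine congrArg (fun U : Submodule F V => finrank F U) (Submodule.ext fun y => ?_)
  rw [LinearMap.mem_ker, ← Submodule.mem_bot F, ← T.LS_bot, Ten.mem_LS, Ten.mem_LS]
  simp [h]

theorem exists_smul_of_tm [Nontrivial W] {α : E ≃ₗ[F] E} {β : W ≃ₗ[F] W} (h : T.tm α β = 1) :
    ∃ c : F, (α : End F E) = c • 1 := by
  obtain ⟨w, hw⟩ := exists_ne (0 : W)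
  obtain ⟨φ, hφ⟩ := H62.exists_dual_of_ne_zero (F := F) (x := β w) (by simpa using hw)
  refine ⟨φ w, LinearMap.ext fun e => ?_⟩
  simpa [hφ] using congrArg (fun g : V ≃ₗ[F] V => T.cR φ (g (T.t e w))) h

end Ten

variable {ι : Type} [Fintype ι] [DecidableEq ι] {H : Subgroup (GL ι F)} {A : Matrix ι ι F}
  {T : Ten F E W (ι → F)} (hH : ∀ g : GL ι F, g ∈ H ↔ H62.toLE g ∈ T.grp)

theorem le_of_dvd_index [Finite F] (hr : r.Prime) (h0 : (r : F) ≠ 0)
    (hΩ : r ∣ (H.comap (SpecialLinearGroup.toGL : SpecialLinearGroup ι F →* _)).index) :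
    orderOf (Nat.card F : ZMod r) ≤ Fintype.card ι := by
  have := Fact.mk hr
  obtain ⟨x, hx⟩ := exists_prime_orderOf_dvd_card' r (hΩ.trans (Subgroup.index_dvd_card _))
  by_contra h
  have h1 := eq_one_of_lt hr h0 (f := toLin' (x : Matrix ι ι F)) (toLin'_pow_one (by
    simpa [hx] using congrArg (fun y : SpecialLinearGroup ι F => (y : Matrix ι ι F))
      (pow_orderOf_eq_one x))) (by simpa using h)
  obtain rfl : x = 1 := Subtype.ext (toLin'.injective (h1.trans toLin'_one.symm))
  exact hr.ne_one (by simpa using hx.symm)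

include hH

theorem ten_gc {α : End F E} {β : End F W} (hα : IsUnit α) (hβ : IsUnit β) :
    ∃ g ∈ H, toLin' (g : Matrix ι ι F) = T.tl α β := by
  obtain ⟨α, rfl⟩ := hα
  obtain ⟨β, rfl⟩ := hβ
  obtain ⟨g, hg⟩ := H62.toLE.surjective (T.tm (LinearMap.GeneralLinearGroup.toLinearEquiv α)
    (LinearMap.GeneralLinearGroup.toLinearEquiv β))
  exact ⟨g, (hH g).2 (hg ▸ T.tm_mem _ _), by rw [← H62.toLE_coe, hg]; rfl⟩

theorem ten_scalars_le : scalars ι F ≤ H := fun g hg => by
  obtain ⟨c, hc⟩ := (mem_scalars_iff g).1 hg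
  obtain ⟨k, h1, h2⟩ := ten_gc hH (α := 1) (β := c • 1) isUnit_one (isUnit_one.smul c)
  have : toLin' (g : Matrix ι ι F) = T.tl 1 (c • 1) := T.hom_ext fun e w => by
    simp [hc, Units.smul_def]
  rwa [show g = k from Units.ext (toLin'.injective (this.trans h2.symm))]

theorem ten_dvd [DecidableEq F[X]] {g : GL ι F} {β : W ≃ₗ[F] W} (h : H62.toLE g = T.rt β) (P : F[X]) :
    finrank F E ∣ (med (g : Matrix ι ι F)).count P := by
  rw [med, ← H62.toLE_coe, h, show (T.rt β : End F (ι → F)) = rtA T β from rfl, ed_rtA,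
    Multiset.count_nsmul]
  exact dvd_mul_right _ _

theorem ten_not_gc [DecidableEq F[X]] {s : Multiset F[X]} {d : ℕ} [DecidablePred fun P : F[X] => P.IsRoot 1]
    (hd : s.countP (·.IsRoot 1) = d) (h1 : Fintype.card ι < d + finrank F W) {P : F[X]}
    (h2 : ¬ finrank F E ∣ s.count P) : ¬ GC H s := by
  rintro ⟨g, hg, rfl⟩
  rw [med, ← kds_X_sub_C (ed_isPP _), ← kd_eq_kds, kd] at hd
  have h3 := LinearMap.finrank_range_add_finrank_ker (aeval (toLin' (g : Matrix ι ι F)) (X - C (1 : F)))
  rw [hd, finrank_fintype_fun_eq_card] at h3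
  obtain ⟨β, h4⟩ := T.exists_eq_rt_of_finrank ((hH g).1 hg) (by
    rw [mv, H62.toLE_coe]
    rw [map_sub, aeval_X, C_1, map_one] at h3
    exact (by omega : finrank F (LinearMap.range (toLin' (g : Matrix ι ι F) - 1)) < finrank F W))
  exact h2 (ten_dvd hH h4 P)

theorem ten_not_two (h2 : (2 : F) ≠ 0) {a b : ℕ} (h : a + b = Fintype.card ι)
    (h1 : b < finrank F W) (h3 : ¬ finrank F E ∣ b) : ¬ GC H (lin (two F a b)) := by
  classical
  have h4 : (1 : F) ≠ -1 := fun e => h2 (by linear_combination e)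
  refine ten_not_gc hH (d := a) ?_ (by omega) (P := X - C (-1)) ?_
  · rw [Multiset.countP_map]
    simp [sub_eq_zero, Multiset.filter_eq, Multiset.count_replicate, h4.symm]
  · rw [count_lin]
    simpa [Multiset.count_replicate, h4] using h3

theorem ten_main [Finite F] (p : ℕ) [hp : Fact p.Prime] [CharP F p] (hr : r.Prime)
    (ha : 2 ≤ finrank F E) (hab : finrank F E < finrank F W)
    (hΩ : r ∣ (H.comap (SpecialLinearGroup.toGL : SpecialLinearGroup ι F →* _)).index) :
    AllS H r ↔ (r = 2 ∧ finrank F E = 2 ∧ Odd (Nat.card F) ∧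
      padicValNat 2 (Nat.card F - 1) ≤ padicValNat 2 (Fintype.card ι)) := by
  classical
  have hn : Fintype.card ι = finrank F E * finrank F W := by simpa using T.finrank_eq
  have h6 : 6 ≤ Fintype.card ι := by nlinarith
  have h1 : ¬ finrank F E ∣ 1 := fun e => by have := Nat.le_of_dvd one_pos e; omega
  have : Nonempty ι := Fintype.card_pos_iff.1 (by omega)
  have hZ := ten_scalars_le hH
  by_cases hrp : r = p
  · subst hrp
    refine iff_of_false (fun h => ?_) fun h => (two_ne_iff r).1 (odd_card_iff.1 h.2.2.1) h.1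
    obtain ⟨A, h3, -, -, h4⟩ := exists_po_mjt (F := F) (ι := ι) r
      (μ := 2 ::ₘ Multiset.replicate (Fintype.card ι - 2) 1)
      (by simp +contextual [Multiset.mem_replicate, hr.two_le, hr.one_le]) (by simp; omega)
      ⟨2, by simp⟩
    refine ten_not_gc hH (d := Fintype.card ι - 1) ?_ (by omega) (P := (X - 1) ^ 2) ?_
      (h4 ▸ h.allG A h3)
    · rw [Multiset.countP_eq_card.2 (by simp +contextual [Multiset.mem_replicate])]
      simp; omega
    · have : (X - 1 : F[X]) ≠ (X - 1) ^ 2 := fun e => by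
        simpa [natDegree_X_sub_one] using congrArg natDegree e
      simpa [Multiset.count_replicate, this] using h1
  have h0 := natCast_ne_zero_of_prime_ne (F := F) p hr hrp
  rw [allS_iff fun A => detC_top p hr (.inr hrp)]
  by_cases h2 : r = 2
  · subst h2
    have h2 : (2 : F) ≠ 0 := by simpa using h0
    rw [and_iff_right rfl, and_iff_right (odd_card_iff.2 h2), ← not_lt,
      ← exists_pow_eq_neg_one_iff h2 (by omega), allG_two_iff h2 hZ]
    refine ⟨fun h => ⟨by_contra fun h3 => ten_not_two hH h2 (b := 2) (Nat.sub_add_cancel (by omega))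
      (by omega) (fun e => by have := Nat.le_of_dvd two_pos e; omega)
      (h.1 _ _ (by omega) two_pos (by omega) ⟨1, by simp⟩), fun h3 => ten_not_two hH h2 (b := 1)
      (Nat.sub_add_cancel (by omega)) (by omega) h1 (h.1 _ _ (by omega) one_pos (by omega)
        (by simpa using h3))⟩, fun h => ⟨fun a b _ _ h3 h4 => ?_,
      npc_of_forall hr fun z k h3 h4 => ?_⟩⟩
    · obtain ⟨b, rfl⟩ : Even b := by
        by_contra h8
        exact h.2 (by simpa [(Nat.not_even_iff_odd.1 h8).neg_one_pow] using h4)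
      obtain ⟨a, rfl⟩ : Even a := by rw [Nat.even_iff]; rw [h.1] at hn; omega
      obtain ⟨β, hβ⟩ := exists_ed_eq (V := W) (s := lin (two F a b)) isPP_lin (by
        rw [h.1] at hn; rw [← dgs, dgs_lin]; simp; omega)
      obtain ⟨g, h5, h7⟩ := ten_gc hH isUnit_one (β := β) (IsUnit.of_pow_eq_one (n := 2) (by
        simpa using (pow_eq_smul_one_iff_ed β 2 1).2 (by
          rw [hβ, Multiset.forall_mem_map_iff]
          simp +contextual [Multiset.mem_replicate, or_imp, dvd_iff_isRoot])) two_ne_zero)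
      refine ⟨g, h5, ?_⟩
      rw [med, h7, show T.tl 1 β = rtA T β from rfl, ed_rtA, hβ, h.1, two_nsmul]
      simp only [Multiset.replicate_add, Multiset.map_add]
      abel
    · obtain ⟨α, hα⟩ := exists_ed_eq (V := E) (s := {X ^ 2 - C z}) (by
        simpa using isPP_of_irreducible (monic_X_pow_sub_C z two_ne_zero)
          (X_pow_sub_C_irreducible_of_prime hr h3)) (by simp [h.1])
      have h5 := (pow_eq_smul_one_iff_ed α 2 z).2 (by simp [hα])
      obtain ⟨g, h7, h8⟩ := ten_gc hH (α := α) (isUnit_pow_iff two_ne_zero |>.1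
        (h5 ▸ isUnit_one.smul (Units.mk0 z fun e => h3 0 (by simp [e])))) isUnit_one
      refine ⟨g, h7, toLin'_pow_iff.1 (h8 ▸ T.hom_ext fun e w => ?_)⟩
      have := LinearMap.congr_fun h5 e
      simp only [sq, End.mul_apply] at this
      simp [sq, this]
  refine iff_of_false (fun h => ?_) fun h => h2 h.1
  by_cases hi : orderOf (Nat.card F : ZMod r) = 1
  · obtain ⟨ζ, hζ⟩ := exists_prim_of_dvd ((orderOf_eq_one_iff_dvd Nat.card_pos).1 hi)
    have h3 := hζ.ne_zero hr.ne_zero
    have h4 := hζ.ne_one hr.one_lt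
    have h5 : ζ⁻¹ ≠ ζ := fun e => hζ.pow_ne_one_of_pos_of_lt two_ne_zero
      (lt_of_le_of_ne hr.two_le (Ne.symm h2)) (by rw [sq]; nth_rw 1 [← e]; exact inv_mul_cancel₀ h3)
    obtain ⟨A, h7, h8⟩ := exists_po_lin (ι := ι) (r := r) (z := 1)
      (t := ζ ::ₘ ζ⁻¹ ::ₘ Multiset.replicate (Fintype.card ι - 2) 1) (by simp; omega) (by simp [h3])
      (by simp +contextual [Multiset.mem_replicate, hζ.pow_eq_one]) (a := ζ⁻¹) (b := ζ) (by simp)
      (by simp) h5
    refine ten_not_gc hH (d := Fintype.card ι - 2) ?_ (by omega) (P := X - C ζ) ?_ (h8 ▸ h A h7)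
    · rw [Multiset.countP_map]
      simp [sub_eq_zero, Multiset.filter_eq, h4.symm, h4]
    · rw [count_lin]
      simpa [Multiset.count_replicate, h4.symm, h5.symm] using h1
  obtain ⟨A, φ, h3, h4, h5, h7⟩ := exists_po_cyc (ι := ι) hr h0 hi one_pos
    (by simpa using le_of_dvd_index hr h0 hΩ)
  have h8 : ¬ φ.IsRoot 1 := fun e => (one_lt_of_ne_one h0 hi h3).ne' (natDegree_eq_of_degree_eq_some
    (degree_eq_one_of_irreducible_of_root ((mem_cycF h0).1 h3).2.1 e))
  have h9 : ¬ finrank F E ∣ (med A).count φ := by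
    have : X - 1 ≠ φ := by rintro rfl; simp at h8
    simpa [h7, Multiset.count_replicate, this] using h1
  by_cases h10 : orderOf (Nat.card F : ZMod r) < finrank F W
  · refine ten_not_gc hH (d := Fintype.card ι - orderOf (Nat.card F : ZMod r)) ?_ (by omega) h9
      (h A h4)
    rw [h7, Multiset.countP_add, Multiset.countP_eq_zero.2 fun P hP =>
      Multiset.eq_of_mem_replicate hP ▸ h8,
      Multiset.countP_eq_card.2 (by simp +contextual [Multiset.mem_replicate])]
    simp
  obtain ⟨g, h11, h12⟩ := h A h4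
  obtain ⟨α, β, h13⟩ := (hH g).1 h11
  have : Nontrivial W := Module.nontrivial_of_finrank_pos (R := F) (by omega)
  have : Nontrivial E := Module.nontrivial_of_finrank_pos (R := F) (by omega)
  have h14 : ∀ k, T.tm α β ^ k = T.tm (α ^ k) (β ^ k) := fun k => by
    induction k with
    | zero => simp [T.tm_one]
    | succ k ih => rw [pow_succ, ih, T.tm_mul, pow_succ, pow_succ]
  obtain ⟨c, hc⟩ := exists_smul_of_tm T (α := α ^ r) (β := β ^ r) (by
    rw [← h14, ← h13, ← map_pow, show g ^ r = 1 from Units.ext (by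
      simpa using pow_eq_of_med (r := r) (z := 1) h12 (by simpa using h5)), map_one])
  obtain ⟨d, rfl⟩ := exists_pow_eq_of_not_dvd hr (mt (orderOf_eq_one_iff_dvd Nat.card_pos).2 hi) c
  have hd : d ≠ 0 := by
    rintro rfl
    obtain ⟨e, he⟩ := exists_ne (0 : E)
    exact he (by simpa [hr.ne_zero] using LinearMap.congr_fun hc e)
  have h15 := eq_one_of_lt hr h0 (f := d⁻¹ • (α : End F E)) (by
    rw [_root_.smul_pow, show (α : End F E) ^ r = _ from
      (map_pow LinearEquiv.automorphismGroup.toLinearMapMonoidHom α r).symm.trans hc, smul_smul, ← mul_pow, inv_mul_cancel₀ hd]; simp)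
    (by omega)
  obtain ⟨β', h16⟩ := T.exists_eq_rt (A := α) β fun e => Submodule.mem_span_singleton.2 ⟨d, by
    simpa [inv_smul_eq_iff₀ hd, eq_comm] using LinearMap.congr_fun h15 e⟩
  exact h9 (h12 ▸ ten_dvd hH (h13.trans h16) φ)

end H71.El
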