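/- Tower AB (row S5304), slot PO: the orthogonal groups. -/
import Cfsg.Agent.H90.AbDef
import Cfsg.Agent.H56.OrthOrd

set_option autoImplicit false

namespace H71.AbPO

open H90.AB H56 H58 QuadraticMap Module Subgroup

section

variable {F V : Type} [Field F] [AddCommGroup V] [Module F V] (Q : QuadraticForm F V)

/-- the polar form -/
def be : V →ₗ[F] V →+ F where
  toFun u := (Q.polarBilin u).toAddMonoidHom
  map_add' u v := by ext w; simp
  map_smul' c u := by ext w; simp

theorem be_apply (u v : V) : be Q u v = polar Q u v := rfl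

variable [FiniteDimensional F V]

theorem cut (hQ : Q.polarBilin.Nondegenerate) : Cut (OG Q).subtype (be Q) where
  inj := Subtype.val_injective
  refl u v h := by rw [be_apply, polar_comm]; exact h
  nd v h := hQ.2 v h
  inv g u v := O.map_polar g u v
  cut g W h hW h1 h2 h3 := by
    have hr : Q.polarBilin.IsRefl := fun u v t => by
      rw [polarBilin_apply_apply, polar_comm]; exact t
    have hc : IsCompl W (LinearMap.BilinForm.orthogonal Q.polarBilin W) := by
      refine LinearMap.BilinForm.isCompl_orthogonal_of_restrict_nondegenerate hr ⟨?_, ?_⟩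
      · intro w t
        exact Subtype.ext (hW w w.2 fun u hu => hr _ _ (t ⟨u, hu⟩))
      · intro w t
        exact Subtype.ext (hW w w.2 fun u hu => t ⟨u, hu⟩)
    refine ⟨⟨h, fun v => ?_⟩, rfl⟩
    obtain ⟨w, hw, x, hx, rfl⟩ := Submodule.mem_sup.1 (hc.sup_eq_top ▸ Submodule.mem_top (x := v))
    have hx' : ∀ u ∈ W, polar Q u x = 0 := fun u hu => hx u hu
    rw [map_add, h2 w hw, h3 x hx', H56.Q_add, H56.Q_add, hx' w hw, hx' _ (h1 w hw)]
    congr 2
    exact g.2 w

theorem ph (R : Red) (C : JobCF) [Fintype F] {p : ℕ} (hp : OP p) (hF : (p : F) ≠ 0)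
    (hQ : Q.polarBilin.Nondegenerate) (hE : ¬ IsExc Q) (h3 : 3 ≤ finrank F V) : Ph p (POm Q) := by
  have h4 : ¬ p ∣ 4 := fun h => hp.ne ((Nat.prime_dvd_prime_iff_eq hp.pr Nat.prime_two).1
    (hp.pr.dvd_of_dvd_pow (n := 2) h))
  have h1 : Ph p (O Q) := C F V (O Q) _ _ p hp hF (cut Q hQ)
  have h2 : Ph p (commutator (O Q)) := by
    refine R.idx p _ _ hp.pr (fun h => h4 ?_) h1
    by_cases h2 : (2 : F) = 0
    · rw [index_commutator_of_char_two hQ h2 hE (by omega)] at h
      exact h.trans (by norm_num)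
    · rwa [index_commutator_of_two_ne hQ h2 (by omega)] at h
  refine R.quo p _ _ (QuotientGroup.mk' _) hp.pr (QuotientGroup.mk'_surjective _)
    (QuotientGroup.ker_mk' _).le (fun z hz hz' => ?_) h2
  have hz1 : z ∈ center (commutator (O Q)) := (QuotientGroup.eq_one_iff z).1 hz
  have a1 : orderOf z ∣ 4 := by
    have := orderOf_dvd_natCard (⟨z, hz1⟩ : center (commutator (O Q)))
    rw [card_center_commutator hQ hE h3, Subgroup.orderOf_mk] at this
    refine this.trans ?_
    split_ifs <;> norm_num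
  rcases (Nat.dvd_prime hp.pr).1 (orderOf_dvd_of_pow_eq_one hz') with a | a
  · exact orderOf_eq_one_iff.1 a
  · exact (h4 (a ▸ a1)).elim

end

theorem ph' (R : Red) (C : JobCF) {F ι : Type} [Field F] [Fintype F] [Fintype ι] [DecidableEq ι]
    (Q : QuadraticForm F (ι → F)) {q : (ι → F) → F} (h : ⇑Q = q) {p : ℕ} (hp : OP p) (hF : (p : F) ≠ 0)
    (hQ : Q.polarBilin.Nondegenerate) (hE : ¬ IsExc Q) (h3 : 3 ≤ finrank F (ι → F)) :
    Ph p (Cfsg.POmega F q) :=
  R.iso p _ _ hp.pr (pOmegaEquiv Q h).symm (ph Q R C hp hF hQ hE h3)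

theorem jobPO : JobPO := by
  intro R C F _ _ m p hp hF hm
  refine ⟨fun hodd => ?_, ?_, fun a b hab => ?_⟩
  · have h2 := two_ne_zero_of_odd_card hodd
    exact ph' R C (qOdd m F) (coe_qOdd m F) hp hF (qOdd_nondeg m h2) (not_isExc_of_two_ne h2)
      (by simp; omega)
  · exact ph' R C (qPlus m F) (coe_qPlus m F) hp hF (qPlus_nondeg m F)
      (not_isExc_of_finrank (by simp; omega)) (by simp; omega)
  · exact ph' R C (qMinus m F a b) (coe_qMinus m F a b) hp hF (qMinus_nondeg m hab)
      (not_isExc_of_finrank (by simp; omega)) (by simp; omega)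

end H71.AbPO
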