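/- C7-O3 tower, slot G: facts on the group `Ω₃` of one factor. -/
import Cfsg.Agent.H60.WrO3Spec
import Cfsg.Agent.H73.WrGFO
import Cfsg.Agent.H56.OrthSimple
import Cfsg.Agent.H56.OrthOrd

set_option autoImplicit false

namespace H71.O3G
open Cfsg Cfsg.Geo Matrix H19 H60.Wr Module H56 QuadraticMap
open scoped MatrixGroups commutatorElement

universe u

theorem jobO3G : H60.Wr.JobO3G.{u} := by
  intro F _ _ B L
  obtain ⟨Q, hp, hs⟩ := H73.WrO.exists_quad B L.sig L.eps L.two
  have hQ : Q.polarBilin.Nondegenerate :=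
    nondegenerate_of_polar fun x hx => B.nondeg' x fun y => by rw [← hp, hx]
  have h3 : 3 ≤ finrank F (Fin 3 → F) := by simp
  have hE : ¬ IsExc Q := not_isExc_of_two_ne L.two
  have hq : ∀ v, Q v = B.f v v / 2 := fun v => by
    rw [← hp, polar_self']
    have := L.two
    field_simp
  have sy : ∀ u v, B.f u v = B.f v u := fun u v => by rw [← hp, ← hp, polar_comm]
  have hiso : ∃ e, e ≠ 0 ∧ Q e = 0 := by
    obtain ⟨e, h0, he⟩ := L.ex
    exact ⟨e, h0, (hs e).1 he⟩
  have hR : (⊤ : Subgroup (O Q)).map (H60.toGL Q) = B.Iso := by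
    apply le_antisymm
    · rintro _ ⟨g, -, rfl⟩
      refine B.mem_Iso.2 fun u v => ?_
      rw [H60.toGL_mulVec, H60.toGL_mulVec, ← hp, ← hp, O.map_polar]
    · intro s hs'
      have hm : s ∈ isometryGroup F ⇑Q :=
        H56.mem_isometryGroup.2 fun v => by rw [hq, hq, B.mem_Iso.1 hs']
      exact ⟨toO Q rfl ⟨s, hm⟩, trivial, by simp [H60.toGL]⟩
  have hC : commutator (O Q) = EG Q := commutator_eq_EG hQ hE h3 hiso
  have hG : G0 B = (EG Q).map (H60.toGL Q) := by
    rw [← hC, commutator, Subgroup.map_commutator, hR]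
  have heu : ∀ w ∈ IsoV B, ∀ v, B.f v w = 0 →
      ((H60.toGL Q (eich Q w v) : GL (Fin 3) F) : Mk 3 F) = eu B w v := fun w hw v hv => by
    refine H19.matrix_ext_mulVec fun x => ?_
    rw [H60.toGL_mulVec, eich_apply ((hs w).1 hw.2) (by rw [hp, sy, hv])]
    simp only [eu, sub_mulVec, add_mulVec, one_mulVec, smul_mulVec, rf_mulVec, hp, hq, smul_smul,
      sy v x, sy w x]
    module
  obtain ⟨a₀, ha0, ha1⟩ := L.big
  have hperf : ⁅EG Q, EG Q⁆ = EG Q := EG_perfect_of_sq_ne hQ h3 ha0 (by rwa [← pow_two])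
  have hZ : Subgroup.center (EG Q) = ⊥ := by
    rw [eq_bot_iff]
    intro z hz
    rcases (mem_center_iff_of_EG_le hQ h3 hiso le_rfl z).1 hz with h | h
    · exact Subtype.ext h
    · exact absurd (hC ▸ h ▸ z.2) (negOne_notMem_commutator_of_odd hQ L.two (by simp; decide))
  have hZ' := center_EG_ne_top hQ h3 hiso
  have hS : IsSimpleGroup (EG Q) := by
    have : Nontrivial (EG Q) := by
      by_contra h
      rw [not_nontrivial_iff_subsingleton] at h
      exact hZ' (Subsingleton.elim _ _)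
    refine ⟨fun N hN => ?_⟩
    have := normal_subgroup_EG hQ h3 hiso (fun x y hx hy hxy hn h0 => ?_) hperf N hN
    · rwa [hZ, le_bot_iff] at this
    · obtain ⟨c, hc⟩ := Submodule.mem_span_singleton.1
        (L.ns x ⟨h0, (hs x).2 hx⟩ y (by rw [sy, ← hp, hxy]) ((hs y).2 hy))
      exact absurd hc.symm (hn c)
  have e : EG Q ≃* G0 B :=
    ((EG Q).equivMapOfInjective _ H60.toGL_injective).trans (MulEquiv.subgroupCongr hG.symm)
  have hmem : ∀ g ∈ EG Q, H60.toGL Q g ∈ G0 B := fun g hg => hG ▸ Subgroup.mem_map_of_mem _ hg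
  refine ⟨L, e.symm.isSimpleGroup, fun h => hZ' ?_, fun w hw v hv => ?_, ?_, ?_, ?_, ?_⟩
  · rw [eq_top_iff]
    intro z _
    rw [Subgroup.mem_center_iff]
    intro y
    apply e.injective
    rw [map_mul, map_mul, h.is_comm.comm]
  · exact ⟨_, hmem _ (eich_mem_EG w v), heu w hw v hv⟩
  · intro w hw w' hw' h1 a ha
    have hh' : IsHyp Q w w' := ⟨(hs w).1 hw.2, (hs w').1 hw'.2, by rw [hp, h1]⟩
    refine ⟨_, hmem _ (hh'.tor_sq_mem_EG hQ h3 ha), H19.matrix_ext_mulVec fun x => ?_⟩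
    rw [H60.toGL_mulVec, tor_apply hh' (mul_ne_zero ha ha)]
    simp only [hh, add_mulVec, one_mulVec, smul_mulVec, rf_mulVec, hp, smul_smul, sy w x, sy w' x,
      pow_two]
  · intro w hw w' hw'
    obtain ⟨g, hg, c, -, h⟩ := exists_EG_apply_eq_smul hQ h3 hw.1 ((hs w).1 hw.2) hw'.1
      ((hs w').1 hw'.2)
    exact ⟨_, hmem g hg, c, by rw [H60.toGL_mulVec, h]⟩
  · intro N hN
    rw [hG, Subgroup.map_le_iff_le_comap]
    refine EG_le fun w v h0 hw hv => ?_
    have hv' : B.f v w = 0 := by rw [sy, ← hp, hv]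
    obtain ⟨m, hm, h⟩ := hN w ⟨h0, (hs w).2 hw⟩ v hv'
    rw [← heu w ⟨h0, (hs w).2 hw⟩ v hv'] at h
    rw [Subgroup.mem_comap, ← Units.ext h]
    exact hm
  · obtain ⟨w, hw⟩ := L.ex
    obtain ⟨w', hw', h1⟩ := L.hyp w hw
    obtain ⟨v, v1, v2, v3, -⟩ := L.frame w hw w' hw' h1
    have hh' : IsHyp Q w w' := ⟨(hs w).1 hw.2, (hs w').1 hw'.2, by rw [hp, h1]⟩
    have hv : Q v ≠ 0 := fun h => v3 ((hs v).2 h)
    have ho : polar Q v (w + Q v • w') = 0 := by
      rw [polar_add_right, polar_smul_right, hp, hp, v1, v2]; simp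
    have hc : refl Q v * refl Q (w + Q v • w') * refl Q v = refl Q (w + Q v • w') := by
      have := conj_refl (refl Q v) (w + Q v • w')
      rwa [refl_inv, refl_apply_of_orth ho] at this
    refine ⟨_, hmem _ (hC ▸ refl_mul_refl_mem_commutator hQ hv (v := w + Q v • w')
      (by rwa [hh'.Q_add_smul]) (by rw [hh'.Q_add_smul])), fun h => ?_, ?_⟩
    · have h2 : refl Q v * refl Q (w + Q v • w') = 1 := H60.toGL_injective (by rw [h, map_one])
      have h4 := congrArg (fun g : O Q => g v) h2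
      simp only [O.mul_apply, O.one_apply] at h4
      rw [refl_apply_of_orth (v := w + Q v • w') (by rw [polar_comm, ho]), refl_apply_self hv,
        neg_eq_iff_add_eq_zero, ← two_smul F, smul_eq_zero] at h4
      rcases h4 with h4 | h4
      · exact L.two h4
      · exact hv (by rw [h4, map_zero])
    · rw [← map_mul, ← mul_assoc, hc, refl_mul_self, map_one]

end H71.O3G
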