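/- C7-O3 tower, slot L: linear algebra of a symmetric form in dimension three. -/
import Cfsg.Agent.H60.WrO3Spec
import Cfsg.Agent.H73.WrGFO
import Cfsg.Agent.H49.C7BQL

set_option autoImplicit false

namespace H71.O3L
open Cfsg Cfsg.Geo Matrix H19 H60.Wr Module
open scoped MatrixGroups commutatorElement

universe u

variable {F : Type u} [Field F] {B : Frm (Fin 3) F} {w w' v x y z : Fin 3 → F} {X Y : Mk 3 F}

theorem sy (H : O3 B) (x y : Fin 3 → F) : B.f x y = B.f y x := by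
  rw [B.symm y x, H.eps, H.sig, one_mul]

theorem smr (H : O3 B) (c : F) (x y : Fin 3 → F) : B.f x (c • y) = c * B.f x y := by
  rw [B.smul_right, H.sig]

theorem span3 (h : ∀ a b c : F, a • x + b • y + c • z = 0 → a = 0 ∧ b = 0 ∧ c = 0)
    (u : Fin 3 → F) : ∃ a b c : F, u = a • x + b • y + c • z := by
  have hl : LinearIndependent F ![x, y, z] := Fintype.linearIndependent_iff.2 fun g hg i => by
    obtain ⟨h0, h1, h2⟩ := h (g 0) (g 1) (g 2) (by simpa [Fin.sum_univ_three] using hg)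
    fin_cases i <;> assumption
  have := hl.span_eq_top_of_card_eq_finrank' (by simp)
  obtain ⟨g, hg⟩ := (Submodule.mem_span_range_iff_exists_fun F).1
    (this ▸ Submodule.mem_top (x := u))
  exact ⟨g 0, g 1, g 2, by simpa [Fin.sum_univ_three] using hg.symm⟩

theorem perp2 (B : Frm (Fin 3) F) (x y : Fin 3 → F) :
    ∃ v, v ≠ 0 ∧ B.f v x = 0 ∧ B.f v y = 0 := by
  classical
  obtain ⟨v, h0, h⟩ := H49.BQL.exists_perp B {x, y} (lt_of_le_of_lt Finset.card_le_two (by decide))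
  exact ⟨v, h0, h x (by simp), h y (by simp)⟩

/-- A frame: a hyperbolic pair and a vector orthogonal to it. -/
structure Fr (B : Frm (Fin 3) F) (w w' v : Fin 3 → F) : Prop where
  o : O3 B
  ww : B.f w w = 0
  w'w' : B.f w' w' = 0
  ww' : B.f w w' = 1
  vw : B.f v w = 0
  vw' : B.f v w' = 0
  v0 : v ≠ 0

namespace Fr

theorem w'w (h : Fr B w w' v) : B.f w' w = 1 := by rw [sy h.o, h.ww']
theorem wv (h : Fr B w w' v) : B.f w v = 0 := by rw [sy h.o, h.vw]
theorem w'v (h : Fr B w w' v) : B.f w' v = 0 := by rw [sy h.o, h.vw']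
theorem symm (h : Fr B w w' v) : Fr B w' w v := ⟨h.o, h.w'w', h.ww, h.w'w, h.vw', h.vw, h.v0⟩
theorem iso (h : Fr B w w' v) : w ∈ IsoV B :=
  ⟨fun e => by simpa [e] using h.ww', h.ww⟩
theorem iso' (h : Fr B w w' v) : w' ∈ IsoV B := h.symm.iso

theorem sp (h : Fr B w w' v) (u : Fin 3 → F) : ∃ a b c : F, u = a • w + b • w' + c • v := by
  refine span3 (fun a b c e => ?_) u
  have e1 := congrArg (fun y => B.f y w') e
  have e2 := congrArg (fun y => B.f y w) e
  simp only [B.add_left, B.smul_left, h.ww, h.w'w', h.ww', h.w'w, h.vw, h.vw', B.zero_left,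
    mul_zero, mul_one, add_zero, zero_add] at e1 e2
  simp only [e1, e2, zero_smul, zero_add, smul_eq_zero, h.v0, or_false] at e
  exact ⟨e1, e2, e⟩

theorem vext (h : Fr B w w' v) (h1 : B.f x w = B.f y w) (h2 : B.f x w' = B.f y w')
    (h3 : B.f x v = B.f y v) : x = y := by
  refine B.ext_left fun u => ?_
  obtain ⟨a, b, c, rfl⟩ := h.sp u
  simp only [B.add_right, smr h.o, h1, h2, h3]

theorem mext (h : Fr B w w' v) (h1 : X *ᵥ w = Y *ᵥ w) (h2 : X *ᵥ w' = Y *ᵥ w')
    (h3 : X *ᵥ v = Y *ᵥ v) : X = Y := by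
  refine H19.matrix_ext_mulVec fun u => ?_
  obtain ⟨a, b, c, rfl⟩ := h.sp u
  simp only [mulVec_add, mulVec_smul, h1, h2, h3]

theorem vv (h : Fr B w w' v) : B.f v v ≠ 0 := fun e =>
  h.v0 (h.vext (by simp [h.vw]) (by simp [h.vw']) (by simp [e]))

theorem dec (h : Fr B w w' v) (u : Fin 3 → F) :
    u = B.f u w' • w + B.f u w • w' + (B.f u v / B.f v v) • v := by
  have := h.vv
  refine h.vext ?_ ?_ ?_ <;>
    simp [B.add_left, B.smul_left, h.ww, h.w'w', h.ww', h.w'w, h.vw, h.vw', h.wv, h.w'v, this]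

theorem one (h : Fr B w w' v) : rf B w w' + rf B w' w + (B.f v v)⁻¹ • rf B v v = 1 := by
  refine H19.matrix_ext_mulVec fun u => ?_
  simp only [add_mulVec, smul_mulVec, rf_mulVec, one_mulVec, smul_smul]
  rw [mul_comm, ← div_eq_mul_inv]
  exact (h.dec u).symm

/-- The isotropic vectors `x_s`. -/
theorem xs (h : Fr B w w' v) (s : F) : w' + s • v - (s ^ 2 * B.f v v / 2) • w ∈ IsoV B := by
  have := h.o.two
  refine ⟨fun e => ?_, ?_⟩
  · have e1 := congrArg (fun y => B.f y w) e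
    simp [B.add_left, B.sub_left, B.smul_left, h.ww, h.w'w, h.vw] at e1
  · simp only [B.add_left, B.sub_left, B.smul_left, B.add_right, B.sub_right, smr h.o, h.ww,
      h.w'w', h.ww', h.w'w, h.vw, h.vw', h.wv, h.w'v]
    field_simp
    ring

end Fr

theorem hyp (H : O3 B) (hw : w ∈ IsoV B) : ∃ w' ∈ IsoV B, B.f w w' = 1 := by
  obtain ⟨y, hy⟩ := exists_f_one (B := B) hw.1
  have h1 : B.f w (y - (B.f y y / 2) • w) = 1 := by
    rw [B.sub_right, smr H, hw.2, sy H, hy]; simp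
  refine ⟨y - (B.f y y / 2) • w, ⟨fun e => by simp [e] at h1, ?_⟩, h1⟩
  have := H.two
  simp only [B.sub_left, B.sub_right, B.smul_left, smr H, hw.2, sy H w y, hy]
  field_simp
  ring

theorem fr_of (H : O3 B) (hw : w ∈ IsoV B) (hw' : w' ∈ IsoV B) (h : B.f w w' = 1) :
    ∃ v, Fr B w w' v := by
  obtain ⟨v, h0, h1, h2⟩ := perp2 B w w'
  exact ⟨v, H, hw.2, hw'.2, h, h1, h2, h0⟩

theorem fr (H : O3 B) (hw : w ∈ IsoV B) : ∃ w' v, Fr B w w' v := by
  obtain ⟨w', hw', h⟩ := hyp H hw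
  exact ⟨w', fr_of H hw hw' h⟩

theorem eu_mulVec (B : Frm (Fin 3) F) (w v x : Fin 3 → F) :
    eu B w v *ᵥ x = x + (B.f x v • w - B.f x w • v) - (B.f v v / 2 * B.f x w) • w := by
  simp only [eu, sub_mulVec, add_mulVec, one_mulVec, smul_mulVec, rf_mulVec, smul_smul]

theorem ns (H : O3 B) (hw : w ∈ IsoV B) (h1 : B.f y w = 0) (h2 : B.f y y = 0) : y ∈ F ∙ w := by
  obtain ⟨w', v, h⟩ := fr H hw
  obtain ⟨a, b, c, rfl⟩ := h.sp y
  simp only [B.add_left, B.smul_left, B.add_right, smr H, h.ww, h.w'w', h.ww', h.w'w, h.vw,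
    h.vw', h.wv, h.w'v, mul_zero, mul_one, add_zero, zero_add] at h1 h2
  subst h1
  have hc : c = 0 := by simpa [h.vv] using h2
  subst hc
  exact Submodule.mem_span_singleton.2 ⟨a, by simp⟩

theorem quad (H : O3 B) (he : (IsoV B).Nonempty) (hX : ∀ w ∈ IsoV B, B.f (X *ᵥ w) w = 0) :
    Sc (X + B.adj X) := by
  obtain ⟨w, hw⟩ := he
  obtain ⟨w', v, h⟩ := fr H hw
  obtain ⟨a, ha, ha1⟩ := H.big
  have e0 := hX w h.iso
  have e1 := hX w' h.iso'
  have es := fun s => hX _ (h.xs s)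
  simp only [mulVec_add, mulVec_sub, mulVec_smul, B.add_left, B.sub_left, B.smul_left,
    B.add_right, B.sub_right, smr H, e0, e1] at es
  have h2 := H.two
  have hn := h.vv
  obtain ⟨m, hm⟩ : ∃ m, B.f v v / 2 = m := ⟨_, rfl⟩
  have hm2 : B.f v v = 2 * m := by rw [← hm]; field_simp
  simp only [mul_div_assoc, hm] at es
  have p1 := es 1
  have p2 := es (-1)
  have p3 := es a
  have hC : 2 * B.f (X *ᵥ v) v = B.f v v * (B.f (X *ᵥ w) w' + B.f (X *ᵥ w') w) := by
    rw [hm2]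
    linear_combination p1 + p2
  have hA : 2 * (B.f (X *ᵥ w') v + B.f (X *ᵥ v) w') =
      B.f v v * (B.f (X *ᵥ v) w + B.f (X *ᵥ w) v) := by
    rw [hm2]
    linear_combination p1 - p2
  have hD : B.f (X *ᵥ v) w + B.f (X *ᵥ w) v = 0 := by
    apply mul_left_cancel₀ (mul_ne_zero (mul_ne_zero ha (sub_ne_zero.2 ha1.symm)) hn)
    rw [hm2] at hA hC ⊢
    linear_combination 2 * p3 - a * hA - a ^ 2 * hC
  have hA' : B.f (X *ᵥ w') v + B.f (X *ᵥ v) w' = 0 := by
    apply mul_left_cancel₀ h2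
    rw [hA, hD]; simp
  have hS : ∀ x y, B.f ((X + B.adj X) *ᵥ x) y = B.f (X *ᵥ x) y + B.f (X *ᵥ y) x := fun x y => by
    rw [add_mulVec, B.add_left, ← B.adj_right, sy H x]
  refine ⟨B.f (X *ᵥ w) w' + B.f (X *ᵥ w') w, h.mext ?_ ?_ ?_⟩ <;> refine h.vext ?_ ?_ ?_ <;>
    simp only [hS, smul_mulVec, one_mulVec, B.smul_left, h.ww, h.w'w', h.ww', h.w'w, h.vw, h.vw',
      h.wv, h.w'v, e0, e1]
  all_goals first | ring1 | linear_combination hD | linear_combination hA' | linear_combination hC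

theorem sp (H : O3 B) (he : (IsoV B).Nonempty) {u : Fin 3 → F} (hu : u ≠ 0) :
    Submodule.span F {y | y ∈ IsoV B ∧ B.f u y ≠ 0} = ⊤ := by
  rw [eq_top_iff]
  intro x _
  refine mem_of_forall_dot fun φ hφ => ?_
  obtain ⟨z, rfl⟩ := exists_ph B φ
  obtain ⟨c, hc⟩ := quad H he (X := rf B u z) fun y hy => by
    rw [rf_mulVec, B.smul_left]
    by_cases h : B.f u y = 0
    · rw [h, mul_zero]
    · rw [← ph_dot, hφ y (Submodule.subset_span ⟨hy, h⟩), zero_mul]
  rw [adj_rf, H.eps, one_smul] at hc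
  have hm : ∀ y, B.f y z • u + B.f y u • z = c • y := fun y => by
    simpa only [add_mulVec, rf_mulVec, smul_mulVec, one_mulVec] using congrArg (· *ᵥ y) hc
  obtain ⟨p, p0, p1, p2⟩ := perp2 B u z
  have hc0 : c = 0 := by simpa [p1, p2, p0] using (hm p).symm
  obtain ⟨y, hy⟩ := exists_f_one (B := B) hu
  have e1 := hm y
  rw [hc0, zero_smul, hy, one_smul] at e1
  have e2 := congrArg (fun t => B.f y t) e1
  simp only [B.add_right, smr H, hy, B.zero_right, mul_one] at e2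
  have e3 : B.f y z = 0 := by
    apply mul_left_cancel₀ H.two
    linear_combination e2
  rw [e3, zero_smul, zero_add] at e1
  simp [e1, ph_zero]

/-- A matrix fixing every isotropic point is scalar. -/
theorem sc_of_iso (H : O3 B) (he : (IsoV B).Nonempty) (hX : ∀ w ∈ IsoV B, X *ᵥ w ∈ F ∙ w) :
    Sc X := by
  obtain ⟨w, hw⟩ := he
  obtain ⟨w', v, h⟩ := fr H hw
  simp only [Submodule.mem_span_singleton] at hX
  obtain ⟨α, e0⟩ := hX w h.iso
  obtain ⟨β, e1⟩ := hX w' h.iso'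
  obtain ⟨γ, e2⟩ := hX _ (h.xs 1)
  obtain ⟨δ, e3⟩ := hX _ (h.xs (-1))
  simp only [mulVec_add, mulVec_sub, mulVec_smul, ← e0, ← e1] at e2 e3
  have h2 := H.two
  have hn := h.vv
  have a1 := congrArg (fun y => B.f y w) e2
  have a2 := congrArg (fun y => B.f y w') e2
  have a3 := congrArg (fun y => B.f y v) e2
  have b1 := congrArg (fun y => B.f y w) e3
  have b2 := congrArg (fun y => B.f y w') e3
  have b3 := congrArg (fun y => B.f y v) e3
  simp only [B.add_left, B.sub_left, B.smul_left, h.ww, h.w'w', h.ww', h.w'w, h.vw, h.vw', h.wv,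
    h.w'v] at a1 a2 a3 b1 b2 b3
  have c1 : γ = δ := by
    apply mul_left_cancel₀ hn
    linear_combination a3 + b3
  have c2 : β = γ := by
    apply mul_left_cancel₀ h2
    linear_combination -a1 - b1 - c1
  have c3 : α = γ := by
    apply mul_left_cancel₀ hn
    field_simp at a2 b2
    apply mul_left_cancel₀ h2
    linear_combination a2 + b2 - B.f v v * c1
  subst c1 c2 c3
  refine ⟨α, h.mext ?_ ?_ (h.vext ?_ ?_ ?_)⟩ <;>
    simp only [smul_mulVec, one_mulVec, B.smul_left, h.vw, h.vw', e0, e1]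
  · linear_combination -a1
  · linear_combination -a2
  · linear_combination -a3

theorem Fr.fix (h : Fr B w w' v) (e : eu B w v *ᵥ y = y) : y ∈ F ∙ w := by
  rw [eu_mulVec] at e
  have a1 := congrArg (fun y => B.f y v) e
  have a2 := congrArg (fun y => B.f y w') e
  simp only [B.add_left, B.sub_left, B.smul_left, h.ww', h.vw', h.wv] at a1 a2
  have c1 : B.f y w = 0 := by
    apply mul_left_cancel₀ h.vv
    linear_combination -a1
  have c2 : B.f y v = 0 := by linear_combination a2 + B.f v v / 2 * c1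
  have := h.dec y
  rw [c1, c2] at this
  exact Submodule.mem_span_singleton.2 ⟨B.f y w', by simpa using this.symm⟩

theorem cent (H : O3 B) (he : (IsoV B).Nonempty)
    (hX : ∀ w ∈ IsoV B, ∀ v, B.f v w = 0 → X * eu B w v = eu B w v * X) : Sc X := by
  refine sc_of_iso H he fun w hw => ?_
  obtain ⟨w', v, h⟩ := fr H hw
  refine h.fix ?_
  rw [mulVec_mulVec, ← hX w hw v h.vw, ← mulVec_mulVec, eu_mulVec]
  simp [h.ww, h.wv]

theorem unip (H : O3 B) (he : (IsoV B).Nonempty) {s : GL (Fin 3) F} (hs : s ∈ B.Iso)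
    (hn : IsNilpotent ((s : Mk 3 F) - 1)) :
    ∃ w ∈ IsoV B, ∃ v, B.f v w = 0 ∧ (s : Mk 3 F) = eu B w v := by
  classical
  have hf := B.mem_Iso.1 hs
  by_cases h1 : (s : Mk 3 F) - 1 = 0
  · obtain ⟨w, hw⟩ := he
    refine ⟨w, hw, 0, by simp, H19.matrix_ext_mulVec fun x => ?_⟩
    simp [eu_mulVec, sub_eq_zero.1 h1]
  have hm := Nat.find_spec hn
  obtain ⟨m, e⟩ : ∃ m, Nat.find hn = m + 2 := by
    rcases h : Nat.find hn with _ | _ | m
    · rw [h, pow_zero] at hm
      exact absurd hm one_ne_zero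
    · rw [h, zero_add, pow_one] at hm
      exact absurd hm h1
    · exact ⟨m, rfl⟩
  have hm' := Nat.find_min hn (m := m + 1) (by omega)
  rw [e] at hm
  obtain ⟨y, hy⟩ : ∃ y, ((s : Mk 3 F) - 1) ^ (m + 1) *ᵥ y ≠ 0 := by
    by_contra! h
    exact hm' (H19.matrix_ext_mulVec fun y => by rw [h, zero_mulVec])
  set w := ((s : Mk 3 F) - 1) ^ (m + 1) *ᵥ y with hw
  have sw : (s : Mk 3 F) *ᵥ w = w := by
    have : ((s : Mk 3 F) - 1) *ᵥ w = 0 := by rw [hw, mulVec_mulVec, ← pow_succ', hm, zero_mulVec]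
    rwa [sub_mulVec, one_mulVec, sub_eq_zero] at this
  have fw : ∀ x, B.f ((s : Mk 3 F) *ᵥ x) w = B.f x w := fun x => by rw [← hf x w, sw]
  have ww : B.f w w = 0 := by
    nth_rw 1 [hw]
    rw [pow_succ', ← mulVec_mulVec, sub_mulVec, one_mulVec, B.sub_left, fw, sub_self]
  clear_value w
  obtain ⟨w', v, h⟩ := fr H ⟨hy, ww⟩
  have hn := h.vv
  have h2 := H.two
  obtain ⟨a, c, sv⟩ : ∃ a c : F, (s : Mk 3 F) *ᵥ v = a • w + c • v :=
    ⟨_, _, by simpa [fw, h.vw] using h.dec ((s : Mk 3 F) *ᵥ v)⟩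
  have hk : ∀ k : ℕ, ∃ b : F, ((s : Mk 3 F) - 1) ^ k *ᵥ v = b • w + (c - 1) ^ k • v := by
    intro k
    induction k with
    | zero => exact ⟨0, by simp⟩
    | succ k ih =>
      obtain ⟨b, hb⟩ := ih
      refine ⟨(c - 1) ^ k * a, ?_⟩
      rw [pow_succ', ← mulVec_mulVec, hb, sub_mulVec, one_mulVec, mulVec_add, mulVec_smul,
        mulVec_smul, sw, sv]
      module
  have hc : c = 1 := by
    obtain ⟨b, hb⟩ := hk (m + 2)
    have := congrArg (fun y => B.f y v) hb
    simp only [hm, zero_mulVec, B.zero_left, B.add_left, B.smul_left, h.wv, mul_zero,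
      zero_add] at this
    exact sub_eq_zero.1 (pow_eq_zero_iff (by omega) |>.1 ((mul_eq_zero.1 this.symm).resolve_right hn))
  subst hc
  have y1 := fw w'
  have y2 := hf w' v
  have y3 := hf w' w'
  rw [sv, B.add_right, smr H, smr H, y1, h.w'w, h.w'v] at y2
  nth_rw 2 [h.dec ((s : Mk 3 F) *ᵥ w')] at y3
  rw [B.add_right, B.add_right, smr H, smr H, smr H, y1, h.w'w, h.w'w'] at y3
  have y4 : B.f ((s : Mk 3 F) *ᵥ w') v = -a := by linear_combination y2
  rw [y4] at y3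
  refine ⟨w, h.iso, (a / B.f v v) • v, by rw [B.smul_left, h.vw, mul_zero], h.mext ?_ ?_ ?_⟩
  · simp [sw, eu_mulVec, smr H, h.ww, h.wv]
  · refine h.vext ?_ ?_ ?_ <;>
      simp only [eu_mulVec, B.add_left, B.sub_left, B.smul_left, smr H, h.ww, h.w'w', h.ww', h.w'w,
        h.vw, h.vw', h.wv, h.w'v, y1, y4]
    · ring1
    · field_simp at y3 ⊢
      linear_combination y3
    · field_simp
      ring1
  · rw [sv, eu_mulVec, smr H, h.vw, div_mul_cancel₀ _ hn]
    module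

/-- A non-zero self-adjoint `P` with `P² = 2P` has a non-singular vector in its image. -/
theorem ex_ns (H : O3 B) (h0 : X ≠ 0) (ha : B.adj X = X) (h2 : X * X = (2 : F) • X) :
    ∃ x, B.f (X *ᵥ x) (X *ᵥ x) ≠ 0 := by
  by_contra! h
  refine h0 (H19.matrix_ext_mulVec fun x => B.ext_left fun y => ?_)
  have e := h (x + y)
  simp only [mulVec_add, B.add_left, B.add_right, h x, h y, sy H (X *ᵥ y) (X *ᵥ x)] at e
  rw [B.adj_right, ha, mulVec_mulVec, h2, smul_mulVec, B.smul_left] at e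
  rw [zero_mulVec, B.zero_left]
  apply mul_left_cancel₀ (mul_ne_zero H.two H.two)
  linear_combination e

theorem inv (H : O3 B) {s : GL (Fin 3) F} (hs : s ∈ B.Iso) (hd : (s : Mk 3 F).det = 1)
    (h2 : s * s = 1) (h1 : s ≠ 1) : ∃ e, B.f e e ≠ 0 ∧ (s : Mk 3 F) = zr B e := by
  have hf := B.mem_Iso.1 hs
  have ss : (s : Mk 3 F) * s = 1 := by rw [← Units.val_mul, h2, Units.val_one]
  have ha : B.adj s = s := by rw [B.mem_Iso_iff_adj.1 hs, inv_eq_of_mul_eq_one_right h2]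
  have t2 := H.two
  have hne : (1 : F) ≠ -1 := fun e => t2 (by linear_combination e)
  obtain ⟨x, he⟩ := ex_ns H (X := 1 + (s : Mk 3 F)) (fun e => by
      rw [← neg_eq_iff_add_eq_zero] at e
      rw [← e, det_neg, det_one] at hd
      norm_num at hd
      exact hne hd.symm)
    (by rw [B.adj_add, B.adj_one, ha])
    (by simp only [add_mul, mul_add, one_mul, mul_one, ss, two_smul]; abel)
  obtain ⟨y, hd'⟩ := ex_ns H (X := 1 - (s : Mk 3 F)) (fun e => h1 (Units.ext (sub_eq_zero.1 e).symm))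
    (by rw [B.adj_sub, B.adj_one, ha])
    (by simp only [sub_mul, mul_sub, one_mul, mul_one, ss, two_smul]; abel)
  have se : (s : Mk 3 F) *ᵥ ((1 + (s : Mk 3 F)) *ᵥ x) = (1 + (s : Mk 3 F)) *ᵥ x := by
    rw [mulVec_mulVec, mul_add, mul_one, ss, add_comm]
  have sd : (s : Mk 3 F) *ᵥ ((1 - (s : Mk 3 F)) *ᵥ y) = -((1 - (s : Mk 3 F)) *ᵥ y) := by
    rw [mulVec_mulVec, mul_sub, mul_one, ss, ← neg_mulVec, neg_sub]
  generalize (1 + (s : Mk 3 F)) *ᵥ x = e at he se
  generalize (1 - (s : Mk 3 F)) *ᵥ y = d at hd' sd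
  have ed : B.f e d = 0 := by
    have := hf e d
    rw [se, sd, B.neg_right] at this
    apply mul_left_cancel₀ t2
    linear_combination -this
  have de : B.f d e = 0 := by rw [sy H, ed]
  obtain ⟨z, z0, ze, zd⟩ := perp2 B e d
  have hsp := span3 (x := e) (y := d) (z := z) fun a b c h => by
    have e1 := congrArg (fun y => B.f y e) h
    have e2 := congrArg (fun y => B.f y d) h
    simp only [B.add_left, B.smul_left, ed, de, ze, zd, B.zero_left, mul_zero, add_zero, zero_add,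
      mul_eq_zero, he, hd', or_false] at e1 e2
    simp only [e1, e2, zero_smul, zero_add, smul_eq_zero, z0, or_false] at h
    exact ⟨e1, e2, h⟩
  have mext : ∀ Y : Mk 3 F, e = Y *ᵥ e → -d = Y *ᵥ d → (s : Mk 3 F) *ᵥ z = Y *ᵥ z →
      (s : Mk 3 F) = Y := fun Y a1 a2 a3 => H19.matrix_ext_mulVec fun u => by
    obtain ⟨a, b, c, rfl⟩ := hsp u
    simp only [mulVec_add, mulVec_smul, se, sd, a3, ← a1, ← a2]
  obtain ⟨a, b, c, hz⟩ := hsp ((s : Mk 3 F) *ᵥ z)
  have a0 := hf z e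
  have b0 := hf z d
  rw [se] at a0
  rw [sd, B.neg_right] at b0
  simp only [hz, B.add_left, B.smul_left, ed, de, ze, zd, mul_zero, add_zero, zero_add,
    mul_eq_zero, he, hd', or_false, neg_eq_zero] at a0 b0
  rw [a0, b0, zero_smul, zero_smul, zero_add, zero_add] at hz
  have hc : c * c = 1 := by
    have := congrArg (fun y => (s : Mk 3 F) *ᵥ y) hz
    simp only [mulVec_mulVec, ss, one_mulVec] at this
    rw [mulVec_smul, hz, smul_smul] at this
    have h3 : (c * c - 1) • z = 0 := by rw [sub_smul, ← this, one_smul, sub_self]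
    exact sub_eq_zero.1 ((smul_eq_zero.1 h3).resolve_right z0)
  rcases mul_self_eq_one_iff.1 hc with rfl | rfl
  · exfalso
    have := mext (1 + ro ((-2 / B.f d d) • d) (ph B d)) ?_ ?_ ?_
    · rw [this, ro, vecMulVec_eq Unit, det_one_add_replicateCol_mul_replicateRow, ph_dot,
        B.smul_left, div_mul_cancel₀ _ hd'] at hd
      exact t2 (by linear_combination -hd)
    · rw [add_mulVec, ro_mulVec, ph_dot, ed, zero_smul, add_zero, one_mulVec]
    · rw [add_mulVec, ro_mulVec, ph_dot, smul_smul, mul_div_cancel₀ _ hd', one_mulVec]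
      module
    · rw [add_mulVec, ro_mulVec, ph_dot, zd, zero_smul, add_zero, one_mulVec, hz, one_smul]
  · refine ⟨e, he, mext _ ?_ ?_ ?_⟩
    · rw [zr, sub_mulVec, smul_mulVec, rf_mulVec, smul_smul, div_mul_cancel₀ _ he, one_mulVec]
      module
    · simp [zr, sub_mulVec, smul_mulVec, rf_mulVec, de]
    · simp [zr, sub_mulVec, smul_mulVec, rf_mulVec, ze, hz]

theorem jobO3L : H60.Wr.JobO3L.{u} := by
  intro F _ _ B H
  have he : (IsoV B).Nonempty := by
    obtain ⟨Q, -, hs⟩ := H73.WrO.exists_quad B H.sig H.eps H.two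
    obtain ⟨x, -, h0, hx⟩ := H60.exists_sing (Q := Q) ⊤ (by simp)
    exact ⟨x, h0, (hs x).2 hx⟩
  refine ⟨H, he, fun w hw => hyp H hw, fun w hw w' hw' h => ?_, fun w hw v => ns H hw,
    fun u hu => sp H he hu, fun X => quad H he, fun X => cent H he, fun s hs => unip H he hs,
    fun s hs => inv H hs⟩
  obtain ⟨v, h⟩ := fr_of H hw hw' h
  exact ⟨v, h.vw, h.vw', h.vv, h.one⟩

end H71.O3L
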