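/- C7-O4 tower, slot E: facts on the group `Ω₄⁻` of one factor. -/
import Cfsg.Agent.H60.WrO4Kit
import Cfsg.Agent.H73.WrGFO
import Cfsg.Agent.H58.ElGeo

set_option autoImplicit false

namespace H71.O4E
open Cfsg Cfsg.Geo Matrix H19 H60.Wr Module H56 QuadraticMap
open scoped MatrixGroups commutatorElement

universe u

theorem card_three {F : Type u} [Field F] [Finite F] (h2 : (2 : F) ≠ 0) (h : ∀ a : F, a = 0 ∨ a ^ 2 = 1) :
    Nat.card F = 3 := by
  classical
  have := Fintype.ofFinite F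
  rw [Nat.card_eq_fintype_card, ← Finset.card_univ, Finset.card_eq_three]
  refine ⟨0, 1, -1, zero_ne_one, by simp, fun e => h2 (by linear_combination e), ?_⟩
  ext a
  simpa using (h a).imp_right fun e => mul_self_eq_one_iff.1 (by rwa [← pow_two])

theorem jobO4E : H60.Wr.JobO4E.{u} := by
  intro F _ _ B L
  have K : O4 B := L.toO4
  obtain ⟨Q, hp, hs⟩ := H73.WrO.exists_quad B L.sig L.eps L.two
  have hQ : Q.polarBilin.Nondegenerate :=
    nondegenerate_of_polar fun x hx => B.nondeg' x fun y => by rw [← hp, hx]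
  have h3 : 3 ≤ finrank F (Fin 4 → F) := by simp
  have t2 := L.two
  have hE : ¬ IsExc Q := not_isExc_of_two_ne L.two
  have hq : ∀ v, Q v = B.f v v / 2 := fun v => by
    rw [← hp, polar_self']
    field_simp
  have hq0 : ∀ v, B.f v v ≠ 0 → Q v ≠ 0 := fun v h e => h ((hs v).2 e)
  have sy := K.sy
  have hiso : ∃ e, e ≠ 0 ∧ Q e = 0 := by
    obtain ⟨e, h0, he⟩ := L.ex
    exact ⟨e, h0, (hs e).1 he⟩
  have hR : (⊤ : Subgroup (O Q)).map (H60.toGL Q) = B.Iso := by
    apply le_antisymm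
    · rintro _ ⟨g, -, rfl⟩
      refine B.mem_Iso.2 fun u v => ?_
      rw [H60.toGL_mulVec, H60.toGL_mulVec, ← hp, ← hp, O.map_polar]
    · intro s hs'
      have hm : s ∈ isometryGroup F ⇑Q :=
        H56.mem_isometryGroup.2 fun v => by rw [hq, hq, B.mem_Iso.1 hs']
      exact ⟨toO Q rfl ⟨s, hm⟩, trivial, by simp [H60.toGL]⟩
  have hC : commutator (O Q) = EG Q := commutator_eq_EG hQ hE h3 hiso
  have hG : G0 B = (EG Q).map (H60.toGL Q) := by
    rw [← hC, commutator, Subgroup.map_commutator, hR]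
  have hmem : ∀ g, H60.toGL Q g ∈ G0 B ↔ g ∈ EG Q := fun g => by
    rw [hG, Subgroup.mem_map_iff_mem H60.toGL_injective]
  have heu : ∀ w ∈ IsoV B, ∀ v, B.f v w = 0 →
      ((H60.toGL Q (eich Q w v) : GL (Fin 4) F) : Mk 4 F) = eu B w v := fun w hw v hv => by
    refine ext_mulVec fun x => ?_
    rw [H60.toGL_mulVec, eich_apply ((hs w).1 hw.2) (by rw [hp, sy, hv])]
    simp only [eu_mulVec4, hp, hq, sy v x, sy w x]
    module
  have hrl : ∀ e, ((H60.toGL Q (refl Q e) : GL (Fin 4) F) : Mk 4 F) = rl B e := fun e => by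
    refine ext_mulVec fun x => ?_
    rw [H60.toGL_mulVec, refl_apply, rl_mulVec, hp, hq, sy e x, inv_div]
  have hneg : ∀ g, H60.toGL Q (O.negOne Q * g) = -H60.toGL Q g := fun g =>
    Units.ext (ext_mulVec fun x => by
      rw [Units.val_neg, neg_mulVec, H60.toGL_mulVec, H60.toGL_mulVec, O.mul_apply, O.negOne_apply])
  have hdet : ∀ g : O Q, LinearMap.det g.lin = ((H60.toGL Q g : GL (Fin 4) F) : Mk 4 F).det := fun g => by
    rw [← H60.toLin'_toGL, LinearMap.det_toLin']
  have hmc : ∀ g, g ∈ EG Q ↔ ((H60.toGL Q g : GL (Fin 4) F) : Mk 4 F).det = 1 ∧ spinor hQ g = 1 :=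
    fun g => by rw [← hC, mem_commutator_iff_of_two_ne hQ t2, hdet]
  have hsp : spinor hQ (O.negOne Q) ≠ 1 := fun h => by
    obtain ⟨w, hw⟩ := L.ex
    obtain ⟨w', v, v', R⟩ := L.toO4K.fr hw
    have T := R.ob K
    have e : O.negOne Q = refl Q (w + w') * refl Q (w - w') * (refl Q v * refl Q v') :=
      H60.toGL_injective (Units.ext (by
        rw [← mul_one (O.negOne Q), hneg]
        simp only [map_mul, map_one, Units.val_mul, hrl, T.rl_rl, (T.symm K).rl_rl, Units.val_neg,
          Units.val_one, mul_sub, sub_mul, T.pj_sq, (T.symm K).pj_sq, T.pj_mul, T.mul_pj]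
        rw [← T.one]; abel))
    rw [e, map_mul, map_mul, map_mul, spinor_refl, spinor_refl, spinor_refl, spinor_refl,
      ← sqcl_mul (hq0 _ T.aa) (hq0 _ T.bb), ← sqcl_mul (hq0 _ T.cc) (hq0 _ T.dd),
      ← sqcl_mul (mul_ne_zero (hq0 _ T.aa) (hq0 _ T.bb)) (mul_ne_zero (hq0 _ T.cc) (hq0 _ T.dd)),
      sqcl_eq_one_iff'] at h
    obtain ⟨r, hr⟩ := h
    simp only [hq, B.add_left, B.add_right, B.sub_left, B.sub_right, R.hw.2, R.hw'.2, R.ww, R.w'w K] at hr
    obtain ⟨k, hk⟩ := Submodule.mem_span_singleton.1 (K.ns w hw ((2 * r) • v + B.f v v • v')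
      (by simp [B.add_left, B.smul_left, R.vw, R.uw]) (by
        simp only [B.add_left, B.add_right, B.smul_left, K.smr, R.vu, R.uv]
        field_simp at hr
        apply mul_left_cancel₀ (mul_ne_zero t2 t2)
        linear_combination -B.f v v * hr))
    have e1 := congrArg (B.f · v') hk
    simp only [B.add_left, B.smul_left, R.wu, R.vu, mul_zero, zero_add] at e1
    exact mul_ne_zero R.vv R.uu e1.symm
  have hso : ∀ g : O Q, ((H60.toGL Q g : GL (Fin 4) F) : Mk 4 F).det = 1 →
      g ∈ EG Q ∨ O.negOne Q * g ∈ EG Q := fun g hg => by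
    refine or_iff_not_imp_left.2 fun h => (hmc _).2 ⟨?_, ?_⟩
    · rw [hneg, Units.val_neg, det_neg, hg]; norm_num
    · rw [map_mul, SqCl.eq_of_ne_one hsp fun e => h ((hmc g).2 ⟨hg, e⟩), SqCl.mul_self]
  have hperf : ⁅EG Q, EG Q⁆ = EG Q := by
    refine le_antisymm (Subgroup.commutator_le_left _ _) (EG_le fun w x h0 hw hx => ?_)
    obtain ⟨w', v, v', R⟩ := L.toO4K.fr ⟨h0, (hs w).2 hw⟩
    have T := R.ob K
    rw [hp] at hx
    have hg : ∀ y, (refl Q (w + w') * refl Q (w - w')) y = (2 : F) • pj B v v' *ᵥ y - y := fun y => by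
      rw [← H60.toGL_mulVec, map_mul, Units.val_mul, hrl, hrl, T.rl_rl, T.eq, sub_mulVec, sub_mulVec,
        one_mulVec]
      module
    have gw : pj B v v' *ᵥ w = 0 := by simp [pj_mulVec, R.wv, R.wu]
    have gx : pj B v v' *ᵥ x = x + (-B.f x w') • w := by
      nth_rw 2 [R.vec x]
      rw [pj_mulVec, sy x w, hx]
      module
    have hy : polar Q w ((-2 : F)⁻¹ • x) = 0 := by rw [hp, K.smr, hx, mul_zero]
    have e : eich Q w ((-2 : F) • pj B v v' *ᵥ ((-2 : F)⁻¹ • x)) = eich Q w x := by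
      rw [mulVec_smul, smul_smul, mul_inv_cancel₀ (neg_ne_zero.2 t2), one_smul, gx,
        eich_add_smul_self _ hw (by rw [hp, hx])]
    rw [← e]
    rcases hso (refl Q (w + w') * refl Q (w - w')) (by
      rw [map_mul, Units.val_mul, hrl, hrl, det_mul, det_rl T.aa, det_rl T.bb]; simp) with h | h
    · have := eich_sub_mem_commutator hw hy h (a := -1) (by rw [hg, gw]; simp)
      rw [hg] at this
      convert this using 2
      module
    · have := eich_sub_mem_commutator hw hy h (a := 1) (by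
        rw [O.mul_apply, O.negOne_apply, hg, gw]; simp)
      rw [O.mul_apply, O.negOne_apply, hg] at this
      convert this using 2
      module
  have hn : O.negOne Q ∉ EG Q := fun h => hsp ((hmc _).1 h).2
  have hZ : Subgroup.center (EG Q) = ⊥ := by
    rw [eq_bot_iff]
    intro z hz
    rcases (mem_center_iff_of_EG_le hQ h3 hiso le_rfl z).1 hz with h | h
    · exact Subtype.ext h
    · exact absurd (h ▸ z.2) hn
  have hZ' := center_EG_ne_top hQ h3 hiso
  have hS : IsSimpleGroup (EG Q) := by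
    have : Nontrivial (EG Q) := by
      by_contra h
      rw [not_nontrivial_iff_subsingleton] at h
      exact hZ' (Subsingleton.elim _ _)
    refine ⟨fun N hN => ?_⟩
    have := normal_subgroup_EG hQ h3 hiso (fun x y hx hy hxy hn h0 => ?_) hperf N hN
    · rwa [hZ, le_bot_iff] at this
    · obtain ⟨c, hc⟩ := Submodule.mem_span_singleton.1
        (L.ns x ⟨h0, (hs x).2 hx⟩ y (by rw [sy, ← hp, hxy]) ((hs y).2 hy))
      exact absurd hc.symm (hn c)
  have e : EG Q ≃* G0 B :=
    ((EG Q).equivMapOfInjective _ H60.toGL_injective).trans (MulEquiv.subgroupCongr hG.symm)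
  refine ⟨L, e.symm.isSimpleGroup, fun h => hZ' ?_, fun w hw v hv => ?_, ?_, ?_, ?_, ?_, ?_, ?_, ?_⟩
  · rw [eq_top_iff]
    intro z _
    rw [Subgroup.mem_center_iff]
    intro y
    apply e.injective
    rw [map_mul, map_mul, h.is_comm.comm]
  · exact ⟨_, (hmem _).2 (eich_mem_EG w v), heu w hw v hv⟩
  · intro w hw w' hw' h1 a ha
    have hh' : IsHyp Q w w' := ⟨(hs w).1 hw.2, (hs w').1 hw'.2, by rw [hp, h1]⟩
    refine ⟨_, (hmem _).2 (hh'.tor_sq_mem_EG hQ h3 ha), ext_mulVec fun x => ?_⟩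
    rw [H60.toGL_mulVec, tor_apply hh' (mul_ne_zero ha ha)]
    simp only [hh_mulVec, hp, sy w x, sy w' x, pow_two]
  · intro N hN
    rw [hG, Subgroup.map_le_iff_le_comap]
    refine EG_le fun w v h0 hw hv => ?_
    have hv' : B.f v w = 0 := by rw [sy, ← hp, hv]
    obtain ⟨m, hm, h⟩ := hN w ⟨h0, (hs w).2 hw⟩ v hv'
    rw [← heu w ⟨h0, (hs w).2 hw⟩ v hv'] at h
    rw [Subgroup.mem_comap, ← Units.ext h]
    exact hm
  · intro N hN
    rw [← hR, Subgroup.map_le_iff_le_comap, top_le_iff]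
    refine eq_top_of_refl_mem hQ hE fun v hv => ?_
    obtain ⟨m, hm, h⟩ := hN v fun e => hv ((hs v).1 e)
    rw [← hrl] at h
    rw [Subgroup.mem_comap, ← Units.ext h]
    exact hm
  · intro s hs' hd
    obtain ⟨g, -, rfl⟩ := hR.ge hs'
    exact (hso g hd).imp (hmem g).2 fun h => hneg g ▸ (hmem _).2 h
  · intro h
    rw [← map_one (H60.toGL Q), ← hneg, mul_one, hmem] at h
    exact hn h
  · intro a b ha hb
    have e1 : In (G0 B) (rl B a * rl B b) ↔ refl Q a * refl Q b ∈ EG Q := by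
      rw [← hmem, ← hrl, ← hrl, ← Units.val_mul, ← map_mul, In.coe]
    rw [e1, hmc, map_mul, Units.val_mul, hrl, hrl, det_mul, det_rl ha, det_rl hb, map_mul, spinor_refl,
      spinor_refl, ← sqcl_mul (hq0 _ ha) (hq0 _ hb), ← sqcl_mul_self_mul t2, sqcl_eq_one_iff', hq, hq,
      show 2 * 2 * (B.f a a / 2 * (B.f b b / 2)) = B.f a a * B.f b b by field_simp]
    simp
  · intro h
    have c3 := card_three t2 h
    obtain ⟨w, hw⟩ := L.ex
    obtain ⟨w', hw', h1⟩ := L.hyp w hw
    have hh' : IsHyp Q w w' := ⟨(hs w).1 hw.2, (hs w').1 hw'.2, by rw [hp, h1]⟩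
    have np : ¬ H58.IsPlus Q := fun ⟨U, hU, hU'⟩ => by
      have h2 : finrank F U = 2 := by simp at hU; omega
      obtain ⟨x, hx, x0⟩ := Submodule.exists_mem_ne_zero_of_ne_bot (p := U) (by
        rintro rfl; simp at h2)
      have : U ≤ F ∙ x := fun y hy => K.ns x ⟨x0, (hs x).2 (hU' x hx)⟩ y (by
        rw [← hp, polar, hU' _ (U.add_mem hy hx), hU' x hx, hU' y hy]; simp) ((hs y).2 (hU' y hy))
      have := Submodule.finrank_mono this
      rw [finrank_span_singleton x0] at this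
      omega
    have c1 := H58.card_sing hQ
    rw [c3, H58.numSing, if_neg (by simp), if_neg np] at c1
    have c1 : Nat.card {v // v ≠ 0 ∧ Q v = 0} = 20 := by simpa using c1
    have f2 : finrank F (hperp Q w w') = 2 := by have := hh'.finrank_hperp; simp at this; omega
    have c2 := hh'.card_O hQ
    rw [← card_sing_ne_zero, c1, Module.natCard_eq_pow_finrank (K := F) (V := hperp Q w w'), f2,
      card_O_of_aniso (hh'.nondegenerate_hperp hQ) (fun x hx => ?_) (by omega) f2.le, f2, c3] at c2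
    · refine ⟨(Nat.card_congr (Equiv.subtypeEquivRight fun x => and_congr_right fun _ => hs x)).trans c1, ?_⟩
      have c4 := (commutator (O Q)).card_mul_index
      rw [index_commutator_of_two_ne hQ t2 (by simp), c2, hC, Nat.card_congr e.toEquiv] at c4
      simp [Finset.sum_range_succ] at c4 ⊢
      omega
    · obtain ⟨c, hc⟩ := Submodule.mem_span_singleton.1 (K.ns w hw x (by rw [sy, ← hp, (mem_hperp.1 x.2).1])
        ((hs x).2 hx))
      have := (mem_hperp.1 x.2).2
      rw [← hc, hp, K.smr, sy, h1, mul_one] at this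
      exact Subtype.ext (by rw [← hc, this, zero_smul]; rfl)

end H71.O4E
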