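/- C7-O4 tower, slot F: transitivity and involutions in `Ω₄⁻`. -/
import Cfsg.Agent.H60.WrO4Kit

set_option autoImplicit false

namespace H71.O4F
open Cfsg Cfsg.Geo Matrix H19 H60.Wr Module
open scoped MatrixGroups commutatorElement

universe u

variable {F : Type u} [Field F] {B : Frm (Fin 4) F} {w w' v v' a b c d : Fin 4 → F}

theorem two_rl (H : O4E B) (ha : B.f a a ≠ 0) (hb : B.f b b ≠ 0) :
    In (G0 B) (rl B a * rl B b) ∨ In (G0 B) (-(rl B a * rl B b)) := by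
  obtain ⟨s, hs, e⟩ := (H.rlI a ha).mul (H.rlI b hb)
  exact (H.so s hs (by rw [e, det_mul, det_rl ha, det_rl hb]; simp)).imp (fun h => ⟨s, h, e⟩)
    fun h => ⟨-s, h, by rw [Units.val_neg, e]⟩

theorem torpm (H : O4E B) (hw : w ∈ IsoV B) (hw' : w' ∈ IsoV B) (h : B.f w w' = 1) {l : F} (hl : l ≠ 0) :
    In (G0 B) (hh B w w' l) ∨ In (G0 B) (-hh B w w' l) := by
  have K : O4 B := H.toO4
  have t2 := K.two
  have h' := (K.sy _ _).trans h
  have e1 : B.f (w - l⁻¹ • w') (w - l⁻¹ • w') = -2 * l⁻¹ := by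
    simp only [B.sub_left, B.sub_right, B.smul_left, K.smr, hw.2, hw'.2, h, h']; ring1
  have e2 : B.f (w - w') (w - w') = -2 := by
    simp only [B.sub_left, B.sub_right, hw.2, hw'.2, h, h']; ring1
  have e : hh B w w' l = rl B (w - l⁻¹ • w') * rl B (w - w') := by
    refine ext_mulVec fun x => ?_
    rw [← mulVec_mulVec, rl_mulVec, rl_mulVec, e1, e2, hh_mulVec]
    simp only [B.sub_left, B.sub_right, B.smul_left, K.smr, hw.2, hw'.2, h, h']
    match_scalars <;> field_simp <;> ring1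
  rw [e]
  exact two_rl H (by rw [e1]; simp [t2, hl]) (by rw [e2]; simp [t2])

theorem tr1 [Finite F] (H : O4E B) (hw : w ∈ IsoV B) (hw' : w' ∈ IsoV B) (h : B.f w w' ≠ 0) :
    ∃ g ∈ G0 B, (g : Mk 4 F) *ᵥ w = w' := by
  have K : O4 B := H.toO4
  have t2 := K.two
  obtain ⟨v, v', R⟩ := H.frame w hw ((B.f w w')⁻¹ • w')
    ⟨smul_ne_zero (inv_ne_zero h) hw'.1, by simp [B.smul_left, K.smr, hw'.2]⟩ (by rw [K.smr, inv_mul_cancel₀ h])
  have e2 : B.f (w - w') (w - w') = -2 * B.f w w' := by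
    simp only [B.sub_left, B.sub_right, hw.2, hw'.2, K.sy w' w]; ring1
  have n0 : B.f (w - w') (w - w') ≠ 0 := by rw [e2]; simp [t2, h]
  obtain ⟨α, β, e⟩ := rep2 t2 R.vv R.uu (B.f (w - w') (w - w'))
  have e1 : B.f (α • v + β • v') (α • v + β • v') = B.f (w - w') (w - w') := by
    simp only [B.add_left, B.add_right, B.smul_left, K.smr, R.vu, R.uv, ← e]; ring1
  obtain ⟨g, hg, eg⟩ := (H.sn (α • v + β • v') (w - w') (e1 ▸ n0) n0).2 ⟨_, by rw [e1]⟩
  have p1 := R.w'v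
  have p2 := R.w'u
  rw [B.smul_left, mul_eq_zero, or_iff_right (inv_ne_zero h)] at p1 p2
  have e3 : rl B (w - w') *ᵥ w = w' := by
    rw [rl_mulVec, e2, B.sub_right, hw.2]
    match_scalars <;> field_simp <;> ring1
  exact ⟨g, hg, by rw [eg, ← mulVec_mulVec, e3, rl_mulVec]; simp [B.add_right, K.smr, p1, p2]⟩

theorem trx [Finite F] (H : O4E B) (hw : w ∈ IsoV B) (hv : v ∈ IsoV B) :
    ∃ g ∈ G0 B, (g : Mk 4 F) *ᵥ w = v := by
  by_cases h : B.f w v = 0
  · have K : O4 B := H.toO4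
    obtain ⟨w', hw', e⟩ := H.hyp w hw
    obtain ⟨r, rfl⟩ := Submodule.mem_span_singleton.1 (K.ns w hw v ((K.sy _ _).trans h) hv.2)
    obtain ⟨g, hg, e1⟩ := tr1 H hw hw' (by simp [e])
    obtain ⟨g', hg', e2⟩ := tr1 H hw' hv (by
      rw [K.smr, K.sy, e, mul_one]; rintro rfl; exact hv.1 (zero_smul _ _))
    exact ⟨g' * g, mul_mem hg' hg, by rw [Units.val_mul, ← mulVec_mulVec, e1, e2]⟩
  · exact tr1 H hw hv h

theorem xi_sq (O : Ob B a b c d) (h : B.f a a = B.f b b) {ε : F} (hε : ε = 1 ∨ ε = -1) :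
    (ε • pj B c d + jj B a b) * (ε • pj B c d + jj B a b) = pj B c d - pj B a b := by
  simp only [mul_add, add_mul, smul_mul_assoc, mul_smul_comm, O.pj_sq, O.jj_pj, O.pj_jj, O.jj_sq h, O.eq]
  rcases hε with rfl | rfl <;> module

theorem root (H : O4E B) (O : Ob B a b c d) (h : B.f a a = B.f b b) :
    ∃ ξ, Xi B ξ ∧ (ξ : Mk 4 F) * (ξ : Mk 4 F) = pj B c d - pj B a b := by
  have K : O4 B := H.toO4
  have t2 := K.two
  have bb := O.bb
  have ba := B.eq_zero_comm.1 O.ab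
  have e1 : B.f (a - b) (a - b) = 2 * B.f b b := by
    simp only [B.sub_left, B.sub_right, O.ab, ba, h]; ring1
  have e : rl B (a - b) * rl B b = (1 : F) • pj B c d + jj B a b := by
    rw [one_smul, show pj B c d = 1 - pj B a b from eq_sub_of_add_eq' O.one]
    refine ext_mulVec fun x => ?_
    rw [← mulVec_mulVec, rl_mulVec, rl_mulVec, e1, add_mulVec, sub_mulVec, one_mulVec, pj_mulVec, jj_mulVec]
    simp only [B.sub_left, B.sub_right, B.smul_left, ba, h]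
    match_scalars <;> field_simp <;> ring1
  rcases two_rl H (a := a - b) (by rw [e1]; exact mul_ne_zero t2 bb) bb with ⟨s, hs, es⟩ | ⟨s, hs, es⟩
  · rw [e] at es
    exact ⟨s, ⟨hs, a, b, c, d, 1, O, h, .inl rfl, es⟩, by rw [es, xi_sq O h (.inl rfl)]⟩
  · have es' : (s : Mk 4 F) = (-1 : F) • pj B c d + jj B b a := by
      rw [es, e, jj, jj, h]; module
    exact ⟨s, ⟨hs, b, a, c, d, -1, O.swap K, h.symm, .inr rfl, es'⟩, by
      rw [es', xi_sq (O.swap K) h.symm (.inr rfl), pj_comm B b a]⟩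

theorem x1 (H : O4E B) {z : GL (Fin 4) F} (hz : z ∈ G0 B) (z1 : z ≠ 1) (z2 : z * z = 1) :
    ∃ ξ, Xi B ξ ∧ z = ξ * ξ := by
  have K : O4 B := H.toO4
  have t2 := K.two
  have hd : (z : Mk 4 F).det = 1 := mem_SL.1 (commutator_le_SL _ hz)
  have ne : (-1 : F) ≠ 1 := fun e => t2 (by linear_combination -e)
  rcases H.inv z (by rw [B.mem_Iso_iff_adj.1 (comm_le _ hz), inv_eq_of_mul_eq_one_right z2])
    (by rw [← Units.val_mul, z2, Units.val_one]) with e | e | ⟨x, hx, e | e⟩ | ⟨a, b, c, d, O, e⟩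
  · exact absurd (Units.ext e) z1
  · exact absurd ((Units.ext e : z = -1) ▸ hz) H.neg
  · rw [e, det_rl hx] at hd; exact absurd hd ne
  · rw [e, det_neg, det_rl hx] at hd; exact absurd (by simpa [show (-1 : F) ^ 4 = 1 by norm_num] using hd) ne
  obtain ⟨r, hr⟩ := (H.sn a b O.aa O.bb).1 ⟨z, hz, by rw [e, O.rl_rl]⟩
  have aa := O.aa
  have bb := O.bb
  have r0 : r ≠ 0 := fun e => mul_ne_zero aa bb (by rw [hr, e, mul_zero])
  have e1 : B.f ((B.f a a / r) • b) ((B.f a a / r) • b) = B.f a a := by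
    rw [B.smul_left, K.smr]; field_simp; linear_combination hr
  have e2 : pj B a ((B.f a a / r) • b) = pj B a b := by
    simp only [pj, B.smul_left, K.smr, K.rfr, ro_smul_left]
    match_scalars <;> field_simp
  obtain ⟨ξ, h1, h2⟩ := root H (b := (B.f a a / r) • b) ⟨aa, e1.trans_ne aa, O.cc, O.dd, by rw [K.smr, O.ab, mul_zero],
    O.ac, O.ad, by rw [B.smul_left, O.bc, mul_zero], by rw [B.smul_left, O.bd, mul_zero], O.cd,
    by rw [e2, O.one]⟩ e1.symm
  exact ⟨ξ, h1, Units.ext (by rw [Units.val_mul, h2, e2, e])⟩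

theorem exx (H : O4E B) : ∃ ξ, Xi B ξ := by
  have K : O4 B := H.toO4
  obtain ⟨w, hw⟩ := H.ex
  obtain ⟨w', v, v', R⟩ := H.toO4K.fr hw
  have O := R.ob K
  have sq : (pj B v v' - pj B (w + w') (w - w')) * (pj B v v' - pj B (w + w') (w - w')) = 1 := by
    simp only [mul_sub, sub_mul, O.pj_sq, (O.symm K).pj_sq, O.pj_mul, O.mul_pj]
    rw [← O.one]; abel
  have ne : ∀ x : Fin 4 → F, x ≠ 0 → -x ≠ x := fun x h0 e => by
    rw [neg_eq_iff_add_eq_zero, ← two_smul F, smul_eq_zero] at e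
    exact e.elim K.two h0
  rcases two_rl H O.aa O.bb with ⟨s, hs, es⟩ | ⟨s, hs, es⟩ <;> rw [O.rl_rl] at es
  · refine (x1 H hs (fun e => ne _ O.a0 ?_) (Units.ext (by rw [Units.val_mul, es, sq]; rfl))).imp fun _ h => h.1
    simpa [e, sub_mulVec, O.pj_a, (O.symm K).pj_c] using (congrArg (· *ᵥ (w + w')) es).symm
  · refine (x1 H hs (fun e => ne _ O.c0 ?_)
      (Units.ext (by rw [Units.val_mul, es, neg_mul_neg, sq]; rfl))).imp fun _ h => h.1
    simpa [e, sub_mulVec, O.pj_c, (O.symm K).pj_a] using (congrArg (· *ᵥ v) es).symm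

theorem geninv (H : O4E B) (N : Subgroup (GL (Fin 4) F)) (h : ∀ ξ, Xi B ξ → ξ * ξ ∈ N) : G0 B ≤ N := by
  have := H.simple
  obtain ⟨ξ, hξ⟩ := exx H
  rcases (Subgroup.normalClosure_normal (s := {z : G0 B | z * z = 1})).eq_bot_or_eq_top with e | e
  · have m : (⟨ξ * ξ, mul_mem hξ.1 hξ.1⟩ : G0 B) ∈ Subgroup.normalClosure {z : G0 B | z * z = 1} :=
      Subgroup.subset_normalClosure (Subtype.ext hξ.four)
    rw [e] at m
    exact absurd (congrArg Subtype.val m) (hξ.sq_ne H.toO4)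
  rw [← Subgroup.subgroupOf_eq_top, eq_top_iff, ← e, Subgroup.normalClosure, Subgroup.closure_le]
  intro z hz
  obtain ⟨y, hy, g, rfl⟩ := Group.mem_conjugatesOfSet_iff.1 hz |>.imp fun _ h => h.imp_right isConj_iff.1
  generalize hu : g * y * g⁻¹ = u
  have u2 : u * u = 1 := by
    rw [← hu, show g * y * g⁻¹ * (g * y * g⁻¹) = g * (y * y) * g⁻¹ by group, show y * y = 1 from hy]; group
  by_cases u1 : (u : GL (Fin 4) F) = 1
  · exact (show (u : GL (Fin 4) F) ∈ N from u1 ▸ N.one_mem)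
  · obtain ⟨η, h1, h2⟩ := x1 H u.2 u1 (congrArg Subtype.val u2)
    exact (show (u : GL (Fin 4) F) ∈ N from h2 ▸ h η h1)

theorem jobO4F : JobO4F.{u} := fun _ _ _ _ H =>
  { H with
    torpm := fun _ hw _ hw' h _ hl => torpm H hw hw' h hl
    trx := fun _ hw _ hw' => trx H hw hw'
    x1 := fun _ hz z1 z2 => x1 H hz z1 z2
    exx := exx H
    geninv := geninv H }

end H71.O4F
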