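/- C7-O4 tower, slot L: linear algebra of a symmetric form of Witt index one in dimension four. -/
import Cfsg.Agent.H60.WrO4Kit
import Cfsg.Agent.H49.C7BQL

set_option autoImplicit false

namespace H71.O4L
open Cfsg Cfsg.Geo Matrix H19 H60.Wr Module
open scoped MatrixGroups commutatorElement

universe u

variable {F : Type u} [Field F] {B : Frm (Fin 4) F} {w w' v v' x y a b c d : Fin 4 → F}
  {X Y Q : Mk 4 F}

/-- Four orthogonal non-singular vectors form a basis. -/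
theorem ob_of (H : O4 B) (aa : B.f a a ≠ 0) (bb : B.f b b ≠ 0) (cc : B.f c c ≠ 0) (dd : B.f d d ≠ 0)
    (ab : B.f a b = 0) (ac : B.f a c = 0) (ad : B.f a d = 0) (bc : B.f b c = 0) (bd : B.f b d = 0)
    (cd : B.f c d = 0) : Ob B a b c d := by
  have ba := (H.sy _ _).trans ab
  have ca := (H.sy _ _).trans ac
  have da := (H.sy _ _).trans ad
  have cb := (H.sy _ _).trans bc
  have db := (H.sy _ _).trans bd
  have dc := (H.sy _ _).trans cd
  refine ⟨aa, bb, cc, dd, ab, ac, ad, bc, bd, cd, ?_⟩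
  have hl : LinearIndependent F ![a, b, c, d] := Fintype.linearIndependent_iff.2 fun g hg i => by
    have e : g 0 • a + g 1 • b + g 2 • c + g 3 • d = 0 := by simpa [Fin.sum_univ_four] using hg
    have e0 := congrArg (B.f · a) e
    have e1 := congrArg (B.f · b) e
    have e2 := congrArg (B.f · c) e
    have e3 := congrArg (B.f · d) e
    simp only [B.add_left, B.smul_left, B.zero_left, ab, ac, ad, bc, bd, cd, ba, ca, da, cb, db, dc,
      mul_zero, add_zero, zero_add, mul_eq_zero, aa, bb, cc, dd, or_false] at e0 e1 e2 e3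
    fin_cases i <;> assumption
  have := hl.span_eq_top_of_card_eq_finrank' (by simp)
  refine ext_mulVec fun u => ?_
  obtain ⟨g, hg⟩ := (Submodule.mem_span_range_iff_exists_fun F).1
    (this ▸ Submodule.mem_top (x := u))
  obtain rfl : g 0 • a + g 1 • b + g 2 • c + g 3 • d = u := by simpa [Fin.sum_univ_four] using hg
  simp only [add_mulVec, pj_mulVec, one_mulVec, B.add_left, B.smul_left, ab, ac, ad, bc, bd, cd, ba, ca,
    da, cb, db, dc]
  match_scalars <;> field_simp <;> ring1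

theorem mid (H : O4 B) (O : Ob B a b c d) : Ob B a c b d :=
  ⟨O.aa, O.cc, O.bb, O.dd, O.ac, O.ab, O.ad, (H.sy _ _).trans O.bc, O.cd, O.bd, by
    rw [← O.one, pj, pj, pj, pj]; abel⟩

theorem vext (R : Fr4 B w w' v v') (h1 : B.f x w = B.f y w) (h2 : B.f x w' = B.f y w')
    (h3 : B.f x v = B.f y v) (h4 : B.f x v' = B.f y v') : x = y := by
  rw [R.vec x, R.vec y, h1, h2, h3, h4]

theorem unip (H : O4K B) {s : GL (Fin 4) F} (hs : s ∈ B.Iso) (hn : IsNilpotent ((s : Mk 4 F) - 1)) :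
    ∃ w ∈ IsoV B, ∃ v, B.f v w = 0 ∧ (s : Mk 4 F) = eu B w v := by
  classical
  have hf := B.mem_Iso.1 hs
  by_cases h1 : (s : Mk 4 F) - 1 = 0
  · obtain ⟨w, hw⟩ := H.ex
    exact ⟨w, hw, 0, by simp, by rw [O4.eu_zero, sub_eq_zero.1 h1]⟩
  have hm := Nat.find_spec hn
  obtain ⟨m, e⟩ : ∃ m, Nat.find hn = m + 2 := by
    rcases h : Nat.find hn with _ | _ | m
    · rw [h, pow_zero] at hm
      exact absurd hm one_ne_zero
    · rw [h, zero_add, pow_one] at hm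
      exact absurd hm h1
    · exact ⟨m, rfl⟩
  have hm' := Nat.find_min hn (m := m + 1) (by omega)
  rw [e] at hm
  obtain ⟨y, hy⟩ : ∃ y, ((s : Mk 4 F) - 1) ^ (m + 1) *ᵥ y ≠ 0 := by
    by_contra! h
    exact hm' (ext_mulVec fun y => by rw [h, zero_mulVec])
  set w := ((s : Mk 4 F) - 1) ^ (m + 1) *ᵥ y with hw
  have sw : (s : Mk 4 F) *ᵥ w = w := by
    have : ((s : Mk 4 F) - 1) *ᵥ w = 0 := by rw [hw, mulVec_mulVec, ← pow_succ', hm, zero_mulVec]
    rwa [sub_mulVec, one_mulVec, sub_eq_zero] at this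
  have fw : ∀ x, B.f ((s : Mk 4 F) *ᵥ x) w = B.f x w := fun x => by rw [← hf x w, sw]
  have ww : B.f w w = 0 := by
    nth_rw 1 [hw]
    rw [pow_succ', ← mulVec_mulVec, sub_mulVec, one_mulVec, B.sub_left, fw, sub_self]
  clear_value w
  obtain ⟨w', v, v', R⟩ := H.fr ⟨hy, ww⟩
  have K := H.toO4
  have ew : ∀ x, B.f (((s : Mk 4 F) - 1) *ᵥ x) w = 0 := fun x => by
    rw [sub_mulVec, one_mulVec, B.sub_left, fw, sub_self]
  have hk : ∀ k : ℕ, ∀ y, B.f y w = 0 → ((s : Mk 4 F) - 1) ^ k *ᵥ (((s : Mk 4 F) - 1) *ᵥ y) ∈ F ∙ w →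
      ((s : Mk 4 F) - 1) *ᵥ y ∈ F ∙ w := by
    intro k
    induction k with
    | zero => intro y _ h; rwa [pow_zero, one_mulVec] at h
    | succ k ih =>
      intro y hy h
      rw [pow_succ, ← mulVec_mulVec] at h
      obtain ⟨r, hr⟩ := Submodule.mem_span_singleton.1 (ih _ (ew y) h)
      refine K.ns w R.hw _ (ew y) ?_
      generalize hu : ((s : Mk 4 F) - 1) *ᵥ y = z at hr
      rw [sub_mulVec, one_mulVec] at hr hu
      nth_rw 1 [← hu]
      rw [B.sub_left, ← hf y z, ← B.sub_right, ← neg_sub, ← hr, B.neg_right, K.smr, fw, hy]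
      simp
  have hk' : ∀ y, B.f y w = 0 → ∃ r : F, (s : Mk 4 F) *ᵥ y = y + r • w := fun y hy => by
    obtain ⟨r, hr⟩ := Submodule.mem_span_singleton.1 (hk (m + 2) y hy (by rw [hm, zero_mulVec]; simp))
    exact ⟨r, by rw [hr, sub_mulVec, one_mulVec, add_sub_cancel]⟩
  obtain ⟨r, sv⟩ := hk' v R.vw
  obtain ⟨r', sv'⟩ := hk' v' R.uw
  have hn := R.vv
  have hn' := R.uu
  have h2 := K.two
  have y1 := fw w'
  have y2 := hf w' v
  have y2' := hf w' v'
  have y3 := hf w' w'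
  rw [sv, B.add_right, K.smr, y1, R.w'w K, R.w'v] at y2
  rw [sv', B.add_right, K.smr, y1, R.w'w K, R.w'u] at y2'
  nth_rw 2 [R.vec ((s : Mk 4 F) *ᵥ w')] at y3
  have y4 : B.f ((s : Mk 4 F) *ᵥ w') v = -r := by linear_combination y2
  have y4' : B.f ((s : Mk 4 F) *ᵥ w') v' = -r' := by linear_combination y2'
  simp only [B.add_right, K.smr, y1, R.w'w K, R.hw'.2, y4, y4'] at y3
  refine ⟨w, R.hw, (r / B.f v v) • v + (r' / B.f v' v') • v', by
    simp [B.add_left, B.smul_left, R.vw, R.uw], R.mat ?_ ?_ ?_ ?_⟩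
  · simp [sw, eu_mulVec4, B.add_right, K.smr, ww, R.wv, R.wu]
  · refine vext R ?_ ?_ ?_ ?_ <;>
      simp only [eu_mulVec4, B.add_left, B.sub_left, B.smul_left, B.add_right, K.smr, ww, R.hw'.2, R.ww,
        R.w'w K, R.vw, R.vw', R.wv, R.w'v, R.uw, R.uw', R.wu, R.w'u, R.vu, R.uv, y1, y4, y4']
    · ring1
    · field_simp at y3 ⊢
      linear_combination y3
    · field_simp
      ring1
    · field_simp
      ring1
  · rw [sv, eu_mulVec4, B.add_right, K.smr, K.smr, R.vw, R.vu, div_mul_cancel₀ _ hn]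
    module
  · rw [sv', eu_mulVec4, B.add_right, K.smr, K.smr, R.uw, R.uv, div_mul_cancel₀ _ hn']
    module

/-- A non-zero self-adjoint `P` with `P² = 2P` has a non-singular vector in its image. -/
theorem ex_ns (H : O4 B) (h0 : X ≠ 0) (ha : B.adj X = X) (h2 : X * X = (2 : F) • X) :
    ∃ x, B.f (X *ᵥ x) (X *ᵥ x) ≠ 0 := by
  by_contra! h
  refine h0 (ext_mulVec fun x => B.ext_left fun y => ?_)
  have e := h (x + y)
  simp only [mulVec_add, B.add_left, B.add_right, h x, h y, H.sy (X *ᵥ y) (X *ᵥ x)] at e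
  rw [B.adj_right, ha, mulVec_mulVec, h2, smul_mulVec, B.smul_left] at e
  rw [zero_mulVec, B.zero_left]
  apply mul_left_cancel₀ (mul_ne_zero H.two H.two)
  linear_combination e

/-- A self-adjoint idempotent commuting with `X`. -/
structure Pr (B : Frm (Fin 4) F) (X Q : Mk 4 F) : Prop where
  adj : B.adj Q = Q
  sq : Q * Q = Q
  cm : X * Q = Q * X

theorem step (H : O4 B) (ha : B.adj X = X) (h2 : X * X = 1) (P : Pr B X Q) (h0 : v ≠ 0)
    (hv : Q *ᵥ v = v) : ∃ a, B.f a a ≠ 0 ∧ (X *ᵥ a = a ∨ X *ᵥ a = -a) ∧ Q *ᵥ a = a ∧ ∃ Q', Pr B X Q' ∧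
      ∀ x, Q' *ᵥ x = x ↔ Q *ᵥ x = x ∧ B.f x a = 0 := by
  have key : ∀ ε : F, ε * ε = 1 → Q + ε • (X * Q) ≠ 0 →
      ∃ a, B.f a a ≠ 0 ∧ X *ᵥ a = ε • a ∧ Q *ᵥ a = a := fun ε hε h => by
    have e1 : Q * (Q + ε • (X * Q)) = Q + ε • (X * Q) := by
      rw [mul_add, mul_smul_comm, ← mul_assoc, ← P.cm, mul_assoc, P.sq]
    have e2 : X * (Q + ε • (X * Q)) = ε • (Q + ε • (X * Q)) := by
      rw [mul_add, mul_smul_comm, ← mul_assoc, h2, one_mul, smul_add, smul_smul, hε, one_smul, add_comm]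
    obtain ⟨x, hx⟩ := ex_ns H h (by rw [B.adj_add, H.adj_smul, B.adj_mul, P.adj, ha, P.cm]) (by
      rw [add_mul, e1, smul_mul_assoc, mul_assoc, e1, e2, smul_smul, hε, one_smul, two_smul])
    exact ⟨_, hx, by rw [mulVec_mulVec, e2, smul_mulVec], by rw [mulVec_mulVec, e1]⟩
  obtain ⟨ε, hε, a, aa, xa, qa⟩ : ∃ ε : F, (ε = 1 ∨ ε = -1) ∧
      ∃ a, B.f a a ≠ 0 ∧ X *ᵥ a = ε • a ∧ Q *ᵥ a = a := by
    by_cases h : Q + (1 : F) • (X * Q) = 0
    · refine ⟨-1, Or.inr rfl, key _ (by simp) fun h' => h0 ?_⟩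
      have : (2 : F) • Q = 0 := by linear_combination (norm := module) h + h'
      rw [← hv, (smul_eq_zero.1 this).resolve_left H.two, zero_mulVec]
    · exact ⟨1, Or.inl rfl, key _ (by simp) h⟩
  have fq : ∀ x, B.f (Q *ᵥ x) a = B.f x a := fun x => by rw [B.adj_left, P.adj, qa]
  refine ⟨a, aa, hε.imp (fun e => by rw [xa, e, one_smul]) fun e => by rw [xa, e, neg_one_smul], qa,
    Q - (B.f a a)⁻¹ • rf B a a, ⟨?_, ?_, ?_⟩, fun x => ?_⟩
  · rw [B.adj_sub, H.adj_smul, H.adj_rf, P.adj]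
  · simp only [mul_sub, sub_mul, smul_mul_assoc, mul_smul_comm, rf_mul_rf, P.sq]
    rw [rf_mul, P.adj, qa, mul_ro, qa]
    match_scalars <;> field_simp <;> ring1
  · rw [mul_sub, sub_mul, smul_mul_assoc, mul_smul_comm, rf_mul, ha, xa, mul_ro, xa, H.rfr,
      ro_smul_left, P.cm]
  · rw [sub_mulVec, smul_mulVec, rf_mulVec]
    refine ⟨fun e => ?_, fun e => by rw [e.1, e.2]; simp⟩
    have e1 := congrArg (B.f · a) e
    simp only [B.sub_left, B.smul_left, fq] at e1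
    have e2 : B.f x a = 0 := by field_simp at e1; linear_combination -e1
    rw [e2] at e
    exact ⟨by simpa using e, e2⟩

theorem c31 (O : Ob B a b c d) (h1 : X *ᵥ a = -a) (h2 : X *ᵥ b = b) (h3 : X *ᵥ c = c)
    (h4 : X *ᵥ d = d) : X = rl B a := by
  have := O.aa
  refine O.mat ?_ ?_ ?_ ?_ <;> simp only [rl_mulVec, h1, h2, h3, h4, B.eq_zero_comm.1 O.ab,
    B.eq_zero_comm.1 O.ac, B.eq_zero_comm.1 O.ad] <;> match_scalars <;> field_simp <;> ring1

theorem c13 (O : Ob B a b c d) (h1 : X *ᵥ a = a) (h2 : X *ᵥ b = -b) (h3 : X *ᵥ c = -c)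
    (h4 : X *ᵥ d = -d) : X = -rl B a :=
  neg_eq_iff_eq_neg.1 (c31 O (by rw [neg_mulVec, h1]) (by rw [neg_mulVec, h2, neg_neg])
    (by rw [neg_mulVec, h3, neg_neg]) (by rw [neg_mulVec, h4, neg_neg]))

theorem c22 (H : O4 B) (O : Ob B a b c d) (h1 : X *ᵥ a = -a) (h2 : X *ᵥ b = -b) (h3 : X *ᵥ c = c)
    (h4 : X *ᵥ d = d) : X = pj B c d - pj B a b := by
  refine O.mat ?_ ?_ ?_ ?_ <;> simp only [sub_mulVec, h1, h2, h3, h4, O.pj_a, O.pj_b, O.pj_c, O.pj_d,
    (O.symm H).pj_a, (O.symm H).pj_b, (O.symm H).pj_c, (O.symm H).pj_d, zero_sub, sub_zero]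

theorem inv (H : O4 B) (ha : B.adj X = X) (h2 : X * X = 1) : X = 1 ∨ X = -1 ∨
    (∃ e, B.f e e ≠ 0 ∧ (X = rl B e ∨ X = -rl B e)) ∨
    ∃ a b c d, Ob B a b c d ∧ X = pj B c d - pj B a b := by
  classical
  obtain ⟨v0, z0, -⟩ := H49.BQL.exists_perp B ∅ (by simp)
  obtain ⟨a, aa, xa, -, Q1, P1, q1⟩ := step (Q := 1) H ha h2 ⟨B.adj_one, one_mul _, by simp⟩ z0
    (one_mulVec _)
  obtain ⟨v1, z1, p1⟩ := H49.BQL.exists_perp B {a} (by simp)
  obtain ⟨b, bb, xb, qb, Q2, P2, q2⟩ := step H ha h2 P1 z1 ((q1 _).2 ⟨one_mulVec _, p1 a (by simp)⟩)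
  obtain ⟨v2, z2, p2⟩ := H49.BQL.exists_perp B {a, b} (Finset.card_le_two.trans_lt (by decide))
  obtain ⟨c, cc, xc, qc, Q3, P3, q3⟩ := step H ha h2 P2 z2
    ((q2 _).2 ⟨(q1 _).2 ⟨one_mulVec _, p2 a (by simp)⟩, p2 b (by simp)⟩)
  obtain ⟨v3, z3, p3⟩ := H49.BQL.exists_perp B {a, b, c} (Finset.card_le_three.trans_lt (by decide))
  obtain ⟨d, dd, xd, qd, -⟩ := step H ha h2 P3 z3
    ((q3 _).2 ⟨(q2 _).2 ⟨(q1 _).2 ⟨one_mulVec _, p3 a (by simp)⟩, p3 b (by simp)⟩, p3 c (by simp)⟩)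
  rw [q3, q2, q1] at qd
  rw [q2, q1] at qc
  rw [q1] at qb
  have O : Ob B a b c d := ob_of H aa bb cc dd ((H.sy _ _).trans qb.2) ((H.sy _ _).trans qc.1.2)
    ((H.sy _ _).trans qd.1.1.2) ((H.sy _ _).trans qc.2) ((H.sy _ _).trans qd.1.2) ((H.sy _ _).trans qd.2)
  have Ob' := O.swap H
  have Oc := O.symm H
  have Od := (O.symm H).swap H
  have Om := mid H O
  have On := mid H (O.swap H)
  rcases xa with xa | xa <;> rcases xb with xb | xb <;> rcases xc with xc | xc <;> rcases xd with xd | xd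
  · exact .inl (O.mat (by simp [xa]) (by simp [xb]) (by simp [xc]) (by simp [xd]))
  · exact .inr (.inr (.inl ⟨d, dd, .inl (c31 Od xd xc xa xb)⟩))
  · exact .inr (.inr (.inl ⟨c, cc, .inl (c31 Oc xc xd xa xb)⟩))
  · exact .inr (.inr (.inr ⟨_, _, _, _, Oc, c22 H Oc xc xd xa xb⟩))
  · exact .inr (.inr (.inl ⟨b, bb, .inl (c31 Ob' xb xa xc xd)⟩))
  · exact .inr (.inr (.inr ⟨_, _, _, _, Om.symm H, c22 H (Om.symm H) xb xd xa xc⟩))
  · exact .inr (.inr (.inr ⟨_, _, _, _, On, c22 H On xb xc xa xd⟩))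
  · exact .inr (.inr (.inl ⟨a, aa, .inr (c13 O xa xb xc xd)⟩))
  · exact .inr (.inr (.inl ⟨a, aa, .inl (c31 O xa xb xc xd)⟩))
  · exact .inr (.inr (.inr ⟨_, _, _, _, On.symm H, c22 H (On.symm H) xa xd xb xc⟩))
  · exact .inr (.inr (.inr ⟨_, _, _, _, Om, c22 H Om xa xc xb xd⟩))
  · exact .inr (.inr (.inl ⟨b, bb, .inr (c13 Ob' xb xa xc xd)⟩))
  · exact .inr (.inr (.inr ⟨_, _, _, _, O, c22 H O xa xb xc xd⟩))
  · exact .inr (.inr (.inl ⟨c, cc, .inr (c13 Oc xc xd xa xb)⟩))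
  · exact .inr (.inr (.inl ⟨d, dd, .inr (c13 Od xd xc xa xb)⟩))
  · exact .inr (.inl (O.mat (by simp [xa, neg_mulVec]) (by simp [xb, neg_mulVec])
      (by simp [xc, neg_mulVec]) (by simp [xd, neg_mulVec])))

theorem uz0 (H : O4 B) (O : Ob B a b c d) (hw : w ∈ IsoV B) (hv : B.f v w = 0) (hn : B.f v v ≠ 0)
    (e : eu B w v * pj B c d = pj B c d * eu B w v) (pw : pj B c d *ᵥ w = w) : False := by
  obtain ⟨x, hx⟩ := exists_f_one (B := B) hw.1
  have e1 := congrArg (· *ᵥ (pj B c d *ᵥ x)) e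
  have px : pj B c d *ᵥ (pj B c d *ᵥ x) = pj B c d *ᵥ x := by rw [mulVec_mulVec, O.pj_sq]
  have fx : B.f (pj B c d *ᵥ x) w = 1 := by rw [B.adj_left, H.adj_pj, pw, hx]
  generalize pj B c d *ᵥ x = z at e1 px fx
  simp only [← mulVec_mulVec, px, eu_mulVec4, mulVec_add, mulVec_sub, mulVec_smul, pw, fx, one_smul,
    sub_left_inj, add_right_inj, sub_right_inj] at e1
  rw [pj_mulVec] at e1 pw
  generalize (B.f c c)⁻¹ * B.f w c = α, (B.f d d)⁻¹ * B.f w d = β at pw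
  generalize (B.f c c)⁻¹ * B.f v c = γ, (B.f d d)⁻¹ * B.f v d = δ at e1
  obtain ⟨w0, ww⟩ := hw
  subst e1 pw
  simp only [B.add_left, B.add_right, B.smul_left, H.smr, O.cd, B.eq_zero_comm.1 O.cd] at ww hv hn
  have k : (α * δ - β * γ) ^ 2 = 0 := by
    apply mul_left_cancel₀ (mul_ne_zero O.cc O.dd)
    linear_combination (γ * (γ * B.f c c) + δ * (δ * B.f d d)) * ww -
      (γ * (α * B.f c c) + δ * (β * B.f d d)) * hv
  have k := pow_eq_zero_iff two_ne_zero |>.1 k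
  have h1 : α = 0 := by
    apply mul_left_cancel₀ hn
    linear_combination γ * hv + δ * B.f d d * k
  have h2 : β = 0 := by
    apply mul_left_cancel₀ hn
    linear_combination δ * hv - γ * B.f c c * k
  exact w0 (by simp [h1, h2])

theorem uz (H : O4 B) (O : Ob B a b c d) (hw : w ∈ IsoV B) (hv : B.f v w = 0)
    (e : eu B w v * pj B c d = pj B c d * eu B w v) : v ∈ F ∙ w := by
  by_contra h
  have hn := H.nz hw hv h
  have e1 : Commute (pj B c d) ((eu B w v - 1) ^ 2) :=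
    ((show Commute (pj B c d) (eu B w v) from e.symm).sub_right (Commute.one_right _)).pow_right 2
  obtain ⟨x, hx⟩ := exists_f_one (B := B) hw.1
  have e2 := congrArg (· *ᵥ x) e1.eq
  simp only [H.eu_sq hw.2 hv, ← mulVec_mulVec, smul_mulVec, mulVec_smul, rf_mulVec, hx, one_smul] at e2
  have e3 := smul_right_injective _ (neg_ne_zero.2 hn) e2
  generalize B.f (pj B c d *ᵥ x) w = r at e3
  have e4 : (r * r - r) • w = 0 := by
    rw [sub_smul, mul_smul, ← e3, ← mulVec_smul, ← e3, mulVec_mulVec, O.pj_sq, sub_self]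
  have e5 : r * (r - 1) = 0 := by
    linear_combination (smul_eq_zero.1 e4).resolve_right hw.1
  rcases mul_eq_zero.1 e5 with r0 | r1
  · refine uz0 H (O.symm H) hw hv hn ?_ ?_
    · rw [O.eq, mul_sub, sub_mul, e, mul_one, one_mul]
    · rw [O.eq, sub_mulVec, e3, r0, one_mulVec, zero_smul, sub_zero]
  · exact uz0 H O hw hv hn e (by rw [e3, sub_eq_zero.1 r1, one_smul])

theorem x2 (H : O4 B) {ξ s : GL (Fin 4) F} (h : Xi B ξ) (hs : s ∈ B.Iso) (e1 : s * s = ξ * ξ)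
    (e2 : (s : Mk 4 F) * (1 + (ξ : Mk 4 F) * (ξ : Mk 4 F)) =
      (ξ : Mk 4 F) * (1 + (ξ : Mk 4 F) * (ξ : Mk 4 F))) : s = ξ ∨ s = ξ⁻¹ := by
  obtain ⟨a, b, c, d, ε, O, hab, hε, hξ, sq, xp, -⟩ := h.ex
  have hf := B.mem_Iso.1 hs
  have εε : ε * ε = 1 := by rcases hε with rfl | rfl <;> simp
  have ε0 : ε ≠ 0 := left_ne_zero_of_mul_eq_one εε
  rw [sq, add_sub_cancel, mul_smul_comm, mul_smul_comm, xp] at e2
  have sp := smul_right_injective _ H.two e2
  have sc : (s : Mk 4 F) *ᵥ c = ε • c := by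
    simpa only [← mulVec_mulVec, smul_mulVec, O.pj_c] using congrArg (· *ᵥ c) sp
  have sd : (s : Mk 4 F) *ᵥ d = ε • d := by
    simpa only [← mulVec_mulVec, smul_mulVec, O.pj_d] using congrArg (· *ᵥ d) sp
  have ss : (s : Mk 4 F) *ᵥ ((s : Mk 4 F) *ᵥ a) = -a := by
    rw [mulVec_mulVec, ← Units.val_mul, e1, Units.val_mul, sq, sub_mulVec, smul_mulVec, O.pj_a]
    simp
  have f1 := hf a c
  have f2 := hf a d
  have f3 := hf ((s : Mk 4 F) *ᵥ a) a
  have f4 := hf a a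
  rw [sc, H.smr, O.ac, mul_eq_zero, or_iff_right ε0] at f1
  rw [sd, H.smr, O.ad, mul_eq_zero, or_iff_right ε0] at f2
  rw [ss, B.neg_left, H.sy a] at f3
  have f5 : B.f ((s : Mk 4 F) *ᵥ a) a = 0 := by
    apply mul_left_cancel₀ H.two
    linear_combination -f3
  obtain ⟨β, sa⟩ : ∃ β : F, (s : Mk 4 F) *ᵥ a = β • b :=
    ⟨_, by simpa [f1, f2, f5] using O.vec ((s : Mk 4 F) *ᵥ a)⟩
  rw [sa, B.smul_left, H.smr, hab] at f4
  have ββ : β * β = 1 := mul_right_cancel₀ O.bb (by linear_combination f4)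
  rw [sa, mulVec_smul] at ss
  have aa := O.aa
  have xa : (ξ : Mk 4 F) *ᵥ a = b := by
    simp [hξ, add_mulVec, smul_mulVec, O.pj_a, jj_mulVec, O.ab, aa]
  have xb : (ξ : Mk 4 F) *ᵥ b = -a := by
    simp [hξ, add_mulVec, smul_mulVec, O.pj_b, jj_mulVec, B.eq_zero_comm.1 O.ab, ← hab, aa]
  have xc : (ξ : Mk 4 F) *ᵥ c = ε • c := by
    simpa only [← mulVec_mulVec, smul_mulVec, O.pj_c] using congrArg (· *ᵥ c) xp
  have xd : (ξ : Mk 4 F) *ᵥ d = ε • d := by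
    simpa only [← mulVec_mulVec, smul_mulVec, O.pj_d] using congrArg (· *ᵥ d) xp
  rcases mul_self_eq_one_iff.1 ββ with rfl | rfl
  · rw [one_smul] at sa ss
    exact .inl (Units.ext (O.mat (by rw [sa, xa]) (by rw [ss, xb]) (by rw [sc, xc]) (by rw [sd, xd])))
  · rw [neg_one_smul] at sa ss
    refine .inr (eq_inv_of_mul_eq_one_left (Units.ext (O.mat ?_ ?_ ?_ ?_))) <;>
      simp only [Units.val_mul, Units.val_one, ← mulVec_mulVec, one_mulVec, xa, xb, xc, xd, mulVec_neg,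
        mulVec_smul, sa, sc, sd, neg_neg, smul_smul, εε, one_smul]
    exact neg_injective ss

theorem x5a (H : O4 B) (O : Ob B a b c d) (h : IsSquare (-(B.f a a * B.f b b))) :
    ∃ w w', Fr4 B w w' c d := by
  obtain ⟨r, hr⟩ := h
  have aa := O.aa
  have h2 := H.two
  have r0 : r ≠ 0 := fun e => mul_ne_zero O.aa O.bb (neg_eq_zero.1 (by rw [hr, e, mul_zero]))
  have bb : B.f b b = -(r * r) / B.f a a := by rw [← hr]; field_simp
  have ba := B.eq_zero_comm.1 O.ab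
  have e : B.f (r • a + B.f a a • b) ((2 * r * r * B.f a a)⁻¹ • (r • a - B.f a a • b)) = 1 := by
    simp only [B.add_left, B.sub_right, B.smul_left, H.smr, O.ab, ba, bb]
    field_simp
    ring1
  refine ⟨r • a + B.f a a • b, (2 * r * r * B.f a a)⁻¹ • (r • a - B.f a a • b),
    ⟨fun z => by simp [z] at e, ?_⟩, ⟨fun z => by rw [z] at e; simp at e, ?_⟩, e, ?_, ?_, ?_, ?_, O.cd, O.cc, O.dd, ?_⟩
  · simp only [B.add_left, B.add_right, B.smul_left, H.smr, O.ab, ba, bb]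
    field_simp
    ring1
  · simp only [B.sub_left, B.sub_right, B.smul_left, H.smr, O.ab, ba, bb]
    field_simp
    ring1
  · simp [B.add_right, H.smr, B.eq_zero_comm.1 O.ac, B.eq_zero_comm.1 O.bc]
  · simp [B.sub_right, H.smr, B.eq_zero_comm.1 O.ac, B.eq_zero_comm.1 O.bc]
  · simp [B.add_right, H.smr, B.eq_zero_comm.1 O.ad, B.eq_zero_comm.1 O.bd]
  · simp [B.sub_right, H.smr, B.eq_zero_comm.1 O.ad, B.eq_zero_comm.1 O.bd]
  · rw [← O.one, add_left_inj, pj, bb]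
    simp only [rf_add_right, rf_sub_right, H.rfr, ro_add_left, ro_sub_left, ro_smul_left]
    match_scalars <;> field_simp <;> ring1

theorem x5 [Finite F] (H : O4 B) (O : Ob B a b c d) : ∃ w w' v v', Fr4 B w w' v v' ∧
    (pj B a b = pj B v v' ∨ pj B c d = pj B v v') := by
  classical
  have := Fintype.ofFinite F
  by_cases h1 : IsSquare (-(B.f a a * B.f b b))
  · obtain ⟨w, w', R⟩ := x5a H O h1
    exact ⟨w, w', c, d, R, .inr rfl⟩
  by_cases h2 : IsSquare (-(B.f c c * B.f d d))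
  · obtain ⟨w, w', R⟩ := x5a H (O.symm H) h2
    exact ⟨w, w', a, b, R, .inl rfl⟩
  exfalso
  have dd := O.dd
  rw [← quadraticChar_neg_one_iff_not_isSquare] at h1 h2
  obtain ⟨τ, hτ⟩ := (quadraticChar_one_iff_isSquare (mul_ne_zero (neg_ne_zero.2 (mul_ne_zero O.aa O.bb))
    (neg_ne_zero.2 (mul_ne_zero O.cc O.dd)))).1 (by rw [map_mul, h1, h2]; rfl)
  have τ0 : τ ≠ 0 := fun e => mul_ne_zero (neg_ne_zero.2 (mul_ne_zero O.aa O.bb))
    (neg_ne_zero.2 (mul_ne_zero O.cc O.dd)) (by rw [hτ, e, mul_zero])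
  obtain ⟨α, β, h⟩ := rep2 H.two O.aa O.bb (-B.f c c)
  have ba := B.eq_zero_comm.1 O.ab
  have ca := B.eq_zero_comm.1 O.ac
  have cb := B.eq_zero_comm.1 O.bc
  have da := B.eq_zero_comm.1 O.ad
  have db := B.eq_zero_comm.1 O.bd
  have dc := B.eq_zero_comm.1 O.cd
  have wc : B.f (α • a + β • b + c) c = B.f c c := by simp [B.add_left, B.smul_left, O.ac, O.bc]
  have key : (-(β * B.f b b)) • a + (α * B.f a a) • b + (τ / B.f d d) • d ∈ F ∙ (α • a + β • b + c) := by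
    refine H.ns _ ⟨fun z => O.cc (by rw [← wc, z, B.zero_left]), ?_⟩ _ ?_ ?_ <;>
      simp only [B.add_left, B.add_right, B.smul_left, H.smr, O.ab, O.ac, O.bc, O.ad, O.bd, O.cd,
        ba, ca, cb, da, db, dc]
    · linear_combination h
    · ring1
    · field_simp
      linear_combination B.f a a * B.f b b * B.f d d * h - hτ
  obtain ⟨k, hk⟩ := Submodule.mem_span_singleton.1 key
  have e1 := congrArg (B.f · c) hk
  have e2 := congrArg (B.f · d) hk
  simp only [B.add_left, B.smul_left, O.ac, O.bc, O.ad, O.bd, O.cd, dc, mul_zero, add_zero, zero_add,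
    div_mul_cancel₀ _ dd] at e1 e2
  exact τ0 e2.symm

theorem jobO4L : JobO4L.{u} := fun _ _ _ _ H =>
  { H with
    unip := fun _ hs hn => unip H hs hn
    inv := fun _ ha h2 => inv H.toO4 ha h2
    uz := fun _ _ _ _ O _ hw _ hv e => uz H.toO4 O hw hv e
    x2 := fun _ h _ hs e1 e2 => x2 H.toO4 h hs e1 e2
    x5 := fun _ _ _ _ O => x5 H.toO4 O }

end H71.O4L
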