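/- C7 tower: linear factors when property (Q) fails (JobSLQ). -/
import Cfsg.Agent.H60.WrKit
import Cfsg.Agent.H57.SLGen

set_option autoImplicit false
set_option maxHeartbeats 400000

namespace H71.C7L
open Cfsg Cfsg.Geo Matrix H19 Module H60.Wr
local notation "em" => H60.Wr.em
open scoped MatrixGroups

universe u
variable {F : Type u} [Field F] {k t : ℕ} {M : Subgroup (GG k t F)}

theorem ro_sq {u χ : Fin k → F} (h : χ ⬝ᵥ u = 0) : ro u χ * ro u χ = 0 := by
  rw [ro_mul_ro, h, zero_smul]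

theorem un_mem (H : SLC M) {u χ : Fin k → F} (h : χ ⬝ᵥ u = 0) : un (ro u χ) (ro_sq h) ∈ Gam M :=
  H.sl _ (by rw [un_val, ro, vecMulVec_eq Unit, det_one_add_replicateCol_mul_replicateRow, h,
    add_zero])

/-- A vector killed by `ψ` outside a given line. -/
theorem exists_ker_notMem (hk : 3 ≤ k) (ψ x : Fin k → F) : ∃ y, ψ ⬝ᵥ y = 0 ∧ y ∉ F ∙ x := by
  let l : Dual F (Fin k → F) := ⟨⟨fun v => ψ ⬝ᵥ v, fun a b => dotProduct_add _ _ _⟩,
    fun c a => by simp⟩
  obtain ⟨v, -, h1, h2⟩ := H62.exists_mem_notMem_ker [l] (W := ⊤) (Z := F ∙ x) (by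
    have : finrank F (F ∙ x) ≤ 1 := by simpa using finrank_span_le_card (R := F) ({x} : Set _)
    rw [finrank_top, finrank_fin_fun]; simp only [List.length_singleton]; omega)
  exact ⟨v, h2 l (by simp), h1⟩

theorem exists_ker_two (hk : 3 ≤ k) (ψ χ : Fin k → F) :
    ∃ y, y ≠ 0 ∧ ψ ⬝ᵥ y = 0 ∧ χ ⬝ᵥ y = 0 := by
  let l : (Fin k → F) → Dual F (Fin k → F) := fun ψ => ⟨⟨fun v => ψ ⬝ᵥ v,
    fun a b => dotProduct_add _ _ _⟩, fun c a => by simp⟩
  obtain ⟨v, -, h1, h2⟩ := H62.exists_mem_notMem_ker [l ψ, l χ] (W := ⊤) (Z := ⊥) (by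
    rw [finrank_top, finrank_fin_fun, finrank_bot]; simp only [List.length_cons, List.length_nil]
    omega)
  exact ⟨v, by simpa using h1, h2 (l ψ) (by simp), h2 (l χ) (by simp)⟩

theorem exists_dot_pair {x y : Fin k → F} (h : y ∉ F ∙ x) : ∃ l, l ⬝ᵥ y = 1 ∧ l ⬝ᵥ x = 0 := by
  obtain ⟨l, h1, h2⟩ := exists_dot_of_notMem h
  exact ⟨l, h1, h2 x (Submodule.mem_span_singleton_self x)⟩

theorem isoP (H : SLC M) : IsoP t (Gam M) ∅ (RT k F) := by
  intro j ℬ hc _ γ hγ hn
  have D : ∀ u χ : Fin k → F, χ ⬝ᵥ u = 0 → ∀ Z ∈ ℬ,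
      em j (ro u χ) * Z - Z * em j (ro u χ) - em j (ro u χ) * Z * em j (ro u χ) ∈ ℬ := by
    intro u χ h Z hZ
    have h1 := hc _ (un_mem H h) Z hZ
    rw [cj_of_val (X := em j (ro u χ)) (by rw [coe_emG, un_val, map_add, map_one])
      (by rw [← map_mul, ro_sq h, map_zero])] at h1
    simpa using sub_mem h1 hZ
  obtain ⟨ψ, x, h0, h1⟩ : ∃ ψ x, ψ ⬝ᵥ x = 0 ∧ ct j ψ x γ ≠ 0 := by
    by_contra! h; exact hn (InC.of_ct h)
  have x0 : x ≠ 0 := by
    rintro rfl
    exact h1 (by simpa using ct_smul_right j (0 : F) ψ 0 γ)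
  have ψ0 : ψ ≠ 0 := by
    rintro rfl
    exact h1 (by simpa using ct_smul_left j (0 : F) 0 x γ)
  obtain ⟨y, hy, hyx⟩ := exists_ker_notMem H.k3 ψ x
  obtain ⟨l, l1, l2⟩ := exists_dot_pair hyx
  refine ⟨ro x ψ, ⟨x, ψ, x0, ψ0, h0, rfl⟩, -ct j ψ x γ, (ct_inC _ _ _ _).neg, neg_ne_zero.2 h1, ?_⟩
  have h3 := D x l l2 _ (D x ψ h0 _ (D y ψ hy γ hγ))
  rw [mul_neg, ← ct_spec]
  have e : ∀ a b c d : Fin k → F, (em j (ro a b) * em j (ro c d) : EE k t F) =
      (b ⬝ᵥ c) • em j (ro a d) := fun a b c d => by rw [← map_mul, ro_mul_ro, map_smul]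
  have AB := e x l x ψ
  have BA := e x ψ x l
  have AC := e x l y ψ
  have CA := e y ψ x l
  have BC := e x ψ y ψ
  have CB := e y ψ x ψ
  simp only [l2, h0, l1, hy, zero_smul, one_smul] at AB BA AC CA BC CB
  generalize (em j (ro x l) : EE k t F) = A at *
  generalize (em j (ro x ψ) : EE k t F) = B at *
  generalize (em j (ro y ψ) : EE k t F) = C at *
  have z1 : B * (C * γ - γ * C - C * γ * C) = -(B * γ * C) := by
    have : B * (C * γ - γ * C - C * γ * C) = B * C * γ - B * γ * C - B * C * γ * C := by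
      noncomm_ring
    rw [this, BC]; simp
  have z2 : (C * γ - γ * C - C * γ * C) * B = C * γ * B := by
    have : (C * γ - γ * C - C * γ * C) * B = C * γ * B - γ * (C * B) - C * γ * (C * B) := by
      noncomm_ring
    rw [this, CB]; simp
  have z3 : B * γ * C * B = 0 := by rw [mul_assoc, CB, mul_zero]
  rw [z1, z2, neg_mul, z3, neg_zero, sub_zero] at h3
  have z4 : A * (-(B * γ * C) - C * γ * B) = -(B * γ * B) := by
    have : A * (-(B * γ * C) - C * γ * B) = -(A * B * γ * C) - A * C * γ * B := by noncomm_ring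
    rw [this, AB, AC]; simp
  have z5 : (-(B * γ * C) - C * γ * B) * A = 0 := by
    have : (-(B * γ * C) - C * γ * B) * A = -(B * γ * (C * A)) - C * γ * (B * A) := by
      noncomm_ring
    rw [this, CA, BA]; simp
  rwa [mul_assoc A _ A, z4, z5, mul_zero, sub_zero, sub_zero] at h3

/-- An invariant additive group containing one transvection root contains all of them. -/
theorem all_of_one (hk : 3 ≤ k) (S : AddSubgroup (Mk k F))
    (hS : ∀ u χ : Fin k → F, χ ⬝ᵥ u = 0 → ∀ Z ∈ S, ro u χ * Z - Z * ro u χ - ro u χ * Z * ro u χ ∈ S)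
    {ν : Mk k F} (hν : ν ∈ RT k F) (h : ν ∈ S) (y χ : Fin k → F) (hy : χ ⬝ᵥ y = 0) :
    ro y χ ∈ S := by
  have L : ∀ x ψ : Fin k → F, x ≠ 0 → ψ ⬝ᵥ x = 0 → ro x ψ ∈ S → ∀ u, ψ ⬝ᵥ u = 0 → ro u ψ ∈ S := by
    intro x ψ x0 h0 hx
    have key : ∀ u, ψ ⬝ᵥ u = 0 → u ∉ F ∙ x → ro u ψ ∈ S := fun u h1 h2 => by
      obtain ⟨l, l1, l2⟩ := exists_dot_pair (H62.notMem_span_symm x0 h2)
      simpa [ro_mul_ro, l1, h1] using hS u l l2 _ hx
    intro u hu
    by_cases h2 : u ∈ F ∙ x
    · obtain ⟨v, v1, v2⟩ := exists_ker_notMem hk ψ x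
      have := sub_mem (key (u + v) (by rw [dotProduct_add, hu, v1, add_zero])
        fun h => v2 (by simpa using sub_mem h h2)) (key v v1 v2)
      rwa [← ro_sub_left, add_sub_cancel_right] at this
    · exact key u hu h2
  have R : ∀ x ψ : Fin k → F, ψ ≠ 0 → ψ ⬝ᵥ x = 0 → ro x ψ ∈ S → ∀ l, l ⬝ᵥ x = 0 → ro x l ∈ S := by
    intro x ψ x0 h0 hx
    have key : ∀ l, l ⬝ᵥ x = 0 → l ∉ F ∙ ψ → ro x l ∈ S := fun l h1 h2 => by
      obtain ⟨u, l1, l2⟩ := exists_dot_pair (H62.notMem_span_symm x0 h2)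
      rw [dotProduct_comm] at l1 l2
      simpa [ro_mul_ro, l1, h1] using hS u l l2 _ hx
    intro l hl
    by_cases h2 : l ∈ F ∙ ψ
    · obtain ⟨v, v1, v2⟩ := exists_ker_notMem hk x ψ
      rw [dotProduct_comm] at v1
      have := sub_mem (key (l + v) (by rw [add_dotProduct, hl, v1, add_zero])
        fun h => v2 (by simpa using sub_mem h h2)) (key v v1 v2)
      rwa [← ro_sub_right, add_sub_cancel_right] at this
    · exact key l hl h2
  obtain ⟨x, ψ, x0, ψ0, h0, rfl⟩ := hν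
  obtain ⟨u, u0, u1, u2⟩ := exists_ker_two hk ψ χ
  exact L u χ u0 u2 (R u ψ ψ0 u1 (L x ψ x0 h0 h u u1) χ u2) y hy

theorem RT_sq {ν : Mk k F} (h : ν ∈ RT k F) : ν * ν = 0 := by
  obtain ⟨x, ψ, -, -, h0, rfl⟩ := h; exact ro_sq h0

/-- `p` has transvection roots on `J` and ones elsewhere. -/
def Sh (J : Finset (Fin t)) (p : Fin t → Mk k F) : Prop :=
  (∀ j ∈ J, p j ∈ RT k F) ∧ ∀ j ∉ J, p j = 1

theorem Sh.update {J : Finset (Fin t)} {p : Fin t → Mk k F} (h : Sh J p) {d : Fin t} (hd : d ∈ J)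
    {ν : Mk k F} (hν : ν ∈ RT k F) : Sh J (Function.update p d ν) := by
  refine ⟨fun j hj => ?_, fun j hj => ?_⟩
  · by_cases e : j = d
    · subst e; simpa
    · rw [Function.update_of_ne e]; exact h.1 j hj
  · rw [Function.update_of_ne (by rintro rfl; exact hj hd)]; exact h.2 j hj

theorem change (H : SLC M) {J : Finset (Fin t)} (hJ : 1 < J.card) {p : Fin t → Mk k F}
    (hp : Sh J p) {r : F} (h : In M (1 + r • H19.pure p)) {d : Fin t} (hd : d ∈ J)
    {ν : Mk k F} (hν : ν ∈ RT k F) : In M (1 + r • H19.pure (Function.update p d ν)) := by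
  obtain ⟨e, he, hed⟩ := Finset.exists_mem_ne hJ d
  have hs : ∃ e, e ≠ d ∧ p e * p e = 0 := ⟨e, hed, RT_sq (hp.1 e he)⟩
  obtain ⟨y, χ, -, -, h0, rfl⟩ := hν
  refine (mem_slot (h := hs)).1 (all_of_one H.k3 _ (fun u l hl Z hZ => ?_) (hp.1 d hd)
    (by simpa [mem_slot]) y χ h0)
  have h1 := cj_mem_slot (un_mem H hl) hZ
  rw [cj_of_val (un_val _) (ro_sq hl)] at h1
  simpa using sub_mem h1 hZ

theorem all_sh (H : SLC M) {J : Finset (Fin t)} (hJ : 1 < J.card) {p : Fin t → Mk k F}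
    (hp : Sh J p) {r : F} (hr : r ≠ 0) (h : In M (1 + r • H19.pure p)) {q : Fin t → Mk k F}
    (hq : Sh J q) (c : F) : In M (1 + c • H19.pure q) := by
  have key : ∀ q, Sh J q → ∀ I : Finset (Fin t), I ⊆ J → Sh J (I.piecewise q p) ∧
      In M (1 + r • H19.pure (I.piecewise q p)) := fun q hq I => by
    induction I using Finset.induction_on with
    | empty => exact fun _ => by simpa using And.intro hp h
    | insert d I hd ih =>
      intro hI
      obtain ⟨h1, h2⟩ := ih ((Finset.subset_insert _ _).trans hI)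
      have dJ := hI (Finset.mem_insert_self _ _)
      rw [Finset.piecewise_insert]
      exact ⟨h1.update dJ (hq.1 d dJ), change H hJ h1 h2 dJ (hq.1 d dJ)⟩
  have key2 : ∀ q, Sh J q → In M (1 + r • H19.pure q) := fun q hq => by
    have := (key q hq J subset_rfl).2
    rwa [show J.piecewise q p = q from funext fun j => by
      by_cases e : j ∈ J
      · rw [Finset.piecewise_eq_of_mem _ _ _ e]
      · rw [Finset.piecewise_eq_of_notMem _ _ _ e, hp.2 j e, hq.2 j e]] at this
  by_cases hc : c = 0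
  · simpa [hc] using In.one
  obtain ⟨d, hd⟩ := Finset.card_pos.1 (zero_lt_one.trans hJ)
  obtain ⟨x, ψ, x0, ψ0, h0, e⟩ := hq.1 d hd
  have := key2 _ (hq.update hd (ν := (r⁻¹ * c) • q d) ⟨(r⁻¹ * c) • x, ψ,
    smul_ne_zero (mul_ne_zero (inv_ne_zero hr) hc) x0, ψ0, by rw [dotProduct_smul, h0, smul_zero],
    by rw [ro_smul_left, e]⟩)
  rwa [pure_update_smul, Function.update_eq_self, smul_smul, mul_inv_cancel_left₀ hr] at this

theorem single_mem_RT {a b : Fin k} (h : a ≠ b) : single a b (1 : F) ∈ RT k F :=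
  ⟨Pi.single a 1, Pi.single b 1, by simp, by simp, by simp [h.symm], (ro_single a b).symm⟩

theorem grow (H : SLC M) {J : Finset (Fin t)} (hJ : 1 < J.card)
    (h : ∀ q, Sh J q → In M (1 + (1 : F) • H19.pure q)) {u : Fin t} (hu : u ∉ J) :
    ∃ q, Sh (insert u J) q ∧ In M (1 + (1 : F) • H19.pure q) := by
  obtain ⟨d, hd, e, he, hde⟩ := Finset.one_lt_card.1 hJ
  have k3 := H.k3
  let a : Fin k := ⟨0, by omega⟩
  let b : Fin k := ⟨1, by omega⟩
  let c : Fin k := ⟨2, by omega⟩
  have ab : a ≠ b := by simp [a, b]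
  have bc : b ≠ c := by simp [b, c]
  have ac : a ≠ c := by simp [a, c]
  have hud : d ≠ u := by rintro rfl; exact hu hd
  have hue : e ≠ u := by rintro rfl; exact hu he
  obtain ⟨σ, hσ, s1, s2, s3, s4⟩ := exists_cyc hde hue hud
  let p : Fin t → Mk k F := fun j => if j ∈ J then single a b 1 else 1
  let p' : Fin t → Mk k F := fun j => if j ∈ J then single b c 1 else 1
  have hp : Sh J p := ⟨fun j hj => by simpa [p, hj] using single_mem_RT ab, fun j hj => by
    simp [p, hj]⟩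
  have hp' : Sh J p' := ⟨fun j hj => by simpa [p', hj] using single_mem_RT bc, fun j hj => by
    simp [p', hj]⟩
  have pe : p e = single a b 1 := by simp [p, he]
  have qe : (p' ∘ σ.symm) e = single b c 1 := by simp [p', s1, hd]
  have h1 := In.comm_pure (h p hp) ((h p' hp').perm_pure H.cyc hσ)
    ⟨e, by rw [pe, single_mul_single_of_ne _ _ _ _ ab.symm]⟩
    ⟨e, by rw [qe, single_mul_single_of_ne _ _ _ _ bc.symm]⟩
    ⟨e, by rw [pe, qe, mul_assoc, single_mul_single_of_ne _ _ _ _ ac.symm, mul_zero]⟩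
    ⟨e, by rw [pe, qe, single_mul_single_of_ne _ _ _ _ ac.symm, zero_mul]⟩
  rw [pure_eq_zero (s := p' ∘ σ.symm * p) (i := e) (by
    rw [Pi.mul_apply, pe, qe, single_mul_single_of_ne _ _ _ _ ac.symm]), sub_zero, mul_one] at h1
  refine ⟨_, ⟨fun j hj => ?_, fun j hj => ?_⟩, h1⟩
  · by_cases e1 : j = d
    · subst e1; simpa [p, p', s3, hu, hd] using single_mem_RT ab
    by_cases e2 : j = u
    · subst e2; simpa [p, p', s2, hu, he] using single_mem_RT bc
    have hj' : j ∈ J := by simpa [e2] using hj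
    by_cases e3 : j = e
    · subst e3; rw [Pi.mul_apply, pe, qe, single_mul_single_same, mul_one]; exact single_mem_RT ac
    · simpa [p, p', s4 j e1 e3 e2, hj', single_mul_single_same] using single_mem_RT ac
  · rw [Finset.mem_insert, not_or] at hj
    simp [p, p', s4 j (by rintro rfl; exact hj.2 hd) (by rintro rfl; exact hj.2 he) hj.1, hj.2]

theorem pure_single (p r : Fin t → Fin k) :
    H19.pure (fun j => single (p j) (r j) (1 : F)) = single p r 1 := by
  ext a b
  simp only [pure_apply, single_apply, Finset.prod_ite_zero, Finset.mem_univ, forall_const,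
    Finset.prod_const_one, funext_iff, forall_and]

theorem jobSLQ : JobSLQ.{u} := by
  intro F _ _ k t M H hQ
  simp only [QQ, not_forall] at hQ
  obtain ⟨i, ν, hν, γ, h1, h2, h3⟩ := hQ
  have h0 : (0 : Mk k F) ∉ RT k F := by
    rintro ⟨x, ψ, x0, ψ0, -, e⟩; exact ro_ne_zero x0 ψ0 e.symm
  obtain ⟨J, p, r, J0, iJ, a1, a2, r0, a3⟩ := chain (isoP H) h0 i (AA M i ν (RT_sq hν))
    (fun j hj s hs X hX => cj_mem_AA (mem_Gam.1 hs j) (InC.emG hj.symm s) hX) (by simp)
    (fun X hX => hX.1) (γ := γ) ⟨h1, h2⟩ h3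
  have b1 : In M (1 + r • H19.pure (Function.update p i ν)) := by
    have := a3.2
    rwa [mul_smul_comm, em_mul_pure, a2 i iJ, mul_one] at this
  have b2 : Sh (insert i J) (Function.update p i ν) := by
    refine ⟨fun j hj => ?_, fun j hj => ?_⟩
    · by_cases e : j = i
      · subst e; simpa
      · rw [Function.update_of_ne e]; exact a1 j (by simpa [e] using hj)
    · rw [Finset.mem_insert, not_or] at hj
      rw [Function.update_of_ne hj.1, a2 j hj.2]
  have b3 : 1 < (insert i J).card := by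
    rw [Finset.card_insert_of_notMem iJ]; have := J0.card_pos; omega
  have key : ∀ n, ∀ J : Finset (Fin t), Jᶜ.card = n → 1 < J.card →
      (∀ q, Sh J q → ∀ c : F, In M (1 + c • H19.pure q)) →
      ∀ q, Sh Finset.univ q → ∀ c : F, In M (1 + c • H19.pure q) := by
    intro n
    induction n with
    | zero =>
      intro J hn _ h
      rwa [show J = Finset.univ from by simpa using hn] at h
    | succ n ih =>
      intro J hn hJ h
      obtain ⟨u, hu⟩ := Finset.card_pos.1 (show 0 < Jᶜ.card by omega)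
      rw [Finset.mem_compl] at hu
      have hJ' : 1 < (insert u J).card := by rw [Finset.card_insert_of_notMem hu]; omega
      obtain ⟨q, q1, q2⟩ := grow H hJ (fun q hq => h q hq 1) hu
      refine ih (insert u J) ?_ hJ' fun q' hq' c => all_sh H hJ' q1 one_ne_zero q2 hq' c
      rw [Finset.compl_insert, Finset.card_erase_of_mem (by simpa), hn]; rfl
  have all := key _ _ rfl b3 fun q hq c => all_sh H b3 b2 r0 b1 hq c
  have unit : ∀ p r : Fin t → Fin k, (∀ j, p j ≠ r j) → ∀ c : F, In M (1 + single p r c) :=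
    fun p r h c => by
      have := all (fun j => single (p j) (r j) 1) ⟨fun j _ => single_mem_RT (h j), by simp⟩ c
      rwa [pure_single, smul_single, smul_eq_mul, mul_one] at this
  have unit' : ∀ p r : Fin t → Fin k, p ≠ r → ∀ c : F, In M (1 + single p r c) :=
    fun p r h c => by
      choose s hs using fun j => H57.exists_ne_ne_of_three_le (ι := Fin k)
        (by simpa using H.k3) (p j) (r j)
      have e1 : s ≠ p := fun e => (hs i).1 (congrFun e i)
      have e2 : s ≠ r := fun e => (hs i).2 (congrFun e i)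
      have := In.comm (unit p s (fun j => (hs j).1.symm) 1) (unit s r (fun j => (hs j).2) c)
        (single_mul_single_of_ne _ _ _ _ e1 _) (single_mul_single_of_ne _ _ _ _ e2.symm _)
        (by rw [mul_assoc, single_mul_single_of_ne _ _ _ _ h.symm, mul_zero])
        (by rw [single_mul_single_of_ne _ _ _ _ h.symm, zero_mul])
      rwa [single_mul_single_of_ne _ _ _ _ h.symm, single_mul_single_same, one_mul, sub_zero] at this
  intro g hg
  have hdet : (g : EE k t F).det = 1 := by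
    have := congrArg Units.val (MonoidHom.mem_ker.1 hg)
    simpa using this
  exact In.coe.1 (H57.sl_transvection_induction (fun A => In M (A : EE k t F)) In.one
    (fun a b h c => unit' a b h c) (fun A B hA hB => hA.mul hB) ⟨g, hdet⟩)

end H71.C7L
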