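import Cfsg.Agent.H71.El1

/-!
Similarity groups of forms: elementary divisors of similarities, derangements and indices.
-/

set_option autoImplicit false
set_option maxHeartbeats 400000
set_option linter.unusedSectionVars false
open Polynomial Module Matrix H53 H58 Cfsg.Geo

namespace H71.El

variable {F : Type*} [Field F] {σ : F →+* F} {ε : F}

section End
variable {V W : Type*} [AddCommGroup V] [Module F V] [FiniteDimensional F V]
  [AddCommGroup W] [Module F W] [FiniteDimensional F W]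
  {B : V →ₛₗ[σ] V →ₗ[F] F} {B' : W →ₛₗ[σ] W →ₗ[F] F} {f : End F V} {c : F}

/-- `f` is a similarity with multiplier `c` -/
def Sm (B : V →ₛₗ[σ] V →ₗ[F] F) (c : F) (f : End F V) : Prop := ∀ x y, B (f x) (f y) = c * B x y

theorem sm_one : Sm B 1 f ↔ Inv B f := by simp [Sm, H53.Inv]

theorem Sm.isUnit (hB : IsSF ε B) (hc : c ≠ 0) (h : Sm B c f) : IsUnit f :=
  (LinearMap.isUnit_iff_ker_eq_bot f).2 (LinearMap.ker_eq_bot'.2 fun x hx =>
    hB.nondeg x fun y => by simpa [hx, hc] using (h x y).symm)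

theorem Sm.pow (h : Sm B c f) (k : ℕ) : Sm B (c ^ k) (f ^ k) := by
  induction k with
  | zero => intro x y; simp
  | succ k ih => intro x y; rw [pow_succ', End.mul_apply, End.mul_apply, h, ih]; ring

theorem Sm.eq_of_smul [Nontrivial V] (hB : IsSF ε B) {z : F} (h : Sm B c (z • 1)) :
    c = z * σ z := by
  obtain ⟨x, hx⟩ := exists_ne (0 : V)
  obtain ⟨y, hy⟩ := not_forall.1 fun h => hx (hB.nondeg x h)
  have := h x y
  simp only [LinearMap.smul_apply, End.one_apply, map_smul, LinearMap.map_smulₛₗ, smul_eq_mul] at this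
  exact mul_right_cancel₀ hy (by rw [← this]; ring)

theorem Sm.map_eq [Nontrivial V] (hB : IsSF ε B) (h : Sm B c f) : σ c = c := by
  obtain ⟨x, hx⟩ := exists_ne (0 : V)
  obtain ⟨y, hy⟩ := not_forall.1 fun h => hx (hB.nondeg x h)
  have := h x y
  rw [hB.symm, h, map_mul, mul_left_comm, ← hB.symm] at this
  exact mul_right_cancel₀ hy this

theorem Sm.conj (e : V ≃ₗ[F] W) (he : ∀ x y, B' (e x) (e y) = B x y) (h : Sm B c f) :
    Sm B' c (e.conj f) := fun x y => by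
  obtain ⟨x, rfl⟩ := e.surjective x
  obtain ⟨y, rfl⟩ := e.surjective y
  simp [LinearEquiv.conj_apply, he, h x y]

theorem Sm.ed_eq (hB : IsSF ε B) {c : Fˣ} (h : Sm B c f) :
    (ed f).map (scl c⁻¹) = (ed f).map (pstar σ) := by
  have hu := h.isUnit hB c.ne_zero
  obtain ⟨u, rfl⟩ := hu
  have h1 : IsAdj B (u : End F V) ((c : F) • (u⁻¹ : (End F V)ˣ)) := fun x y => by
    have := h x ((u⁻¹ : (End F V)ˣ).1 y)
    rw [← End.mul_apply, Units.mul_inv, End.one_apply] at this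
    simp [this]
  rw [← ed_smul]
  refine ed_eq_map_pstar_of_kd hB.invol u.isUnit (u.isUnit.smul c⁻¹) fun Q h0 => ?_
  rw [kd_pstar (g := (c : F) • ((u⁻¹ : (End F V)ˣ) : End F V)) (by simp [smul_smul])
    (by simp [smul_smul]) h0]
  exact (h1.aeval Q).finrank_ker hB

theorem Sm.lin (hB : IsSF ε B) (hc : c ≠ 0) (h : Sm B c f) {t : Multiset F} (ht : ed f = lin t)
    (h0 : 0 ∉ t) : t.map (fun a => c * (σ a)⁻¹) = t := by
  have := Sm.ed_eq (c := Units.mk0 c hc) hB h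
  rw [ht, lin_scl, lin_pstar h0] at this
  simpa [hc, ← mul_assoc] using congrArg (Multiset.map (c * ·)) (lin_inj this).symm

end End

variable {ι : Type} [Fintype ι] [DecidableEq ι] {H : Subgroup (GL ι F)} {r : ℕ}
  {A : Matrix ι ι F} {B : (ι → F) →ₛₗ[σ] (ι → F) →ₗ[F] F} {s : Multiset F[X]}

/-- `H` is the group of similarities of the non-degenerate form `B` -/
structure IsSim (ε : F) (B : (ι → F) →ₛₗ[σ] (ι → F) →ₗ[F] F) (H : Subgroup (GL ι F)) : Prop where
  sf : IsSF ε B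
  mem : ∀ g : GL ι F, g ∈ H ↔ ∃ c : Fˣ, Sm B c (toLin' (g : Matrix ι ι F))

theorem IsSim.gc_iff (h : IsSim ε B H) : GC H s ↔ ∃ f, (∃ c : Fˣ, Sm B c f) ∧ ed f = s :=
  gc_iff_end (P := fun f => ∃ c : Fˣ, Sm B c f) h.mem fun _ ⟨c, h1⟩ => h1.isUnit h.sf c.ne_zero

theorem IsSim.gc_of_sm (h : IsSim ε B H) {c : F} (hc : c ≠ 0) {f : End F (ι → F)} (h1 : Sm B c f) :
    GC H (ed f) := h.gc_iff.2 ⟨f, ⟨Units.mk0 c hc, h1⟩, rfl⟩

theorem IsSim.gc_of_inv (h : IsSim ε B H) (h1 : ∃ f, Inv B f ∧ ed f = s) : GC H s := by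
  obtain ⟨f, h1, rfl⟩ := h1
  exact h.gc_of_sm one_ne_zero (sm_one.2 h1)

theorem IsSim.scalars_le (h : IsSim ε B H) : scalars ι F ≤ H := fun g hg => by
  obtain ⟨c, hc⟩ := (mem_scalars_iff g).1 hg
  refine (h.mem g).2 ⟨c * Units.map σ.toMonoidHom c, fun x y => ?_⟩
  simp [hc, LinearMap.map_smulₛₗ, mul_assoc]

theorem IsSim.not_rig (h : IsSim ε B H) (hr : r ≠ 0) {t : Multiset F} (ht : Rig r t)
    (hσ : ∀ ω : F, IsPrimitiveRoot ω r → ω * σ ω ≠ 1) : ¬ GC H (lin t) := fun h1 => by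
  obtain ⟨f, ⟨c, h2⟩, h3⟩ := h.gc_iff.1 h1
  obtain ⟨a, ω, h4, h5, h6, h7⟩ := ht.2 _ (fun a b e => σ.injective (inv_injective
    (mul_left_cancel₀ c.ne_zero e))) (h2.lin h.sf c.ne_zero h3 ht.1)
  refine hσ ω h5 ?_
  have h8 : σ a ≠ 0 := (map_ne_zero σ).2 h4
  have h9 : σ ω ≠ 0 := (map_ne_zero σ).2 (h5.ne_zero hr)
  rw [map_mul, mul_inv, ← mul_assoc, h6] at h7
  exact (congrArg (· * σ ω) (mul_left_cancel₀ h4 h7)).symm.trans (inv_mul_cancel₀ h9)

theorem IsSim.exists_sm [Nonempty ι] (h : IsSim ε B H) (h1 : GC H (med A)) {z : F}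
    (h2 : A ^ r = z • 1) : ∃ (c : F) (f : End F (ι → F)), c ≠ 0 ∧ Sm B c f ∧ ed f = med A ∧
      c ^ r = z * σ z := by
  obtain ⟨f, ⟨c, h3⟩, h4⟩ := h.gc_iff.1 h1
  refine ⟨c, f, c.ne_zero, h3, h4, Sm.eq_of_smul h.sf ?_⟩
  rw [← (pow_eq_smul_one_iff_ed f r z).2 (h4 ▸ (pow_eq_smul_one_iff_med A r z).1 h2)]
  exact h3.pow r

theorem IsSim.exists_inv [Finite F] [Nonempty ι] (h : IsSim ε B H) (hr : r.Prime)
    (hq : ¬ r ∣ Nat.card F - 1) (h1 : GC H (med A)) (h2 : A ^ r = 1) :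
    ∃ f, Inv B f ∧ ed f = med A := by
  obtain ⟨c, f, -, h3, h4, h5⟩ := h.exists_sm h1 (z := 1) (by simpa using h2)
  obtain rfl := eq_one_of_pow_eq_one_of_not_dvd hr hq (by simpa using h5)
  exact ⟨f, sm_one.1 h3, h4⟩

theorem one_lt_of_ne_one [Finite F] (h0 : (r : F) ≠ 0)
    (hi : orderOf (Nat.card F : ZMod r) ≠ 1) {φ : F[X]} (hφ : φ ∈ cycF F r) : 1 < φ.natDegree := by
  have := ((mem_cycF h0).1 hφ).2.1.natDegree_pos
  rw [natDegree_of_mem_cycF h0 hφ] at this ⊢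
  omega

/-- the derangements with non-self-dual cyclotomic factors -/
theorem IsSim.not_allG_cyc [Finite F] [Nonempty ι] (h : IsSim ε B H) (hr : r.Prime)
    (h0 : (r : F) ≠ 0) (hi : orderOf (Nat.card F : ZMod r) ≠ 1)
    (hn : orderOf (Nat.card F : ZMod r) ≤ Fintype.card ι)
    (hp : ∀ φ ∈ cycF F r, pstar σ φ ≠ φ) : ¬ AllG H r := fun h1 => by
  obtain ⟨A, φ, h2, h3, h4, h5⟩ := exists_po_cyc (ι := ι) hr h0 hi one_pos (by omega)
  obtain ⟨f, h6, h7⟩ := h.exists_inv hr (mt (orderOf_eq_one_iff_dvd Nat.card_pos).2 hi) (h1 A h3) h4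
  have h8 := h6.pstar_mem_ed h.sf (P := φ) (by simp [h7, h5, Multiset.mem_replicate])
  rw [h7, h5, Multiset.mem_add] at h8
  rcases h8 with h8 | h8
  · exact hp φ h2 (Multiset.eq_of_mem_replicate h8)
  · have := congrArg natDegree (Multiset.eq_of_mem_replicate h8)
    rw [natDegree_pstar, ← C_1, natDegree_X_sub_C] at this
    exact (one_lt_of_ne_one h0 hi h2).ne' this

theorem IsSim.not_allG_unip [Finite F] [Nonempty ι] (h : IsSim ε B H) (p : ℕ) [hp : Fact p.Prime]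
    [CharP F p] {alt : Prop} (ha : alt → ∀ x, B x x = 0) {μ : Multiset ℕ}
    (h1 : ∀ k ∈ μ, 0 < k ∧ k ≤ p) (hs : μ.sum = Fintype.card ι) (h2 : ∃ k ∈ μ, 1 < k)
    (h3 : ¬ Real σ ε alt (μ.map fun k => (X - 1) ^ k)) : ¬ AllG H p := fun h4 => by
  obtain ⟨A, h5, h6, -, h7⟩ := exists_po_mjt (F := F) (ι := ι) p h1 hs h2
  have := not_dvd_pow_sub_one hp.out (char_dvd_card (F := F) p) Nat.card_pos one_pos
  obtain ⟨f, h8, h9⟩ := h.exists_inv hp.out (by rwa [pow_one] at this) (h4 A h5) h6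
  exact h3 (h7 ▸ h9 ▸ real_ed h.sf ha h8)

theorem card_gl [Finite F] : Nat.card (GL ι F) = glo (Nat.card F) (Fintype.card ι) := by
  rw [Nat.card_congr (H59.glEquiv ι F).toEquiv, card_linearEquiv_eq, finrank_fintype_fun_eq_card]

theorem IsSim.index_mul_dvd [Finite F] (h : IsSim ε B H) :
    (H.comap (SpecialLinearGroup.toGL : SpecialLinearGroup ι F →* GL ι F)).index *
      Nat.card (H59.isom B) ∣ glo (Nat.card F) (Fintype.card ι) := by
  rw [← card_gl]
  refine El.index_mul_dvd ((H59.glEquiv ι F).symm.toMonoidHom.comp (H59.isom B).subtype)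
    ((H59.glEquiv ι F).symm.injective.comp Subtype.val_injective) fun g => (h.mem _).2 ⟨1, fun x y => ?_⟩
  simpa [H59.glEquiv_symm_mulVec] using g.2 x y

/-! ### Involutions and elements of order `p` -/

/-- the eigenvalues of an involution -/
abbrev two (F : Type*) [Field F] (a b : ℕ) : Multiset F :=
  Multiset.replicate a 1 + Multiset.replicate b (-1)

/-- all elements whose `r`-th power is a scalar without `r`-th root are conjugate into `H` -/
def NPc (H : Subgroup (GL ι F)) (r : ℕ) : Prop :=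
  ∀ (z : F) (A : Matrix ι ι F), (∀ b, b ^ r ≠ z) → Po r A → A ^ r = z • 1 → GC H (med A)

theorem npc_of_forall (hr : r.Prime) (h : ∀ (z : F) k, (∀ b, b ^ r ≠ z) → Fintype.card ι = k * r →
    ∃ h ∈ H, (h : Matrix ι ι F) ^ r = z • 1) : NPc H r := fun z A h1 h2 h3 => by
  obtain ⟨k, h4, -⟩ := ed_of_nonpow hr h1 (toLin'_pow_eq h3)
  obtain ⟨g, h5, h6⟩ := h z k h1 (by simpa using h4)
  exact ⟨g, h5, med_eq_of_nonpow hr h1 h6 h3⟩

theorem npc_iff [Nonempty ι] (hr : r.Prime)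
    (h : ∀ g ∈ H, ∀ z : F, (g : Matrix ι ι F) ^ r = z • 1 → ∃ b, b ^ r = z) :
    NPc H r ↔ ¬ ExLin F r (Fintype.card ι) := by
  refine ⟨fun h1 h2 => ?_, fun h1 z A h2 h3 h4 => (h1 (h3.exLin hr h2 h4)).elim⟩
  obtain ⟨A, z, h3, h4, h5⟩ := exists_po_nonpow hr h2
  obtain ⟨g, h6, h7⟩ := h1 z A h4 h3 h5
  obtain ⟨b, hb⟩ := h g h6 z (pow_eq_of_med h7 h5)
  exact h4 b hb

theorem allG_iff [Nonempty ι] (hr : r.Prime) (hZ : scalars ι F ≤ H) : AllG H r ↔
    (∀ (c : F) (A : Matrix ι ι F), A ^ r = 1 → (∀ z : F, A ≠ z • 1) →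
      c ^ Fintype.card ι * A.det = 1 → GC H (med A)) ∧ NPc H r := by
  refine ⟨fun h => ⟨fun c A h1 h2 h3 => ?_, fun z A _ h1 _ => h A h1⟩, fun h A h1 => ?_⟩
  · have hc : c ≠ 0 := by rintro rfl; simp at h3
    refine GC.of_smul hZ hc (h _ ⟨by rw [det_smul, h3], ⟨c ^ r, by rw [_root_.smul_pow, h1]⟩,
      fun z e => h2 (c⁻¹ * z) ?_⟩)
    rw [mul_smul, ← e, inv_smul_smul₀ hc]
  · rcases h1.cases hr with ⟨c, B, hc, rfl, h2, h3⟩ | ⟨z, h2, h3⟩
    · exact (h.1 c B h2 h3 (by rw [← det_smul, h1.det])).smul hZ hc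
    · exact h.2 z A h2 h1 h3

theorem allG_two_iff [Nonempty ι] (h2 : (2 : F) ≠ 0) (hZ : scalars ι F ≤ H) : AllG H 2 ↔
    (∀ a b, 0 < a → 0 < b → a + b = Fintype.card ι →
      (∃ c : F, c ^ Fintype.card ι = (-1) ^ b) → GC H (lin (two F a b))) ∧ NPc H 2 := by
  have h0 : ∀ b (c : F), c * (-1) ^ b = 1 ↔ c = (-1) ^ b := fun b c => by
    rcases neg_one_pow_eq_or F b with h | h <;> simp [h, neg_eq_iff_eq_neg]
  rw [allG_iff Nat.prime_two hZ]
  refine and_congr_left' ⟨fun h a b ha hb hn ⟨c, hc⟩ => ?_, fun h c A h1 h3 h4 => ?_⟩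
  · obtain ⟨A, hA⟩ := exists_lin (ι := ι) (t := two F a b) (by simpa using hn)
    refine hA ▸ h c A (by simpa using (pow_lin hA (z := 1)).2 (by
      simp +contextual [Multiset.mem_replicate, or_imp])) (fun z e => ?_)
      (by simpa [det_lin hA, h0] using hc)
    have := (pow_lin (r := 1) hA).1 (by rw [pow_one, e])
    have e1 := this 1 (by simp [Multiset.mem_replicate, ha.ne'])
    have e2 := this (-1) (by simp [Multiset.mem_replicate, hb.ne'])
    exact h2 (by linear_combination e1 - e2)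
  · obtain ⟨a, b, h5, h6⟩ := exists_ed_of_sq h2 one_ne_zero (f := toLin' A)
      (toLin'_pow_eq (by simpa using h1))
    have h7 : med A = lin (two F a b) := by simpa [med] using h6
    refine h7 ▸ h a b (Nat.pos_of_ne_zero ?_) (Nat.pos_of_ne_zero ?_) (by simpa using h5)
      ⟨c, by simpa [det_lin h7, h0] using h4⟩
    · rintro rfl
      exact h3 (-1) (by simpa using (pow_lin (r := 1) h7 (z := -1)).2 (by
        simp +contextual [Multiset.mem_replicate]))
    · rintro rfl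
      exact h3 1 (by simpa using (pow_lin (r := 1) h7 (z := 1)).2 (by
        simp +contextual [Multiset.mem_replicate]))

theorem allG_char [Finite F] [Nonempty ι] (p : ℕ) [Fact p.Prime] [CharP F p]
    (hZ : scalars ι F ≤ H) (h : ∀ μ : Multiset ℕ, (∀ k ∈ μ, 0 < k ∧ k ≤ p) →
      μ.sum = Fintype.card ι → (∃ k ∈ μ, 1 < k) → GC H (μ.map fun k => (X - 1) ^ k)) :
    AllG H p := fun A hA => by
  obtain ⟨c, B, hc, rfl, h1, h2⟩ := exists_unip p hA
  have h3 : med B = (mjt B).map fun k => (X - 1) ^ k :=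
    ed_eq_map_jt ((isNilpotent_toLin'_sub_one _).2 h1)
  refine GC.smul hZ (h3 ▸ h _ h2 (sum_mjt B) ?_) hc
  refine (eq_replicate_one_or fun k hk => (h2 k hk).1).resolve_left fun e => hA.ne c ?_
  rw [e] at h3
  rw [(pow_one B).symm.trans ((pow_eq_smul_one_iff_med B 1 1).2 (by
    simp +contextual [h3, Multiset.mem_replicate])), one_smul]

theorem two_ne_iff (p : ℕ) [hp : Fact p.Prime] [CharP F p] : (2 : F) ≠ 0 ↔ p ≠ 2 := by
  rw [Ne, show (2 : F) = (2 : ℕ) by norm_num, CharP.cast_eq_zero_iff F p,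
    Nat.prime_dvd_prime_iff_eq hp.out Nat.prime_two]

theorem odd_card_iff [Finite F] : Odd (Nat.card F) ↔ (2 : F) ≠ 0 := by
  have := Fintype.ofFinite F
  rw [Nat.card_eq_fintype_card, ← Nat.not_even_iff_odd, Nat.even_iff,
    ← FiniteField.even_card_iff_char_two, ← neg_one_eq_one_iff]
  exact not_congr ⟨fun e => by linear_combination -e, fun e => by linear_combination -e⟩

theorem exists_pow_eq_neg_one_iff [Finite F] (h2 : (2 : F) ≠ 0) {n : ℕ} (hn : n ≠ 0) :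
    (∃ c : F, c ^ n = -1) ↔ padicValNat 2 n < padicValNat 2 (Nat.card F - 1) := by
  have := Fintype.ofFinite F
  rw [← exists_mu_pow_neg_iff h2 dvd_rfl hn]
  refine exists_congr fun c => ⟨fun h => ⟨?_, h⟩, fun h => h.2⟩
  rw [Nat.card_eq_fintype_card]
  exact FiniteField.pow_card_sub_one_eq_one c (by rintro rfl; simp [hn] at h)

theorem map_two {a b : ℕ} (σ : F →+* F) :
    (two F a b).map (fun x => (σ x)⁻¹) = two F a b := by simp

theorem map_pstar_two {a b : ℕ} : (lin (two F a b)).map (pstar σ) = lin (two F a b) := by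
  rw [lin_pstar (by simp [Multiset.mem_replicate]), map_two]

theorem isPP_lin {t : Multiset F} : ∀ P ∈ lin t, IsPP P := fun P hP => by
  obtain ⟨a, -, rfl⟩ := Multiset.mem_map.1 hP; exact isPP_X_sub_C a

theorem coeff_lin {t : Multiset F} (h : 0 ∉ t) : ∀ P ∈ lin t, P.coeff 0 ≠ 0 := fun P hP => by
  obtain ⟨a, ha, rfl⟩ := Multiset.mem_map.1 hP
  simpa using fun e : a = 0 => h (e ▸ ha)

theorem dgs_lin (t : Multiset F) : dgs (lin t) = t.card := by simp [dgs]

/-- a similarity that is an involution with eigenspaces of different dimensions is an isometry -/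
theorem IsSim.exists_inv_two [Nonempty ι] (h : IsSim ε B H) (h2 : (2 : F) ≠ 0) {a b : ℕ}
    (hab : a ≠ b) (h1 : GC H (lin (two F a b))) : ∃ f, Inv B f ∧ ed f = lin (two F a b) := by
  classical
  obtain ⟨g, -, hg⟩ := id h1
  obtain ⟨c, f, hc, h3, h4, h5⟩ := h.exists_sm (hg ▸ h1) ((pow_lin (r := 2) (z := 1) hg).2 (by
    simp +contextual [Multiset.mem_replicate, or_imp]))
  rw [hg] at h4
  rcases sq_eq_one_iff.1 (by simpa using h5 : c ^ 2 = 1) with rfl | rfl
  · exact ⟨f, sm_one.1 h3, h4⟩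
  have h6 := congrArg (Multiset.count 1) (h3.lin h.sf hc h4 (by simp [Multiset.mem_replicate]))
  have h7 : (-1 : F) ≠ 1 := fun e => h2 (by linear_combination -e)
  simp [Multiset.count_replicate, h7] at h6
  exact (hab h6.symm).elim

/-! ### Arithmetic -/

theorem glo_two_mul (q m : ℕ) : glo q (2 * m) = H54.spOrder q m *
    ∏ j ∈ Finset.range m, (q ^ (2 * j) * (q ^ (2 * j + 1) - 1)) := by
  induction m with
  | zero => simp [glo, H54.spOrder]
  | succ m ih =>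
    rw [show 2 * (m + 1) = 2 * m + 1 + 1 by ring, glo_succ, glo_succ, ih, H54.spOrder_succ,
      Finset.prod_range_succ, show 2 * (m + 1) = 2 * m + 1 + 1 by ring]
    ring

theorem sg_congr {q k : ℕ} {a b : Prop} (h : a ↔ b) : sg q k a = sg q k b := by rw [propext h]

theorem glo_sq (q n : ℕ) : glo (q ^ 2) n = H59.ordGU q n *
    ∏ j ∈ Finset.range n, (q ^ j * sg q (j + 1) (¬ Even (j + 1))) := by
  induction n with
  | zero => simp [glo, H59.ordGU]
  | succ n ih =>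
    rw [glo_succ, ih, H59.ordGU_succ, Finset.prod_range_succ, ← pow_mul q 2 (n + 1),
      ← sg_mul_sg (ε := Even (n + 1)), show (if Even (n + 1) then q ^ (n + 1) - 1 else
        q ^ (n + 1) + 1) = sg q (n + 1) (Even (n + 1)) by rw [sg]; congr!]
    ring

theorem odd_of_dvd {q k r : ℕ} (hq : 0 < q) (h : r ∣ q ^ (2 * k + 1) - 1) :
    Odd (orderOf (q : ZMod r)) ∧ orderOf (q : ZMod r) ≤ 2 * k + 1 := by
  have h1 : orderOf (q : ZMod r) ∣ 2 * k + 1 := orderOf_dvd_of_pow_eq_one (by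
    have := (ZMod.natCast_eq_zero_iff _ _).2 h
    rwa [Nat.cast_pred (pow_pos hq _), sub_eq_zero, Nat.cast_pow] at this)
  exact ⟨(odd_two_mul_add_one k).of_dvd_nat h1, Nat.le_of_dvd (by omega) h1⟩

end H71.El
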