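import Cfsg.Agent.H71.El2
import Cfsg.Agent.H58.ElU2
import Cfsg.Agent.H58.ElUO

/-!
Elements of prime order of `PSL_n(q)` and the subgroups of symplectic, unitary and orthogonal type.
-/

set_option autoImplicit false
set_option maxHeartbeats 400000
set_option linter.unusedSectionVars false
open Polynomial Module Matrix H53 H58 Cfsg.Geo

namespace H71.El

variable {F : Type*} [Field F] {ι : Type} [Fintype ι] [DecidableEq ι] {H : Subgroup (GL ι F)}
  {r : ℕ} {f : (ι → F) → (ι → F) → F}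

theorem nondeg_of {f : (ι → F) → (ι → F) → F} (h : IsNondegenerateForm f) :
    (∀ x, (∀ y, f x y = 0) → x = 0) ∧ ∀ x, (∀ y, f y x = 0) → x = 0 :=
  ⟨fun x hx => by_contra fun e => let ⟨y, hy⟩ := (h x e).2; hy (hx y),
    fun x hx => by_contra fun e => let ⟨y, hy⟩ := (h x e).1; hy (hx y)⟩

theorem exists_isSim_sp (hf : IsSymplecticForm f) : ∃ B : (ι → F) →ₗ[F] (ι → F) →ₗ[F] F,
    IsSim (σ := RingHom.id F) (-1) B (similarityGroup f) ∧ ∀ x, B x x = 0 :=
  ⟨LinearMap.mk₂ F f hf.1.1 hf.1.2 hf.1.3 (fun c x y => hf.1.4 c x y),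
    ⟨⟨fun _ => rfl, by simp, fun x y => by simpa using hf.2 y x, (nondeg_of hf.4).1⟩,
      fun _ => Iff.rfl⟩, hf.3⟩

theorem conj_sq {V W : Type*} [AddCommGroup V] [Module F V] [AddCommGroup W] [Module F W]
    (e : V ≃ₗ[F] W) {f : End F V} {z : F} (h : f ^ 2 = z • 1) : e.conj f ^ 2 = z • 1 := by
  rw [sq, End.mul_eq_comp, ← LinearEquiv.conj_comp, ← End.mul_eq_comp, ← sq, h]
  simp [End.one_eq_id]

section Sp
variable [Finite F] {B : (ι → F) →ₗ[F] (ι → F) →ₗ[F] F}

theorem exists_sm_alt (hB : IsSF (σ := RingHom.id F) (-1) B) (ha : ∀ x, B x x = 0) {k : ℕ}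
    (hk : Fintype.card ι = k * 2) (z : F) : ∃ f, Sm B (-z) f ∧ f ^ 2 = z • 1 := by
  obtain ⟨e, he⟩ := H54.exists_isometry_of_finrank_eq (H54.spB_nondegenerate (l := Fin k) (R := F))
    H54.spB_isAlt hB.nondegenerate ha (by simp; omega)
  refine ⟨e.conj (toLin' (fromBlocks 0 (z • 1) 1 0)), Sm.conj e he fun x y => ?_, ?_⟩
  · simp only [H54.spB_eq_sum, Finset.mul_sum]
    refine Finset.sum_congr rfl fun i _ => ?_
    simp [fromBlocks_mulVec, Matrix.smul_mulVec]
    ring
  · have : (fromBlocks 0 (z • 1) 1 0 : Matrix (Fin k ⊕ Fin k) (Fin k ⊕ Fin k) F) ^ 2 = z • 1 := by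
      simp [sq, fromBlocks_multiply, ← fromBlocks_one, fromBlocks_smul]
    exact conj_sq e (toLin'_pow_eq this)

theorem IsSim.exists_pow {σ : F →+* F} {ε : F} {B : (ι → F) →ₛₗ[σ] (ι → F) →ₗ[F] F}
    (h : IsSim ε B H) {c z : F} (hc : c ≠ 0) (h1 : ∃ f, Sm B c f ∧ f ^ r = z • 1) :
    ∃ g ∈ H, (g : Matrix ι ι F) ^ r = z • 1 := by
  obtain ⟨f, h1, h2⟩ := h1
  obtain ⟨g, rfl⟩ := exists_gl_toLin'_eq (h1.isUnit h.sf hc)
  exact ⟨g, (h.mem g).2 ⟨Units.mk0 c hc, h1⟩, toLin'_pow_iff.1 h2⟩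

theorem real_two {σ : F →+* F} {ε : F} {alt : Prop} (hσ : ∀ a, σ (σ a) = a) (hε : ε * σ ε = 1)
    (ha : alt → σ = RingHom.id F ∧ ε = -1) (a b : ℕ) :
    Real σ ε alt (lin (two F (a + a) (b + b))) := by
  have := real_hyp hσ hε ha (s := lin (two F a b)) isPP_lin
    (coeff_lin (by simp [Multiset.mem_replicate]))
  rw [map_pstar_two] at this
  convert this using 1
  simp only [lin, two, Multiset.replicate_add, Multiset.map_add]
  abel

theorem sp_two (h : IsSim (σ := RingHom.id F) (-1) B H) (ha : ∀ x, B x x = 0)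
    (hn : 3 ≤ Fintype.card ι) (he : Even (Fintype.card ι)) :
    AllG H 2 ↔ padicValNat 2 (Nat.card F - 1) ≤ padicValNat 2 (Fintype.card ι) := by
  classical
  have : Nonempty ι := Fintype.card_pos_iff.1 (by omega)
  by_cases h2 : (2 : F) = 0
  · have : CharP F 2 := CharTwo.of_one_ne_zero_of_two_eq_zero one_ne_zero h2
    have h3 := not_dvd_pow_sub_one Nat.prime_two (char_dvd_card (F := F) 2) Nat.card_pos one_pos
    rw [pow_one] at h3
    refine iff_of_true (allG_char 2 h.scalars_le fun μ h4 h5 _ => h.gc_of_inv (exists_inv_alt h.sf ha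
      ((real_alt_unip_iff fun k hk => (h4 k hk).1).2 fun k hk => ?_) (by simpa using dgs_up.trans h5)))
      (by simp [padicValNat.eq_zero_of_not_dvd h3])
    by_cases h6 : k = 1
    · rw [eq_replicate_two_add h4] at h5
      simp only [Multiset.sum_add, Multiset.sum_replicate, smul_eq_mul] at h5
      rw [h6, Nat.even_iff] at *
      omega
    · rw [Multiset.count_eq_zero.2 fun h7 => ?_]
      · simp
      · have := h4 k h7
        rw [Nat.odd_iff] at hk
        omega
  rw [allG_two_iff h2 h.scalars_le, and_iff_left (npc_of_forall Nat.prime_two fun z k h3 h4 =>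
    h.exists_pow (neg_ne_zero.2 fun e => h3 0 (by simp [e])) (exists_sm_alt h.sf ha h4 z)),
    ← not_lt, ← exists_pow_eq_neg_one_iff h2 (by omega)]
  refine ⟨fun h3 h4 => ?_, fun h3 a b h4 h5 h6 h7 => ?_⟩
  · obtain ⟨f, h5, h6⟩ := h.exists_inv_two h2 (a := Fintype.card ι - 1) (b := 1) (by omega)
      (h3 _ _ (by omega) one_pos (by omega) (by simpa using h4))
    have := (real_alt_iff.1 (h6 ▸ real_ed h.sf (fun _ => ha) h5)).2.2.2 (-1) (by simp) 1 odd_one
    have h7 := X_sub_C_ne_neg h2 (one_ne_zero (α := F))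
    simp only [lin, two, Multiset.map_add, Multiset.map_replicate, Multiset.count_add, pow_one,
      Multiset.count_replicate, if_neg h7, if_true] at this
    exact absurd this (by decide)
  · obtain ⟨b, rfl⟩ : Even b := by
      by_contra h8
      exact h3 (by simpa [(Nat.not_even_iff_odd.1 h8).neg_one_pow] using h7)
    obtain ⟨a, rfl⟩ : Even a := by rw [Nat.even_iff] at *; omega
    exact h.gc_of_inv (exists_inv_alt h.sf ha (real_two (fun _ => rfl) (by simp)
      (fun _ => ⟨rfl, rfl⟩) a b) (by rw [dgs_lin]; simpa using h6))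

theorem not_mul_self (hr : r.Prime) (h2 : r ≠ 2) (ω : F) (h : IsPrimitiveRoot ω r) :
    ω * RingHom.id F ω ≠ 1 := fun e =>
  h2 ((Nat.prime_dvd_prime_iff_eq hr Nat.prime_two).1 ((h.pow_eq_one_iff_dvd 2).1 (by
    simpa [sq] using e)))

/-- derangements when the order of `q` modulo `r` is odd -/
theorem IsSim.not_allG_odd {ε : F} (h : IsSim (σ := RingHom.id F) ε B H) (hr : r.Prime)
    (h2 : r ≠ 2) (h0 : (r : F) ≠ 0) (hn : 3 ≤ Fintype.card ι)
    (h6 : ¬ (Fintype.card ι = 6 ∧ r = 3))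
    (hx : ¬ ((r = 3 ∨ r = 5) ∧ Fintype.card ι = r ∧ padicValNat r (Nat.card F - 1) = 1))
    (ho : Odd (orderOf (Nat.card F : ZMod r)))
    (hi : orderOf (Nat.card F : ZMod r) ≤ Fintype.card ι) : ¬ AllG H r := by
  have : Nonempty ι := Fintype.card_pos_iff.1 (by omega)
  by_cases h1 : orderOf (Nat.card F : ZMod r) = 1
  · obtain ⟨A, t, h3, h4, h5⟩ := exists_rig hr h2 ((orderOf_eq_one_iff_dvd Nat.card_pos).1 h1) hn h6 hx
    exact fun h7 => h.not_rig hr.ne_zero h5 (not_mul_self hr h2) (h4 ▸ h7 A h3)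
  · exact h.not_allG_cyc hr h0 h1 hi fun φ h3 e =>
      Nat.not_even_iff_odd.2 ho ((pstar_id_eq_self_iff_even hr h2 h0 h3).1 e)

theorem sp_odd (h : IsSim (σ := RingHom.id F) (-1) B H) (ha : ∀ x, B x x = 0)
    (p : ℕ) [Fact p.Prime] [CharP F p] (hn : 3 ≤ Fintype.card ι) (he : Even (Fintype.card ι))
    (hr : r.Prime) (h2 : r ≠ 2) (h6 : ¬ (Fintype.card ι = 6 ∧ r = 3))
    (hΩ : r ∣ (H.comap (SpecialLinearGroup.toGL : SpecialLinearGroup ι F →* GL ι F)).index) :
    ¬ AllG H r := by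
  have : Nonempty ι := Fintype.card_pos_iff.1 (by omega)
  have h3 : 3 ≤ r := by have := hr.two_le; omega
  by_cases hp : r = p
  · subst hp
    refine h.not_allG_unip r (fun _ : True => ha) (μ := 3 ::ₘ Multiset.replicate (Fintype.card ι - 3) 1)
      (by simp +contextual [Multiset.mem_replicate]; omega) (by simp; omega) ⟨3, by simp⟩ fun h4 => ?_
    have := (real_alt_unip_iff (by simp +contextual [Multiset.mem_replicate])).1 h4 3 (by decide)
    simp [Multiset.count_replicate] at this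
  have h0 := natCast_ne_zero_of_prime_ne (F := F) p hr hp
  obtain ⟨m, hm⟩ := he
  have h4 := h.index_mul_dvd
  rw [show Nat.card (H59.isom B) = _ from H54.card_Isom (m := m) h.sf.nondegenerate ha
    (by simp; omega), hm, ← two_mul, glo_two_mul] at h4
  obtain ⟨j, h5, h7⟩ := exists_dvd_of_dvd_prod hr (not_dvd_card_of_ne_zero hr h0)
    (hΩ.trans (dvd_of_mul_dvd_mul (H54.spOrder_pos Finite.one_lt_card _) h4))
  obtain ⟨h8, h9⟩ := odd_of_dvd Nat.card_pos h7
  exact h.not_allG_odd hr h2 h0 hn h6 (by omega) h8 (by omega)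

end Sp

section U
open H59 (frob frob_apply frob_frob)
variable [Fintype F] {q : ℕ} {hF : Fintype.card F = q ^ 2}
  {B : (ι → F) →ₛₗ[frob hF] (ι → F) →ₗ[F] F}

theorem exists_isSim_u (hF : Fintype.card F = q ^ 2) (hf : IsUnitaryFormPow q f) :
    ∃ B : (ι → F) →ₛₗ[frob hF] (ι → F) →ₗ[F] F, IsSim 1 B (similarityGroup f) :=
  ⟨LinearMap.mk₂'ₛₗ (frob hF) (RingHom.id F) (fun x y => f y x)
    (fun x z y => by
      rw [hf.3, hf.1, hf.3 y x, hf.3 y z]; exact map_add (frob hF) _ _)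
    (fun c x y => by rw [hf.3, hf.2, hf.3 y x, mul_pow]; rfl)
    (fun x y z => hf.1 y z x) (fun c x y => hf.2 c y x),
    ⟨⟨frob_frob hF, by simp, fun x y => (hf.3 x y).trans (one_mul _).symm, (nondeg_of hf.4).2⟩,
      fun _ => exists_congr fun _ => forall_comm⟩⟩

theorem u_two (h : IsSim 1 B H) (hn : 0 < Fintype.card ι) : AllG H 2 ↔
    ((2 : F) = 0 ∨ padicValNat 2 (Fintype.card ι) ≤ padicValNat 2 (q ^ 2 - 1)) := by
  have : Nonempty ι := Fintype.card_pos_iff.1 hn
  by_cases h2 : (2 : F) = 0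
  · have : CharP F 2 := CharTwo.of_one_ne_zero_of_two_eq_zero one_ne_zero h2
    exact iff_of_true (allG_char 2 h.scalars_le fun μ h4 h5 _ => h.gc_of_inv (exists_inv_herm h.sf
      (isPP_up fun k hk => (h4 k hk).1) coeff_up map_pstar_up (by simpa using dgs_up.trans h5)))
      (.inl h2)
  obtain ⟨t, ht⟩ := odd_of_two_ne hF h2
  have h3 : q ^ 2 = 4 * (t * t + t) + 1 := by rw [ht]; ring
  rw [allG_two_iff h2 h.scalars_le, and_iff_right fun a b _ _ h5 _ => h.gc_of_inv
    (exists_inv_herm h.sf isPP_lin (coeff_lin (by simp [Multiset.mem_replicate])) map_pstar_two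
      (by rw [dgs_lin]; simpa using h5)), npc_iff Nat.prime_two fun g h4 z h5 => ?_,
    not_exLin_iff (by rw [natCard_sq hF]; omega) hn.ne', natCard_sq hF]
  · simp only [h2, false_or, and_iff_left_iff_imp]
    omega
  obtain ⟨c, f, hc, h6, -, h7⟩ := h.exists_sm ⟨g, h4, rfl⟩ h5
  have h8 : c ^ (2 * t) = 1 := mul_right_cancel₀ hc (by
    rw [← pow_succ, ← ht, one_mul]; exact h6.map_eq h.sf)
  obtain ⟨b, hb⟩ := (FiniteField.isSquare_iff (mt neg_one_eq_one_iff.2 fun e => h2 (by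
    linear_combination -e)) (ne_zero_of_pow_eq_smul g.isUnit h5)).2 (by
      rw [hF, show q ^ 2 / 2 = (q + 1) * t by rw [h3, ht]; ring_nf; omega, pow_mul, pow_succ',
        ← frob_apply hF, ← h7, ← pow_mul, h8])
  exact ⟨b, by rw [hb, sq]⟩

theorem padicValNat_sq_sub_one [hr : Fact r.Prime] (hq : 2 ≤ q) (h : ¬ r ∣ q + 1) :
    padicValNat r (q ^ 2 - 1) = padicValNat r (q - 1) := by
  rw [show q ^ 2 - 1 = (q + 1) * (q - 1) by simpa using Nat.sq_sub_sq q 1,
    padicValNat.mul (by omega) (by omega), padicValNat.eq_zero_of_not_dvd h, zero_add]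

theorem u_odd [hr : Fact r.Prime] (h : IsSim 1 B H) (hn : 3 ≤ Fintype.card ι) (h2 : r ≠ 2)
    (h0 : (r : F) ≠ 0) (h6 : ¬ (Fintype.card ι = 6 ∧ r = 3))
    (hΩ : r ∣ (H.comap (SpecialLinearGroup.toGL : SpecialLinearGroup ι F →* GL ι F)).index) :
    AllG H r ↔ ((r = 3 ∨ r = 5) ∧ Fintype.card ι = r ∧ padicValNat r (q - 1) = 1) := by
  have : Nonempty ι := Fintype.card_pos_iff.1 (by omega)
  have hq := two_le_of_card_eq_sq hF
  have h4 := h.index_mul_dvd
  rw [(h.sf.isHerm (H59.frob_ne_id hF)).card_isom hF, natCard_sq hF, glo_sq,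
    finrank_fintype_fun_eq_card] at h4
  obtain ⟨j, h5, h7⟩ := exists_dvd_of_dvd_prod hr.out (fun e => not_dvd_card_of_ne_zero hr.out h0
    (natCard_sq hF ▸ e.trans (dvd_pow_self q two_ne_zero)))
    (hΩ.trans (dvd_of_mul_dvd_mul (H59.ordGU_pos hq _) h4))
  have hi := orderOf_q_pos hF h0
  have h8 : orderOf (q : ZMod r) % 4 ≠ 2 := by
    unfold sg at h7
    split_ifs at h7 with h8
    · obtain ⟨l, c, h9, h10⟩ := (prime_dvd_pow_add_one_iff hr.out h2 hi _).1 h7
      rw [h10, Nat.even_mul, ← Nat.not_odd_iff_even (n := 2 * c + 1)] at h8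
      obtain ⟨l, rfl⟩ := h8.resolve_right fun e => e (odd_two_mul_add_one c)
      omega
    · obtain ⟨k, hk⟩ := Nat.not_even_iff_odd.1 h8
      have := Nat.odd_iff.1 (odd_of_dvd (by omega) (hk ▸ h7)).1
      omega
  have h9 : ¬ r ∣ q + 1 := fun e => h8 (by rw [(dvd_succ_iff hr.out h2 rfl hi).1 e])
  refine ⟨fun h1 => by_contra fun hx => ?_, fun ⟨h35, h10, h11⟩ A hA => ?_⟩
  · by_cases h10 : orderOf (Nat.card F : ZMod r) = 1
    · obtain ⟨A, t, h11, h12, h13⟩ := exists_rig hr.out h2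
        ((orderOf_eq_one_iff_dvd Nat.card_pos).1 h10) hn h6
        (by rwa [natCard_sq hF, padicValNat_sq_sub_one hq h9])
      exact h.not_rig hr.out.ne_zero h13 (fun ω h14 e => h9 ((h14.pow_eq_one_iff_dvd _).1
        (mu_iff.1 e))) (h12 ▸ h1 A h11)
    refine h.not_allG_cyc hr.out h0 h10 ((Nat.le_of_dvd j.succ_pos (orderOf_dvd_of_pow_eq_one ?_)).trans
      h5) (fun φ h3 e => h8 ((pstar_frob_eq_self_iff_mod hF hr.out h2 h0 h3).1 e)) h1
    have := (ZMod.natCast_eq_zero_iff _ _).2 (h7.mul_left (sg q (j + 1) (Even (j + 1))))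
    rwa [sg_mul_sg, Nat.cast_pred (by positivity), sub_eq_zero, pow_mul, ← natCard_sq hF,
      Nat.cast_pow] at this
  · obtain ⟨c, t, hc, h12, h13, h14⟩ := hA.symm h35 h10
      (by rwa [natCard_sq hF, padicValNat_sq_sub_one hq h9])
    have h15 : 0 ∉ t := fun e => by simpa [hr.out.ne_zero] using h12 0 e
    refine GC.of_smul h.scalars_le hc (h14 ▸ h.gc_of_inv (exists_inv_herm h.sf isPP_lin
      (coeff_lin h15) ?_ (by rw [dgs_lin]; simpa using card_lin h14)))
    rw [lin_pstar h15]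
    refine congrArg lin ((Multiset.map_congr rfl fun a ha => ?_).trans h13)
    obtain ⟨k, hk⟩ := dvd_of_one_le_padicValNat h11.ge
    rw [frob_apply, show q = r * k + 1 by omega, pow_succ, pow_mul, h12 a ha, one_pow, one_mul]

end U

section O
variable [Finite F] {B : (ι → F) →ₗ[F] (ι → F) →ₗ[F] F} {Q : QuadraticForm F (ι → F)}

theorem exists_isSim_o (h2 : (2 : F) ≠ 0) {q : (ι → F) → F} (h : IsNondegenerateQuadraticForm q) :
    ∃ Q : QuadraticForm F (ι → F), Q.polarBilin.Nondegenerate ∧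
      IsSim (σ := RingHom.id F) 1 Q.polarBilin (quadSimilarityGroup q) := by
  let Q : QuadraticForm F (ι → F) := QuadraticMap.ofPolar q
    (fun a x => by rw [h.smul, smul_eq_mul, pow_two]) h.polar_bilinear.add_left
    (fun a x y => by rw [h.polar_bilinear.smul_left, smul_eq_mul])
  have hQ : Q.polarBilin.Nondegenerate := nondeg_of h.nondegenerate
  refine ⟨Q, hQ, isSF_polar hQ, fun g => exists_congr fun c => ⟨fun h1 x y => ?_, fun h1 v => ?_⟩⟩
  · change q _ - q _ - q _ = c * (q _ - q _ - q _)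
    simp only [toLin'_apply, ← mulVec_add, h1]
    ring
  · refine mul_left_cancel₀ h2 ?_
    have := h1 v v
    simp only [QuadraticMap.polarBilin_apply_apply, polar_self', toLin'_apply] at this
    exact this.trans (mul_left_comm _ _ _)

theorem exists_diag (hB : IsSF (σ := RingHom.id F) 1 B) (h2 : (2 : F) ≠ 0) (κ : Type) [Fintype κ]
    (hκ : Fintype.card κ = Fintype.card ι) : ∃ (w : κ → F) (e : (κ → F) ≃ₗ[F] (ι → F)),
      (∀ i, w i ≠ 0) ∧ ∀ x y, B (e x) (e y) = ∑ i, w i * (x i * y i) := by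
  classical
  have := invertibleOfNonzero h2
  obtain ⟨v, hv⟩ := LinearMap.BilinForm.exists_orthogonal_basis (B := B) ⟨fun x y => by
    simpa using hB.symm y x⟩
  let u : Fin (finrank F (ι → F)) ≃ κ := Fintype.equivOfCardEq (by simp [hκ])
  refine ⟨fun i => B (v (u.symm i)) (v (u.symm i)), (v.reindex u).equivFun.symm,
    fun i => hv.not_isOrtho_basis_self_of_separatingLeft hB.nondegenerate.1 _, fun x y => ?_⟩
  simp only [Basis.equivFun_symm_apply, map_sum, map_smul, LinearMap.sum_apply,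
    LinearMap.smul_apply, Basis.reindex_apply, smul_eq_mul]
  refine Finset.sum_congr rfl fun i _ => ?_
  rw [Finset.sum_eq_single i (fun j _ hj => by
    rw [show B _ _ = 0 from hv (u.symm.injective.ne hj), mul_zero]) (by simp)]
  ring

/-- the diagonal form -/
def dg {κ : Type} [Fintype κ] (w : κ → F) : (κ → F) →ₗ[F] (κ → F) →ₗ[F] F :=
  LinearMap.mk₂ F (fun x y => ∑ i, w i * (x i * y i))
    (fun _ _ _ => by simp [add_mul, mul_add, Finset.sum_add_distrib])
    (fun _ _ _ => by simp [Finset.mul_sum, mul_assoc, mul_left_comm])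
    (fun _ _ _ => by simp [mul_add, Finset.sum_add_distrib])
    (fun _ _ _ => by simp [Finset.mul_sum, mul_left_comm])

theorem exists_sq_add (h2 : (2 : F) ≠ 0) {d : F} (hd : d ≠ 0) (z : F) :
    ∃ s u : F, s ^ 2 + d * u ^ 2 = z := by
  have := Fintype.ofFinite F
  obtain ⟨s, u, h⟩ := FiniteField.exists_root_sum_quadratic (f := X ^ 2) (g := C d * X ^ 2 - C z)
    (by simp) (by compute_degree!)
    (by rw [← Nat.card_eq_fintype_card, ← Nat.odd_iff]; exact odd_card_iff.2 h2)
  exact ⟨s, u, by simpa [← add_sub_assoc, sub_eq_zero] using h⟩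

theorem o_two (h : IsSim (σ := RingHom.id F) 1 B H) (h2 : (2 : F) ≠ 0) (hn : 0 < Fintype.card ι) :
    AllG H 2 := by
  have : Nonempty ι := Fintype.card_pos_iff.1 hn
  refine (allG_two_iff h2 h.scalars_le).2 ⟨fun a b _ _ h3 _ => ?_,
    npc_of_forall Nat.prime_two fun z k h3 h4 => h.exists_pow (c := z) (fun e => h3 0 (by simp [e])) ?_⟩
  · obtain ⟨w, e, -, he⟩ := exists_diag h.sf h2 (Fin a ⊕ Fin b) (by simpa using h3)
    have := h.gc_of_sm one_ne_zero (Sm.conj (B := dg w) (c := 1) e he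
      (f := toLin' (fromBlocks ((1 : F) • 1) 0 0 ((-1 : F) • 1))) fun x y => by
        simp [dg, fromBlocks_mulVec, neg_mulVec])
    rw [← (sim_conj e _).ed_eq, ← med, med_fromBlocks, med, med, toLin'_eq_smul_iff.2 rfl,
      toLin'_eq_smul_iff.2 rfl, ed_smul_one, ed_smul_one] at this
    simpa using this
  · obtain ⟨w, e, hw, he⟩ := exists_diag h.sf h2 (Fin k ⊕ Fin k) (by simp; omega)
    choose s u hs using fun i => exists_sq_add h2 (mul_ne_zero (hw (.inl i)) (hw (.inr i))) z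
    refine ⟨_, Sm.conj (B := dg w) e he (f := toLin' (fromBlocks (diagonal s)
      (diagonal fun i => w (.inr i) * u i) (diagonal fun i => w (.inl i) * u i) (diagonal (-s))))
      fun x y => ?_, conj_sq e (toLin'_pow_eq ?_)⟩
    · simp only [dg, LinearMap.mk₂_apply, Fintype.sum_sum_type, ← Finset.sum_add_distrib,
        Finset.mul_sum]
      refine Finset.sum_congr rfl fun i _ => ?_
      simp only [toLin'_apply, fromBlocks_mulVec, Sum.elim_inl, Sum.elim_inr, Pi.add_apply,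
        mulVec_diagonal, Function.comp_apply, Pi.neg_apply, ← hs i]
      ring
    · rw [sq, fromBlocks_multiply, ← fromBlocks_one, fromBlocks_smul, smul_zero]
      simp only [diagonal_mul_diagonal, diagonal_add, smul_one_eq_diagonal, fromBlocks_inj,
        ← diagonal_zero, diagonal_eq_diagonal_iff, Pi.neg_apply]
      exact ⟨fun i => by rw [← hs i]; ring, fun i => by ring, fun i => by ring,
        fun i => by rw [← hs i]; ring⟩

theorem card_isom_polar (h2 : (2 : F) ≠ 0) (hQ : Q.polarBilin.Nondegenerate) :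
    Nat.card (H59.isom Q.polarBilin) = ordO (Nat.card F) (Fintype.card ι) (IsPlus Q) := by
  rw [← finrank_fintype_fun_eq_card F, ← card_O_eq hQ]
  congr 2
  ext g
  exact ⟨fun h => qinv_of_inv_of_two_ne (f := g.toLinearMap) h2 h,
    fun h => QInv.inv (f := g.toLinearMap) h⟩

theorem o_odd [hr : Fact r.Prime] (hQ : Q.polarBilin.Nondegenerate)
    (h : IsSim (σ := RingHom.id F) 1 Q.polarBilin H) (h2 : (2 : F) ≠ 0)
    (p : ℕ) [Fact p.Prime] [CharP F p] (hn : 3 ≤ Fintype.card ι)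
    (h3 : r ≠ 2) (h6 : ¬ (Fintype.card ι = 6 ∧ r = 3))
    (hx : ¬ ((r = 3 ∨ r = 5) ∧ Fintype.card ι = r ∧ padicValNat r (Nat.card F - 1) = 1))
    (hΩ : r ∣ (H.comap (SpecialLinearGroup.toGL : SpecialLinearGroup ι F →* GL ι F)).index) :
    ¬ AllG H r := by
  classical
  have : Nonempty ι := Fintype.card_pos_iff.1 (by omega)
  have h4 := hr.out.two_le
  by_cases hp : r = p
  · subst hp
    refine h.not_allG_unip r (alt := False) False.elim
      (μ := 2 ::ₘ Multiset.replicate (Fintype.card ι - 2) 1)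
      (by simp +contextual [Multiset.mem_replicate]; omega) (by simp; omega) ⟨2, by simp⟩ fun h4 => ?_
    have := (real_symm_unip_iff h2 (by simp +contextual [Multiset.mem_replicate])).1 h4 2
      (by decide) two_pos
    simp [Multiset.count_replicate] at this
  have h0 := natCast_ne_zero_of_prime_ne (F := F) p hr.out hp
  have hq := not_dvd_card_of_ne_zero hr.out h0
  have h5 := h.index_mul_dvd
  have key : ∀ j, 2 * j + 1 ≤ Fintype.card ι → r ∣ Nat.card F ^ (2 * j + 1) - 1 → ¬ AllG H r :=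
    fun j h7 h8 => h.not_allG_odd hr.out h3 h0 hn h6 hx (odd_of_dvd Nat.card_pos h8).1
      ((odd_of_dvd Nat.card_pos h8).2.trans h7)
  rw [card_isom_polar h2 hQ] at h5
  rcases Nat.even_or_odd' (Fintype.card ι) with ⟨d, hd | hd⟩
  swap
  · rw [hd, ordO_odd, mul_assoc 2, ← H54.spOrder_def, glo_succ, glo_two_mul, mul_assoc,
      ← Finset.prod_range_succ (fun j => Nat.card F ^ (2 * j) * (Nat.card F ^ (2 * j + 1) - 1)),
      ← mul_assoc] at h5
    obtain ⟨j, h7, h8⟩ := exists_dvd_of_dvd_prod hr.out hq ((hΩ.mul_right _).trans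
      (dvd_of_mul_dvd_mul (H54.spOrder_pos Finite.one_lt_card _) h5))
    exact key j (by omega) h8
  obtain ⟨d, rfl⟩ : ∃ e, d = e + 1 := ⟨d - 1, by omega⟩
  have h7 : H54.spOrder (Nat.card F) (d + 1) * 2 = ordO (Nat.card F) (2 * (d + 1)) (IsPlus Q) *
      (Nat.card F ^ (d + 1) * sg (Nat.card F) (d + 1) (¬ IsPlus Q)) := by
    rw [ordO_even, H54.spOrder_def, Finset.prod_range_succ, ← sg_mul_sg (ε := IsPlus Q)]
    ring
  have h8 := h5.mul_right 2
  rw [hd, glo_two_mul, mul_right_comm, h7, mul_assoc] at h8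
  rcases (Nat.Prime.dvd_mul hr.out).1 (hΩ.trans (dvd_of_mul_dvd_mul (ordO_pos Finite.one_lt_card)
    h8)) with h9 | h9
  swap
  · obtain ⟨j, h10, h11⟩ := exists_dvd_of_dvd_prod hr.out hq h9
    exact key j (by omega) h11
  have hi : 0 < orderOf (Nat.card F : ZMod r) := by
    obtain ⟨φ, hφ⟩ := cycF_nonempty h0
    exact natDegree_of_mem_cycF h0 hφ ▸ ((mem_cycF h0).1 hφ).2.1.natDegree_pos
  obtain ⟨a, h10, h11, h12⟩ := blk_of_dvd_sg Nat.card_pos hr.out h3 rfl hi d.succ_pos
    (((Nat.Prime.dvd_mul hr.out).1 h9).resolve_left fun e => hq (hr.out.dvd_of_dvd_pow e))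
  by_cases he : Even (orderOf (Nat.card F : ZMod r))
  swap
  · rw [if_neg he] at h11
    exact h.not_allG_odd hr.out h3 h0 hn h6 hx (Nat.not_even_iff_odd.1 he) (by nlinarith)
  rw [if_pos he] at h11
  have h13 : orderOf (Nat.card F : ZMod r) ≠ 1 := fun e => by simp [e] at he
  intro h1
  obtain ⟨A, φ, h14, h15, h16, h17⟩ := exists_po_cyc (ι := ι) hr.out h0 h13 h10 (by omega)
  obtain ⟨f, h18, h19⟩ := h.exists_inv hr.out (mt (orderOf_eq_one_iff_dvd Nat.card_pos).2 h13)
    (h1 A h15) h16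
  have h20 := realQ_ed hQ (qinv_of_inv_of_two_ne h2 h18)
  have h21 := (mem_cycF h0).1 h14
  rw [h19, h17, realQ_add_replicate_iff (by simp +contextual [Multiset.mem_replicate, h21])
    (fun P hP => Multiset.eq_of_mem_replicate hP ▸ coeff_zero_ne_zero_of_mem_cycF h0 h14)
    (fun P hP => Multiset.eq_of_mem_replicate hP ▸ isCoprime_X_sq_sub_one h21.1 h21.2.1
      (fun e => (one_lt_of_ne_one h0 h13 h14).ne' (by rw [e, ← C_1, natDegree_X_sub_C]))
      (fun e => (one_lt_of_ne_one h0 h13 h14).ne' (by rw [e, ← C_1, natDegree_X_add_C])))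
    (by simp [natDegree_of_mem_cycF h0 h14, h11, hd]),
    Multiset.filter_eq_self.2 fun P hP => Multiset.eq_of_mem_replicate hP ▸
      (pstar_id_eq_self_iff_even hr.out h3 h0 h14).2 he, Multiset.card_replicate] at h20
  have := h20.2 (by omega)
  tauto

theorem o_exc (hQ : Q.polarBilin.Nondegenerate)
    (h : IsSim (σ := RingHom.id F) 1 Q.polarBilin H) (h2 : (2 : F) ≠ 0) (h35 : r = 3 ∨ r = 5)
    (hn : Fintype.card ι = r) (hv : padicValNat r (Nat.card F - 1) = 1) : AllG H r := fun A hA => by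
  classical
  obtain ⟨c, t, hc, h3, h4, h5⟩ := hA.symm h35 hn hv
  have h6 : 0 ∉ t := fun e => by simpa [show r ≠ 0 by omega] using h3 0 e
  obtain ⟨f, h7, h8⟩ := exists_qinv_odd hQ (s := lin t) (by
      rw [finrank_fintype_fun_eq_card, hn]; rcases h35 with rfl | rfl <;> decide)
    ((real_symm_iff h2).2 ⟨isPP_lin, coeff_lin h6, by rw [lin_pstar h6]; exact congrArg lin h4,
      fun c _ k hk => by
        rw [Multiset.count_eq_zero.2 fun h => ?_]
        · simp
        · obtain ⟨a, -, e⟩ := Multiset.mem_map.1 h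
          have := congrArg natDegree e
          simp only [natDegree_pow, natDegree_X_sub_C, mul_one] at this
          simp [← this] at hk⟩) (by rw [dgs_lin]; simpa using card_lin h5)
  exact GC.of_smul h.scalars_le hc (h5 ▸ h.gc_of_inv ⟨f, h7.inv, h8⟩)

end O

end H71.El
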