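import Cfsg.Agent.H71.El2
import Cfsg.Agent.H58.ElUO

/-!
Elements of prime order of `PSL_n(q)` and subfield subgroups.
-/

set_option autoImplicit false
set_option maxHeartbeats 400000
set_option linter.unusedSectionVars false
open Polynomial Module Matrix H53 H58 Cfsg.Geo

namespace H71.El

variable {K F : Type*} [Field K] [Field F] [Algebra K F] {ι : Type} [Fintype ι] [DecidableEq ι]
  {H : Subgroup (GL ι F)} {r k : ℕ} {A : Matrix ι ι F} {M N : Matrix ι ι K}

/-- `H` is the subfield subgroup -/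
def IsSub (K : Type*) [Field K] [Algebra K F] (H : Subgroup (GL ι F)) : Prop :=
  ∀ g : GL ι F, g ∈ H ↔ ∃ (c : F) (M : Matrix ι ι K), (g : Matrix ι ι F) = c • M.map (algebraMap K F)

theorem isSub_subfield [Nonempty ι] (F₀ : Subfield F) :
    IsSub F₀ (subfieldSubgroup F₀ (1 : GL ι F)) := fun g => by
  simp only [subfieldSubgroup, map_one, MulEquiv.toMonoidHom_eq_coe, MulAut.coe_one,
    Subgroup.mem_map, MonoidHom.coe_coe, id, exists_eq_right, Subgroup.mem_sup_of_normal_right]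
  constructor
  · rintro ⟨_, ⟨M, rfl⟩, z, hz, rfl⟩
    obtain ⟨c, hc⟩ := (mem_scalars_iff z).1 hz
    exact ⟨c, M, by rw [Units.val_mul, hc, Matrix.mul_smul, mul_one]; rfl⟩
  · rintro ⟨c, M, h⟩
    have h1 := g.det_ne_zero
    rw [h, det_smul, ← RingHom.mapMatrix_apply, ← RingHom.map_det] at h1
    have hc : c ≠ 0 := by rintro rfl; simp at h1
    refine ⟨_, ⟨GeneralLinearGroup.mkOfDetNeZero M fun e => by simp [e] at h1, rfl⟩, _,
      ⟨Units.mk0 c hc, rfl⟩, Units.ext ?_⟩
    rw [h, smul_eq_mul_diagonal]; rfl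

theorem IsSub.scalars_le (h : IsSub K H) : scalars ι F ≤ H := fun g hg => by
  obtain ⟨c, hc⟩ := (mem_scalars_iff g).1 hg
  exact (h g).2 ⟨c, 1, by simp [hc]⟩

theorem IsSub.gc_map (h : IsSub K H) (hM : IsUnit M) : GC H (med (M.map (algebraMap K F))) :=
  ⟨(hM.map (algebraMap K F).mapMatrix).unit, (h _).2 ⟨1, M, by simp⟩, rfl⟩

theorem mem_range_iff [Finite K] (x : F) :
    x ∈ Set.range (algebraMap K F) ↔ x ^ Nat.card K = x := by
  have := Fintype.ofFinite K
  rw [Nat.card_eq_fintype_card]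
  refine ⟨by rintro ⟨x, rfl⟩; rw [← map_pow, FiniteField.pow_card], fun h => ?_⟩
  have hs : (X ^ Fintype.card K - X : K[X]).Splits := by
    rw [splits_iff_card_roots, FiniteField.roots_X_pow_card_sub_X,
      FiniteField.X_pow_card_sub_X_natDegree_eq K Fintype.one_lt_card]
    simp
  exact hs.mem_range_of_isRoot (FiniteField.X_pow_card_sub_X_ne_zero K
    Fintype.one_lt_card) (i := algebraMap K F) (x := x) (by simp [h])

theorem exists_frob (K F : Type*) [Field K] [Field F] [Algebra K F] [Finite K] :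
    ∃ φ : F →+* F, ∀ x, φ x = x ^ Nat.card K :=
  have := Fintype.ofFinite K
  ⟨FiniteField.frobeniusAlgHom K F, fun x => by rw [Nat.card_eq_fintype_card]; rfl⟩

theorem map_pow' (M : Matrix ι ι K) (r : ℕ) :
    M.map (algebraMap K F) ^ r = (M ^ r).map (algebraMap K F) :=
  (map_pow (algebraMap K F).mapMatrix M r).symm

theorem rank_aeval_map (M : Matrix ι ι K) (P : K[X]) :
    (aeval (M.map (algebraMap K F)) (P.map (algebraMap K F))).rank = (aeval M P).rank := by
  rw [← map_aeval_matrix, rank_map_field]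

theorem isConj_of_map (h : IsConj (M.map (algebraMap K F)) (N.map (algebraMap K F))) :
    IsConj M N := (isConj_iff_rank_aeval M N).2 fun P => by
  rw [← rank_aeval_map (F := F) M, ← rank_aeval_map (F := F) N, (isConj_iff_rank_aeval _ _).1 h]

theorem IsSub.gc_up (h : IsSub K H) {μ : Multiset ℕ} (h0 : ∀ k ∈ μ, 0 < k)
    (hs : μ.sum = Fintype.card ι) : GC H (μ.map fun k => (X - 1) ^ k) := by
  obtain ⟨M, h1, rfl⟩ := exists_mjt_eq (F := K) (n := ι) h0 hs
  have h2 : IsNilpotent (M.map (algebraMap K F) - 1) := by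
    have := h1.map (algebraMap K F).mapMatrix
    rwa [map_sub, map_one] at this
  have h3 : mjt (M.map (algebraMap K F)) = mjt M :=
    multiset_eq_of_sum_min_eq (mjt_pos _) (mjt_pos _) fun N => by
      have e1 := rank_sub_one_pow_add h1 N
      have e2 := rank_sub_one_pow_add h2 N
      have e3 := rank_aeval_map (F := F) M ((X - 1) ^ N)
      simp only [Polynomial.map_pow, Polynomial.map_sub, map_X, Polynomial.map_one,
        aeval_X_sub_one_pow] at e3
      omega
  rw [← h3, mjt, ← ed_eq_map_jt ((isNilpotent_toLin'_sub_one _).2 h2)]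
  exact h.gc_map (isUnit_of_isNilpotent_sub_one h1)

theorem IsSub.gc_of_lifts (h : IsSub K H) (h0 : (r : F) ≠ 0) (h1 : A ^ r = 1)
    (h2 : A.charpoly ∈ lifts (algebraMap K F)) : GC H (med A) := by
  have hr : r ≠ 0 := by rintro rfl; simp at h0
  obtain ⟨P, h3, h4, h5⟩ := lifts_and_natDegree_eq_and_monic h2 A.charpoly_monic
  obtain ⟨M, h6, rfl⟩ := exists_isSS_charpoly_eq (n := ι) h5 (by simpa using h4)
  have h7 : M ^ r = 1 := (pow_eq_one_iff_med M r).2 fun φ hφ => by
    refine (h6 φ hφ).prime.dvd_of_dvd_pow (n := (med A).card) ((map_dvd_map' (algebraMap K F)).1 ?_)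
    refine (Polynomial.map_dvd _ (Multiset.dvd_prod hφ)).trans ?_
    rw [← charpoly_eq_prod_med, h3, charpoly_eq_prod_med, ← Multiset.prod_replicate]
    simpa using Multiset.prod_dvd_prod_of_dvd (S := med A) id (fun _ => X ^ r - 1)
      ((pow_eq_one_iff_med A r).1 h1)
  rw [(isSS_of_pow_eq_one h0 h1).med_eq_of_charpoly_eq (B := M.map (algebraMap K F))
    (isSS_of_pow_eq_one h0 (by rw [map_pow', h7]; simp)) (by rw [charpoly_map, h3])]
  exact h.gc_map (IsUnit.of_pow_eq_one h7 hr)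

theorem IsSub.exists_pow_eq [Nonempty ι] {c z : F} (h : (c • M.map (algebraMap K F)) ^ r = z • 1) :
    ∃ m : K, z = c ^ r * algebraMap K F m := by
  obtain ⟨i⟩ := ‹Nonempty ι›
  rw [_root_.smul_pow, map_pow'] at h
  exact ⟨_, by simpa using (congrFun (congrFun h i) i).symm⟩

variable [Finite K] [Finite F]

theorem IsSub.exists_map [Nonempty ι] (h : IsSub K H) (hr : r.Prime) (hq : ¬ r ∣ Nat.card F - 1)
    {g : GL ι F} (hg : g ∈ H) (h1 : (g : Matrix ι ι F) ^ r = 1) :
    ∃ M : Matrix ι ι K, (g : Matrix ι ι F) = M.map (algebraMap K F) := by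
  obtain ⟨c, M, h2⟩ := (h g).1 hg
  obtain ⟨m, hm⟩ := IsSub.exists_pow_eq (r := r) (z := 1) (c := c) (M := M) (by simpa [h2] using h1)
  have hc : c ≠ 0 := by rintro rfl; simp [hr.ne_zero] at hm
  have h3 := congrArg (· ^ Nat.card K) hm
  simp only [mul_pow, (mem_range_iff _).1 ⟨m, rfl⟩, one_pow] at h3
  have h4 : (c ^ Nat.card K / c) ^ r = 1 := by
    rw [div_pow, ← pow_mul, mul_comm, pow_mul, div_eq_one_iff_eq (pow_ne_zero _ hc)]
    exact mul_right_cancel₀ (right_ne_zero_of_mul_eq_one hm.symm) (h3.symm.trans hm)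
  obtain ⟨d, rfl⟩ := (mem_range_iff (K := K) c).2 ((div_eq_one_iff_eq hc).1
    (eq_one_of_pow_eq_one_of_not_dvd hr hq h4))
  exact ⟨d • M, by rw [h2]; ext; simp⟩

theorem IsSub.map_eq (h : IsSub K H) {t : Multiset F} (h1 : GC H (lin t)) [Nonempty ι] :
    ∃ d : F, d ≠ 0 ∧ t.map (fun a => d * a ^ Nat.card K) = t := by
  obtain ⟨g, hg, h2⟩ := h1
  obtain ⟨c, M, h3⟩ := (h g).1 hg
  have hc : c ≠ 0 := by rintro rfl; simpa [h3] using g.det_ne_zero
  obtain ⟨φ, hφ⟩ := exists_frob K F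
  have h4 := med_smul_lin h2 (inv_ne_zero hc)
  rw [h3, inv_smul_smul₀ hc] at h4
  have h5 : (M.map (algebraMap K F)).charpoly.map φ = (M.map (algebraMap K F)).charpoly := by
    rw [charpoly_map, Polynomial.map_map]
    congr 1
    ext x
    exact (hφ _).trans ((mem_range_iff _).1 ⟨x, rfl⟩)
  rw [charpoly_eq_prod_med, h4, Polynomial.map_multiset_prod, Multiset.map_map] at h5
  simp only [Function.comp_def, Polynomial.map_sub, map_X, map_C] at h5
  have h6 := congrArg roots h5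
  rw [← Function.comp_def (fun a => X - C a) φ, ← Multiset.map_map, roots_multiset_prod_X_sub_C,
    roots_multiset_prod_X_sub_C] at h6
  refine ⟨c * c⁻¹ ^ Nat.card K, by simp [hc], ?_⟩
  simpa [hφ, hc, mul_pow, ← mul_assoc] using congrArg (Multiset.map (c * ·)) h6

theorem pow_card_inj {d : F} (hd : d ≠ 0) : Function.Injective fun a : F => d * a ^ Nat.card K := by
  obtain ⟨φ, hφ⟩ := exists_frob K F
  exact fun a b e => φ.injective (by rw [hφ, hφ]; exact mul_left_cancel₀ hd e)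

theorem dvd_of_pow_eq {ω : F} (h : IsPrimitiveRoot ω r) (hr : r ≠ 0) {q : ℕ} (hq : 0 < q)
    (e : ω ^ q = ω) : r ∣ q - 1 := (h.pow_eq_one_iff_dvd _).1 (mul_right_cancel₀ (h.ne_zero hr)
  (by rw [← pow_succ, Nat.sub_add_cancel hq, e, one_mul]))

theorem IsSub.not_rig [Nonempty ι] (h : IsSub K H) (hr : r ≠ 0) {t : Multiset F} (ht : Rig r t)
    (hq : ¬ r ∣ Nat.card K - 1) : ¬ GC H (lin t) := fun h1 => by
  obtain ⟨d, hd, h2⟩ := h.map_eq h1
  obtain ⟨a, ω, h4, h5, h6, h7⟩ := ht.2 _ (pow_card_inj hd) h2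
  rw [mul_pow, ← mul_assoc, h6] at h7
  exact hq (dvd_of_pow_eq h5 hr Nat.card_pos (mul_left_cancel₀ h4 h7))

theorem lifts_of_map_eq {t : Multiset F} (h : t.map (· ^ Nat.card K) = t) :
    (lin t).prod ∈ lifts (algebraMap K F) := by
  obtain ⟨φ, hφ⟩ := exists_frob K F
  have : (lin t).prod.map φ = (lin t).prod := by
    conv_rhs => rw [← h]
    simp [Polynomial.map_multiset_prod, hφ]
  exact (lifts_iff_coeff_lifts _).2 fun n => (mem_range_iff _).2 (by
    rw [← hφ, ← coeff_map, this])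

theorem natCast_ne_zero_of (h0 : (r : F) ≠ 0) : (r : K) ≠ 0 := fun e =>
  h0 (by rw [← map_natCast (algebraMap K F), e, map_zero])

theorem lifts_of_mem_cycF (h0 : (r : F) ≠ 0)
    (hi : orderOf (Nat.card F : ZMod r) = orderOf (Nat.card K : ZMod r)) {φ : F[X]}
    (hφ : φ ∈ cycF F r) : φ ∈ lifts (algebraMap K F) := by
  have h1 := natCast_ne_zero_of (K := K) h0
  obtain ⟨h2, h3, h4⟩ := (mem_cycF h0).1 hφ
  have h5 := (pord_eq_iff_dvd_cyclotomic h3 h0).1 h4
  rw [← map_cyclotomic r (algebraMap K F), ← prod_cycF h1, Polynomial.map_prod] at h5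
  obtain ⟨ψ, h6, h7⟩ := (h3.prime.dvd_finsetProd_iff _).1 h5
  exact ⟨ψ, eq_of_monic_of_dvd_of_natDegree_le h2 (((mem_cycF h1).1 h6).1.map _) h7 (by
    rw [coe_mapRingHom, natDegree_map, natDegree_of_mem_cycF h1 h6, natDegree_of_mem_cycF h0 hφ, hi])⟩

theorem IsSub.not_allG_cyc [Nonempty ι] (h : IsSub K H) (hr : r.Prime) (h0 : (r : F) ≠ 0)
    (hi : orderOf (Nat.card F : ZMod r) ≠ 1) (hn : orderOf (Nat.card F : ZMod r) ≤ Fintype.card ι)
    (hne : orderOf (Nat.card F : ZMod r) ≠ orderOf (Nat.card K : ZMod r)) : ¬ AllG H r := fun h1 => by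
  obtain ⟨A, φ, h2, h3, h4, h5⟩ := exists_po_cyc (ι := ι) hr h0 hi one_pos (by omega)
  obtain ⟨g, h6, h7⟩ := h1 A h3
  obtain ⟨M, h8⟩ := h.exists_map hr (mt (orderOf_eq_one_iff_dvd Nat.card_pos).2 hi) h6
    (by simpa using pow_eq_of_med (r := r) (z := 1) h7 (by simpa using h4))
  have h9 := charpoly_eq_prod_med (g : Matrix ι ι F)
  generalize Fintype.card ι - 1 * orderOf (Nat.card F : ZMod r) = N at h5
  rw [h7, h5, h8, charpoly_map, Multiset.prod_add, Multiset.prod_replicate, Multiset.prod_replicate,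
    pow_one] at h9
  obtain ⟨ψ, h10⟩ : (X - 1) ^ N ∣ M.charpoly := (map_dvd_map' (algebraMap K F)).1 (by simp [h9])
  have h11 : ψ.map (algebraMap K F) = φ := mul_left_cancel₀ (monic_X_sub_one.pow N).ne_zero (by
    rw [mul_comm _ φ, ← h9, h10]; simp)
  obtain ⟨h12, h13, h14⟩ := (mem_cycF h0).1 h2
  have h15 := natCast_ne_zero_of (K := K) h0
  have h16 : ψ.Monic := (monic_X_sub_one.pow N).of_mul_monic_left (h10 ▸ M.charpoly_monic)
  have h17 := h16.irreducible_of_irreducible_map (algebraMap K F) ψ (h11 ▸ h13)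
  have h18 : ψ ∈ cycF K r := (mem_cycF h15).2 ⟨h16, h17, (pord_eq_iff_dvd_cyclotomic h17 h15).2
    ((map_dvd_map' (algebraMap K F)).1 (by
      rw [h11, map_cyclotomic]; exact (pord_eq_iff_dvd_cyclotomic h13 h0).1 h14))⟩
  exact hne (by rw [← natDegree_of_mem_cycF h0 h2, ← natDegree_of_mem_cycF h15 h18, ← h11,
    natDegree_map])

theorem pow_sub_one_eq {x : ℕ} (hx : 0 < x) (k : ℕ) :
    x ^ k - 1 = (x - 1) * ∑ l ∈ Finset.range k, x ^ l := by
  obtain ⟨y, rfl⟩ : ∃ y, x = y + 1 := ⟨x - 1, by omega⟩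
  rw [← geom_sum_mul_add y k, Nat.add_sub_cancel, Nat.add_sub_cancel, mul_comm]

theorem IsSub.eq_or {n : ℕ} {H : Subgroup (GL (Fin n) F)} (h : IsSub K H) (hk : k.Prime)
    (hq : Nat.card F = Nat.card K ^ k) (hr : r.Prime) (h0 : (r : F) ≠ 0)
    (hΩ : r ∣ (H.comap (SpecialLinearGroup.toGL : SpecialLinearGroup (Fin n) F →* _)).index) :
    r = k ∨ ∃ j, 2 ≤ j ∧ j ≤ n ∧ (Nat.card K : ZMod r) ^ j ≠ 1 ∧ (Nat.card F : ZMod r) ^ j = 1 := by
  have := Fintype.ofFinite K
  have := Fintype.ofFinite F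
  have := Fact.mk hr
  have h1 := index_mul_dvd_sl (H := H) (SpecialLinearGroup.map (algebraMap K F))
    (fun a b e => Subtype.ext (map_injective (algebraMap K F).injective (congrArg Subtype.val e)))
    fun g => (h _).2 ⟨1, g, by simp⟩
  have h2 : Nat.card (SpecialLinearGroup (Fin n) F) = Nat.card (SpecialLinearGroup (Fin n) K) *
      (Nat.card K ^ ((k - 1) * (n * (n - 1) / 2)) * ∏ i ∈ Finset.range (n - 1),
        ∑ l ∈ Finset.range k, (Nat.card K ^ (i + 2)) ^ l) := by
    rw [H57.card_sl_fin_eq, H57.card_sl_fin_eq, ← Nat.card_eq_fintype_card,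
      ← Nat.card_eq_fintype_card, hq, mul_mul_mul_comm, ← pow_add, ← pow_mul,
      ← Finset.prod_mul_distrib]
    congr 1
    · rw [← one_add_mul, Nat.add_sub_cancel' hk.one_le]
    · exact Finset.prod_congr rfl fun i _ => by
        rw [← pow_mul, mul_comm k, pow_mul, pow_sub_one_eq (pow_pos Nat.card_pos _)]
  rw [h2] at h1
  rcases (Nat.Prime.dvd_mul hr).1 (hΩ.trans (dvd_of_mul_dvd_mul Nat.card_pos h1)) with h3 | h3
  · exact (not_dvd_card_of_ne_zero hr (natCast_ne_zero_of (K := K) h0) (hr.dvd_of_dvd_pow h3)).elim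
  obtain ⟨i, h4, h5⟩ := (hr.prime.dvd_finsetProd_iff _).1 h3
  by_cases h6 : (Nat.card K : ZMod r) ^ (i + 2) = 1
  · have := (ZMod.natCast_eq_zero_iff _ _).2 h5
    simp only [Nat.cast_sum, Nat.cast_pow, h6, one_pow, Finset.sum_const, Finset.card_range,
      nsmul_eq_mul, mul_one, ZMod.natCast_eq_zero_iff] at this
    exact .inl ((Nat.prime_dvd_prime_iff_eq hr hk).1 this)
  refine .inr ⟨i + 2, by omega, by have := Finset.mem_range.1 h4; omega, h6,
    orderOf_dvd_iff_pow_eq_one.1 ((orderOf_zmod_dvd_iff Nat.card_pos _).2 ?_)⟩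
  rw [hq, ← pow_mul, mul_comm k, pow_mul, pow_sub_one_eq (pow_pos Nat.card_pos _)]
  exact h5.mul_left _

theorem isSquare_iff' (h2 : (2 : F) ≠ 0) {a : F} (ha : a ≠ 0) :
    IsSquare a ↔ a ^ (Nat.card F / 2) = 1 := by
  have := Fintype.ofFinite F
  rw [Nat.card_eq_fintype_card]
  exact FiniteField.isSquare_iff (mt neg_one_eq_one_iff.2 fun e => h2 (by linear_combination -e)) ha

theorem isSquare_map (h2 : (2 : F) ≠ 0) (hq : Nat.card F = Nat.card K ^ 2) (m : K) :
    IsSquare (algebraMap K F m) := by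
  rcases eq_or_ne m 0 with rfl | hm
  · simp
  obtain ⟨t, ht⟩ := odd_card_iff.2 (natCast_ne_zero_of (K := K) (r := 2) (by simpa using h2))
  have hm' := (map_ne_zero (algebraMap K F)).2 hm
  have h3 : algebraMap K F m ^ (2 * t) = 1 := mul_right_cancel₀ hm' (by
    rw [← pow_succ, ← ht, one_mul]; exact (mem_range_iff _).1 ⟨m, rfl⟩)
  rw [isSquare_iff' h2 hm', hq, show Nat.card K ^ 2 / 2 = 2 * t * (t + 1) by
    rw [ht]; ring_nf; omega, pow_mul, h3, one_pow]

theorem sub_two {n : ℕ} {H : Subgroup (GL (Fin n) F)} (h : IsSub K H) (hn : 0 < n) (hk : k.Prime)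
    (hq : Nat.card F = Nat.card K ^ k)
    (hΩ : 2 ∣ (H.comap (SpecialLinearGroup.toGL : SpecialLinearGroup (Fin n) F →* _)).index) :
    AllG H 2 ↔ (Odd (Nat.card F) → k = 2 ∧ padicValNat 2 n ≤ padicValNat 2 (Nat.card F - 1)) := by
  have : Nonempty (Fin n) := ⟨⟨0, hn⟩⟩
  by_cases h2 : (2 : F) = 0
  · have : CharP F 2 := CharTwo.of_one_ne_zero_of_two_eq_zero one_ne_zero h2
    exact iff_of_true (allG_char 2 h.scalars_le fun μ h4 h5 _ => h.gc_up (fun k hk => (h4 k hk).1) h5)
      fun e => (odd_card_iff.1 e h2).elim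
  have h3 := odd_card_iff.2 (natCast_ne_zero_of (K := K) (r := 2) (by simpa using h2))
  obtain rfl : 2 = k := (h.eq_or hk hq Nat.prime_two (by simpa using h2) hΩ).resolve_right
    fun ⟨j, _, _, h4, _⟩ => h4 (by rw [ZMod.natCast_eq_one_iff_odd.2 h3, one_pow])
  obtain ⟨t, ht⟩ := h3
  have h4 : Nat.card F = 4 * (t * t + t) + 1 := by rw [hq, ht]; ring
  rw [allG_two_iff h2 h.scalars_le, and_iff_right fun a b _ _ h5 _ => ?_,
    npc_iff Nat.prime_two fun g h5 z h6 => ?_, not_exLin_iff (by omega) (by simpa using hn.ne')]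
  · simp only [odd_card_iff.2 h2, true_and, forall_const, Fintype.card_fin, and_iff_left_iff_imp]
    omega
  · obtain ⟨c, M, h7⟩ := (h g).1 h5
    obtain ⟨m, rfl⟩ := IsSub.exists_pow_eq (h7 ▸ h6)
    obtain ⟨b, hb⟩ := isSquare_map h2 hq m
    exact ⟨c * b, by rw [hb]; ring⟩
  · obtain ⟨A, hA⟩ := exists_lin (ι := Fin n) (t := two F a b) (by simpa using h5)
    refine hA ▸ h.gc_of_lifts (r := 2) (by simpa using h2) (by
      simpa using (pow_lin hA (z := 1)).2 (by simp +contextual [Multiset.mem_replicate, or_imp])) ?_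
    rw [charpoly_eq_prod_med, hA]
    exact lifts_of_map_eq (by simp [ht, pow_succ])

theorem sub_odd {n : ℕ} {H : Subgroup (GL (Fin n) F)} (h : IsSub K H) (hn : 2 ≤ n) (hk : k.Prime)
    (hq : Nat.card F = Nat.card K ^ k) [hr : Fact r.Prime] (h2 : r ≠ 2) (h0 : (r : F) ≠ 0)
    (h6 : ¬ (n = 6 ∧ r = 3))
    (hg : r = k → r ∣ Nat.card K - 1 → padicValNat r n ≤ padicValNat r (Nat.card F - 1))
    (hΩ : r ∣ (H.comap (SpecialLinearGroup.toGL : SpecialLinearGroup (Fin n) F →* _)).index) :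
    AllG H r ↔ (r = k ∨ (k = 2 ∧ r = n ∧ (n = 3 ∨ n = 5) ∧ padicValNat r (Nat.card K + 1) = 1)) := by
  have : Nonempty (Fin n) := ⟨⟨0, by omega⟩⟩
  have hK : 1 < Nat.card K := Finite.one_lt_card
  have hv : ¬ r ∣ Nat.card K - 1 → k = 2 →
      padicValNat r (Nat.card F - 1) = padicValNat r (Nat.card K + 1) := by
    rintro h3 rfl
    rw [hq, show Nat.card K ^ 2 - 1 = (Nat.card K + 1) * (Nat.card K - 1) by
      simpa using Nat.sq_sub_sq _ 1, padicValNat.mul (by omega) (by omega),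
      padicValNat.eq_zero_of_not_dvd h3, add_zero]
  refine ⟨fun h1 => (h.eq_or hk hq hr.out h0 hΩ).imp_right ?_, fun h1 => ?_⟩
  · rintro ⟨j, h3, h4, h5, h7⟩
    have h8 := orderOf_dvd_of_pow_eq_one h7
    have h9 : ¬ r ∣ Nat.card K - 1 := fun e => h5 (by
      rw [orderOf_eq_one_iff.1 ((orderOf_eq_one_iff_dvd Nat.card_pos).2 e), one_pow])
    by_cases hi : orderOf (Nat.card F : ZMod r) = 1
    swap
    · exact (h.not_allG_cyc hr.out h0 hi (by simpa using (Nat.le_of_dvd (by omega) h8).trans h4)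
        (fun e => h5 (orderOf_dvd_iff_pow_eq_one.1 (e ▸ h8))) h1).elim
    have h10 := (orderOf_eq_one_iff_dvd Nat.card_pos).1 hi
    by_cases h11 : n = 2
    · exfalso
      obtain ⟨ζ, hζ⟩ := exists_prim_of_dvd h10
      have h12 := hζ.ne_zero hr.out.ne_zero
      have h13 : ∀ m : ℕ, (ζ ^ m) ^ 2 = 1 → r ∣ m := fun m e =>
        (Nat.Coprime.dvd_mul_right ((Nat.coprime_primes hr.out Nat.prime_two).2 h2)).1
          ((hζ.pow_eq_one_iff_dvd _).1 (by rw [pow_mul, e]))
      obtain ⟨A, h14, h15⟩ := exists_po_lin (ι := Fin n) (r := r) (t := {ζ, ζ⁻¹}) (z := 1)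
        (by simp [h11]) (by simp [h12]) (by simp [hζ.pow_eq_one]) (a := ζ) (b := ζ⁻¹) (by simp) (by simp)
        fun e => hr.out.ne_one (Nat.dvd_one.1 (h13 1 (by rw [pow_one, sq]; nth_rw 2 [e]; simp [h12])))
      obtain ⟨d, hd, h16⟩ := h.map_eq (h15 ▸ h1 A h14)
      have h17 : d ^ 2 = 1 := by
        have := congrArg Multiset.prod h16
        simp only [Multiset.insert_eq_cons, Multiset.map_cons, Multiset.map_singleton,
          Multiset.prod_cons, Multiset.prod_singleton, inv_pow] at this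
        field_simp at this
        exact this
      have h18 : d * ζ ^ Nat.card K ∈ ({ζ, ζ⁻¹} : Multiset F) :=
        h16 ▸ Multiset.mem_map_of_mem _ (by simp)
      obtain rfl : j = 2 := by omega
      refine h5 (orderOf_dvd_iff_pow_eq_one.1 ((orderOf_zmod_dvd_iff Nat.card_pos _).2 ?_))
      rw [show Nat.card K ^ 2 - 1 = (Nat.card K + 1) * (Nat.card K - 1) by
        simpa using Nat.sq_sub_sq _ 1]
      obtain ⟨m, hm⟩ : ∃ m, Nat.card K = m + 1 := ⟨Nat.card K - 1, by omega⟩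
      simp only [Multiset.insert_eq_cons, Multiset.mem_cons, Multiset.mem_singleton] at h18
      rcases h18 with e | e
      · refine (h13 _ ?_).mul_left _
        rw [hm, pow_succ, ← mul_assoc, mul_eq_right₀ h12] at e
        have := congrArg (· ^ 2) e
        simpa only [hm, Nat.add_sub_cancel, mul_pow, h17, one_mul, one_pow] using this
      · refine (h13 _ ?_).mul_right _
        have e' : d * ζ ^ (Nat.card K + 1) = 1 := by
          rw [pow_succ ζ, ← mul_assoc, e, inv_mul_cancel₀ h12]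
        have := congrArg (· ^ 2) e'
        simpa only [mul_pow, h17, one_mul, one_pow] using this
    by_contra hx
    obtain ⟨A, t, h12, h13, h14⟩ := exists_rig (ι := Fin n) hr.out h2 h10 (by simp; omega)
      (by simpa using h6) fun ⟨h35, h12, h13⟩ => hx (by
        have h14 : orderOf (Nat.card K : ZMod r) = k := ((Nat.dvd_prime hk).1
          (orderOf_dvd_of_pow_eq_one (by rw [← Nat.cast_pow, ← hq, orderOf_eq_one_iff.1 hi]))).resolve_left
            (mt (orderOf_eq_one_iff_dvd Nat.card_pos).1 h9)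
        have h15 := ZMod.orderOf_dvd_card_sub_one (p := r) (a := Nat.card K) fun e =>
          not_dvd_card_of_ne_zero hr.out (natCast_ne_zero_of (K := K) h0)
            ((ZMod.natCast_eq_zero_iff _ _).1 e)
        have h16 : k = 2 := (Nat.prime_dvd_prime_iff_eq hk Nat.prime_two).1 (hk.dvd_of_dvd_pow (n := 2)
          ((h14 ▸ h15).trans (by rcases h35 with rfl | rfl <;> decide)))
        rw [Fintype.card_fin] at h12
        exact ⟨h16, h12.symm, h12 ▸ h35, hv h9 h16 ▸ h13⟩)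
    exact h.not_rig hr.out.ne_zero h14 h9 (h13 ▸ h1 A h12)
  rcases h1 with rfl | ⟨rfl, rfl, h35, h3⟩
  · have h3 : (Nat.card F : ZMod r) = Nat.card K := by rw [hq, Nat.cast_pow, ZMod.pow_card]
    refine (allG_iff hr.out h.scalars_le).2 ⟨fun c A h4 _ _ => h.gc_of_lifts h0 h4 ?_,
      fun z A h4 h5 h7 => ?_⟩
    · rw [charpoly_eq_prod_med]
      refine Subsemiring.multiset_prod_mem _ _ fun P hP => ?_
      rcases (pow_prime_eq_one_iff_med hr.out h0 A).1 h4 P hP with rfl | h5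
      · exact ⟨X - 1, by simp⟩
      · exact lifts_of_mem_cycF h0 (by rw [h3]) h5
    · have h8 : r ∣ Nat.card F - 1 := by_contra fun e =>
        (exists_pow_eq_of_not_dvd hr.out e z).elim h4
      refine (((not_exLin_iff h8 Fintype.card_ne_zero).2 ⟨?_, fun e => (h2 e).elim⟩)
        (h5.exLin hr.out h4 h7)).elim
      simpa using hg rfl ((orderOf_eq_one_iff_dvd Nat.card_pos).1
        (h3 ▸ (orderOf_eq_one_iff_dvd Nat.card_pos).2 h8))
  · have h4 := dvd_of_one_le_padicValNat h3.ge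
    have h5 : ¬ r ∣ Nat.card K - 1 := fun e => h2 ((Nat.prime_dvd_prime_iff_eq hr.out
      Nat.prime_two).1 ((show Nat.card K + 1 - (Nat.card K - 1) = 2 by omega) ▸ Nat.dvd_sub h4 e))
    intro A hA
    obtain ⟨c, t, hc, h7, h8, h9⟩ := hA.symm h35 (by simp) (hv h5 rfl ▸ h3)
    refine GC.of_smul h.scalars_le hc (h.gc_of_lifts h0 (by simpa using (pow_lin h9).2 h7) ?_)
    rw [charpoly_eq_prod_med, h9]
    refine lifts_of_map_eq ((Multiset.map_congr rfl fun a ha => ?_).trans h8)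
    obtain ⟨m, hm⟩ := h4
    exact eq_inv_of_mul_eq_one_left (by rw [← pow_succ, hm, pow_mul, h7 a ha, one_pow])

/-! ### Elements of order three in characteristic three -/

theorem exists_nonsquare (h2 : (2 : F) ≠ 0) (hk : Odd k) (hq : Nat.card F = Nat.card K ^ k) :
    ∃ m : K, ¬ IsSquare (algebraMap K F m) := by
  have h3 : (2 : K) ≠ 0 := by simpa using natCast_ne_zero_of (K := K) (r := 2) (by simpa using h2)
  have := Fintype.ofFinite K
  obtain ⟨m, hm⟩ := FiniteField.exists_nonsquare (F := K)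
    (mt neg_one_eq_one_iff.2 fun e => h3 (by linear_combination -e))
  have h0 : m ≠ 0 := by rintro rfl; simp at hm
  obtain ⟨t, ht⟩ := odd_card_iff.2 h3
  have h4 : m ^ t = -1 := by
    refine (sq_eq_one_iff.1 (mul_right_cancel₀ h0 ?_)).resolve_left fun e => hm ?_
    · rw [← pow_mul, ← pow_succ, mul_comm, ← ht, Nat.card_eq_fintype_card, FiniteField.pow_card,
        one_mul]
    · rwa [isSquare_iff' h3 h0, ht, show (2 * t + 1) / 2 = t by omega]
  have h5 := pow_sub_one_eq (x := Nat.card K) Nat.card_pos k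
  have h6 : Odd (∑ l ∈ Finset.range k, Nat.card K ^ l) := by
    rw [← ZMod.natCast_eq_one_iff_odd] at hk ⊢
    simp only [Nat.cast_sum, Nat.cast_pow, ZMod.natCast_eq_one_iff_odd.2 (odd_card_iff.2 h3)]
    simpa using hk
  refine ⟨m, fun h => h2 ?_⟩
  have h7 : 0 < Nat.card F := Nat.card_pos
  rw [isSquare_iff' h2 ((_root_.map_ne_zero _).2 h0), show Nat.card F / 2 =
    t * ∑ l ∈ Finset.range k, Nat.card K ^ l by
      rw [← hq, ht, Nat.add_sub_cancel, mul_assoc, ← ht] at h5; omega, pow_mul, ← map_pow, h4,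
    map_neg, map_one, h6.neg_one_pow] at h
  linear_combination -h

theorem isSquare_mul (h2 : (2 : F) ≠ 0) {a b : F} (ha : ¬ IsSquare a) (hb : ¬ IsSquare b) :
    IsSquare (a * b) := by
  have := Fintype.ofFinite F
  have h0 : ∀ {x : F}, ¬ IsSquare x → x ≠ 0 := by rintro x h rfl; simp at h
  have h3 := mt neg_one_eq_one_iff.2 fun e : (-1 : F) = 1 => h2 (by linear_combination -e)
  rw [FiniteField.isSquare_iff h3 (mul_ne_zero (h0 ha) (h0 hb)), mul_pow,
    (FiniteField.pow_dichotomy h3 (h0 ha)).resolve_left (mt (FiniteField.isSquare_iff h3 (h0 ha)).2 ha),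
    (FiniteField.pow_dichotomy h3 (h0 hb)).resolve_left (mt (FiniteField.isSquare_iff h3 (h0 hb)).2 hb)]
  simp

/-- the unipotent matrix with blocks of size two -/
def U2 (K : Type*) [Field K] {m : ℕ} (e : Fin m ⊕ Fin m ≃ ι) : Matrix ι ι K :=
  reindex e e (fromBlocks 1 1 0 1)

theorem isSquare_det {m : ℕ} (e : Fin m ⊕ Fin m ≃ ι) {B : Matrix ι ι F}
    (h : B * U2 F e = U2 F e * B) : IsSquare B.det := by
  obtain ⟨B, rfl⟩ := (reindex e e).surjective B
  simp only [U2, reindex_apply, submatrix_mul_equiv] at h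
  replace h : B * fromBlocks 1 1 0 1 = fromBlocks 1 1 0 1 * B := (reindex e e).injective h
  rw [← fromBlocks_toBlocks B] at h ⊢
  simp only [fromBlocks_multiply, fromBlocks_inj, Matrix.mul_one, Matrix.one_mul, Matrix.mul_zero,
    Matrix.zero_mul, add_zero, zero_add, left_eq_add] at h
  rw [det_reindex_self, h.1, det_fromBlocks_zero₂₁, add_right_cancel (h.2.1.trans (add_comm _ _))]
  exact IsSquare.mul_self _

theorem sub_three [CharP F 3] (h : IsSub K H) (hn : 0 < Fintype.card ι) (hk : k.Prime)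
    (hq : Nat.card F = Nat.card K ^ k) : AllS H 3 ↔ Odd (Fintype.card ι) ∨ 2 < k := by
  have : Nonempty ι := Fintype.card_pos_iff.1 hn
  have := Fact.mk Nat.prime_three
  have h2 : (2 : F) ≠ 0 := (two_ne_iff 3).2 (by decide)
  have h3 := not_dvd_pow_sub_one Nat.prime_three (char_dvd_card (F := F) 3) Nat.card_pos one_pos
  rw [pow_one] at h3
  refine ⟨fun h1 => by_contra fun h4 => ?_, fun h1 x h4 h5 => ?_⟩
  · obtain rfl : k = 2 := by have := hk.two_le; omega
    obtain ⟨m, hm⟩ := Nat.not_odd_iff_even.1 (not_or.1 h4).1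
    let e : Fin m ⊕ Fin m ≃ ι := Fintype.equivOfCardEq (by simp [hm])
    have h5 : (U2 K e).map (algebraMap K F) = U2 F e := by
      simp [U2, ← submatrix_map, fromBlocks_map]
    have := Fintype.ofFinite F
    obtain ⟨d, hd⟩ := FiniteField.exists_nonsquare (F := F)
      (mt neg_one_eq_one_iff.2 fun e => h2 (by linear_combination -e))
    obtain ⟨D, hD⟩ := gl_det_surjective (n := ι) (Units.mk0 d (by rintro rfl; simp at hd))
    have h6 : IsConj (U2 F e) (D * U2 F e * (D⁻¹ : GL ι F)) := isConj_matrix_iff.2 ⟨D, rfl⟩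
    have h7 : U2 F e ^ 3 = 1 := by
      have : (1 + (1 + 1) : Matrix (Fin m) (Fin m) F) = 0 := by
        rw [← zero_smul F 1, ← CharP.cast_eq_zero F 3, Nat.cast_smul_eq_nsmul]; norm_num
      simp [U2, pow_succ, fromBlocks_multiply, this]
    have h8 : ∀ z : F, U2 F e ≠ z • 1 := fun z h8 => by
      have i : Fin m := ⟨0, by omega⟩
      simpa [U2] using congrFun (congrFun h8 (e (.inl i))) (e (.inr i))
    have h9 := ((isConj_iff_med_eq _ _).1 h6).symm
    obtain ⟨x, hx⟩ := exists_sl (A := D.1 * U2 F e * (D⁻¹).1) (by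
      rw [det_units_conj]; simp [U2])
    have h10 : (x : Matrix ι ι F) ^ 3 = (1 : F) • 1 := hx ▸ pow_eq_of_med h9 (by simpa using h7)
    obtain ⟨P, hP⟩ := h1 x ⟨1, h10⟩ (hx ▸ ne_of_med h9 h8)
    have h11 : IsConj x (P⁻¹ * x * P) := isConj_iff.2 ⟨P⁻¹, by rw [inv_inv]⟩
    have h12 := h6.trans (hx ▸ isConj_coe_of_isConj_sl h11)
    obtain ⟨M, hM⟩ := h.exists_map Nat.prime_three h3 (Subgroup.mem_comap.1 hP) (by
      rw [SpecialLinearGroup.coe_GL_coe_matrix, ← one_smul F (1 : Matrix ι ι F)]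
      exact pow_eq_of_med ((isConj_iff_med_eq _ _).1 h12).symm (by rw [h7, one_smul]))
    rw [SpecialLinearGroup.coe_GL_coe_matrix] at hM
    obtain ⟨g, hg⟩ := isConj_matrix_iff.1 (isConj_of_map (F := F) (M := U2 K e) (N := M)
      (by rwa [h5, ← hM]))
    let g' := GeneralLinearGroup.map (algebraMap K F) g
    have h13 : (g' : Matrix ι ι F) * U2 F e * (g'⁻¹ : GL ι F) =
        (SpecialLinearGroup.toGL P)⁻¹.1 * (D * U2 F e * D⁻¹.1) * (SpecialLinearGroup.toGL P).1 := by
      rw [← hx, ← map_inv]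
      refine Eq.trans ?_ hM.symm
      rw [← hg, ← h5, Matrix.map_mul, Matrix.map_mul]; rfl
    have h17 : (SpecialLinearGroup.toGL P).1.det = 1 := P.det_coe
    generalize SpecialLinearGroup.toGL P = P' at h13 h17
    have h14 := isSquare_det e (B := (D⁻¹ * P' * g').1) (by
      rw [Units.mul_inv_eq_iff_eq_mul] at h13
      simp only [Units.val_mul, mul_assoc, h13, Units.mul_inv_cancel_left, Units.inv_mul_cancel_left])
    have h15 : (g' : Matrix ι ι F).det = algebraMap K F (g : Matrix ι ι K).det :=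
      (RingHom.map_det _ _).symm
    have h16 : (D : Matrix ι ι F).det = d := congrArg Units.val hD
    simp only [Units.val_mul, det_mul, coe_units_inv, det_nonsing_inv, h15, h16, h17, mul_one,
      Ring.inverse_eq_inv'] at h14
    have := (isSquare_map h2 hq (g : Matrix ι ι K).det).mul h14.inv
    rw [mul_inv, inv_inv, mul_left_comm, mul_inv_cancel₀ ((_root_.map_ne_zero _).2 g.det_ne_zero),
      mul_one] at this
    exact hd this
  · have hx : Po 3 (x : Matrix ι ι F) := ⟨x.det_coe, h4, h5⟩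
    refine exists_mem_of_gc (allG_char 3 h.scalars_le
      (fun μ h4 h5 _ => h.gc_up (fun k hk => (h4 k hk).1) h5) _ hx) fun d => ?_
    obtain ⟨c, B, hc, h6, h7, h8⟩ := exists_unip 3 hx
    rw [h6, detC_smul c hc]
    by_cases h9 : ∃ j ∈ mjt B, Odd j
    · obtain ⟨j, h9, h10⟩ := h9
      refine ⟨1, H.one_mem, ?_⟩
      rw [eq_top_of_pow_mem_of_coprime_card (pow_mem_detC_of_mjt h7 h9) ?_]
      · trivial
      obtain ⟨h11, h12⟩ := h8 j h9
      rw [Nat.card_units]
      interval_cases j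
      · simp
      · exact absurd h10 (by decide)
      · exact (Nat.Prime.coprime_iff_not_dvd Nat.prime_three).2 h3
    have h10 : ∀ j ∈ mjt B, j = 2 := fun j hj => by
      have := h8 j hj
      have := Nat.odd_iff.not.1 fun e => h9 ⟨j, hj, e⟩
      omega
    have h11 := sum_mjt B
    rw [Multiset.eq_replicate_of_mem h10, Multiset.sum_replicate, smul_eq_mul] at h11
    have h12 : ∀ u : Fˣ, IsSquare (u : F) → u ∈ detC B := fun u ⟨b, hb⟩ => by
      obtain ⟨j, hj⟩ := Multiset.card_pos_iff_exists_mem.1 (show 0 < (mjt B).card by omega)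
      have hb0 : b ≠ 0 := by rintro rfl; simp at hb
      have := pow_mem_detC_of_mjt h7 hj (Units.mk0 b hb0)
      rwa [h10 j hj, show Units.mk0 b hb0 ^ 2 = u from Units.ext (by simp [hb, sq])] at this
    by_cases h13 : IsSquare (d : F)
    · exact ⟨1, H.one_mem, by simpa using h12 d h13⟩
    obtain ⟨m, hm⟩ := exists_nonsquare (K := K) h2 (hk.odd_of_ne_two (by
      rw [Nat.odd_iff] at h1; omega)) hq
    obtain ⟨g, hg⟩ := gl_det_surjective (n := ι) (Units.mk0 m (by rintro rfl; simp at hm))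
    refine ⟨GeneralLinearGroup.map (algebraMap K F) g, (h _).2 ⟨1, g, by simp⟩, h12 _ ?_⟩
    have h14 : (g : Matrix ι ι K).det = m := congrArg Units.val hg
    rw [Units.val_mul, show ((GeneralLinearGroup.det (GeneralLinearGroup.map (algebraMap K F) g) :
      Fˣ) : F) = _ from (RingHom.map_det _ _).symm, h14]
    exact isSquare_mul h2 h13 hm

end H71.El
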