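import Cfsg.Agent.H71.El4
import Cfsg.Agent.H62.C3Mat

/-!
Elements of prime order of `PSL_n(q)` and normalisers of extension fields of prime degree.
-/

set_option autoImplicit false
set_option maxHeartbeats 400000
set_option linter.unusedSectionVars false
open Polynomial Module Matrix H53 H58 Cfsg.Geo

namespace H71.El

variable {F K : Type*} [Field F] [Field K] [Algebra F K]

theorem kds_X_sub_C {s : Multiset F[X]} (hs : ∀ P ∈ s, IsPP P) (a : F)
    [DecidablePred fun P : F[X] => P.IsRoot a] :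
    kds s (X - C a) = s.countP (·.IsRoot a) := by
  induction s using Multiset.induction_on with
  | empty => simp [kds_zero]
  | cons P s ih =>
    have h0 : P ≠ 0 := by
      obtain ⟨h1, -, -, h2⟩ := (hs P (by simp)).spec
      exact h2 ▸ (h1.pow _).ne_zero
    rw [kds_cons, ih fun Q hQ => hs Q (by simp [hQ]), Multiset.countP_cons, add_comm]
    split_ifs with h
    · rw [kd_cyc_of_dvd' h0 (dvd_iff_isRoot.2 h), natDegree_X_sub_C]
    · rw [kd_cyc_of_isCoprime h0
        (((irreducible_X_sub_C a).coprime_iff_not_dvd.2 (mt dvd_iff_isRoot.1 h)).symm)]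

section End
variable {V W : Type*} [AddCommGroup V] [Module F V] [Module K V] [IsScalarTower F K V]
  [FiniteDimensional F V] [AddCommGroup W] [Module F W] [Module K W] [IsScalarTower F K W]
  [FiniteDimensional F W] {f : End F V}

variable (K) in
/-- `f` is semilinear over `K` -/
def NK (f : End F V) : Prop := ∀ k : K, ∃ k' : K, ∀ v, f (k • v) = k' • f v

theorem NK.kd (hk : (finrank F K).Prime) (h : NK K f) {a : F} (ha : a ≠ 0) :
    finrank F K ∣ kd f (X - C a) ∨ 2 * kd f (X - C a) ≤ finrank F V := by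
  have hE : ∀ v, v ∈ LinearMap.ker (aeval f (X - C a)) ↔ f v = a • v := fun v => by
    simp [sub_eq_zero]
  let S : Subalgebra F K :=
    { carrier := {k | ∀ v, f (k • v) = k • f v}
      mul_mem' := fun {x y} hx hy v => by rw [mul_smul, hx, hy, mul_smul]
      add_mem' := fun {x y} hx hy v => by rw [add_smul, map_add, hx, hy, add_smul]
      algebraMap_mem' := fun c v => by simp }
  rcases (Subalgebra.isSimpleOrder_of_finrank_prime F K hk).eq_bot_or_eq_top S with h1 | h1
  · obtain ⟨k, hk1⟩ : ∃ k, k ∉ S := by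
      by_contra! h2
      exact hk.ne_one (Subalgebra.bot_eq_top_iff_finrank_eq_one.1 (h1 ▸ eq_top_iff.2 fun x _ => h2 x))
    obtain ⟨k', hk'⟩ := h k
    have h2 : k - k' ≠ 0 := fun e => hk1 (sub_eq_zero.1 e ▸ hk')
    have h3 : k ≠ 0 := fun e => hk1 (e ▸ S.zero_mem)
    let u : V ≃ₗ[F] V := (LinearEquiv.smulOfNeZero K V k h3).restrictScalars F
    have h4 : Disjoint (LinearMap.ker (aeval f (X - C a)))
        ((LinearMap.ker (aeval f (X - C a))).map u.toLinearMap) := by
      rw [Submodule.disjoint_def]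
      rintro _ h4 ⟨w, h5, rfl⟩
      have h6 : f (k • w) = a • k • w := (hE _).1 h4
      rw [hk', (hE _).1 h5, smul_comm a, ← sub_eq_zero, ← sub_smul, smul_eq_zero, smul_eq_zero] at h6
      obtain rfl : w = 0 := (h6.resolve_left fun e => h2 (by rw [← neg_sub, e, neg_zero])).resolve_left ha
      exact map_zero _
    have h5 := finrank_sup_of_disjoint h4
    rw [LinearEquiv.finrank_map_eq] at h5
    exact .inr (by rw [two_mul, H53.kd, ← h5]; exact Submodule.finrank_le _)
  · let E : Submodule K V :=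
      { carrier := LinearMap.ker (aeval f (X - C a))
        add_mem' := add_mem
        zero_mem' := zero_mem _
        smul_mem' := fun k v hv => (hE _).2 (by
          rw [(h1 ▸ Algebra.mem_top : k ∈ S) v, (hE _).1 hv, smul_comm]) }
    exact .inl ⟨finrank K E, (Module.finrank_mul_finrank F K E).symm⟩

theorem NK.exists_conj [FiniteDimensional F K] (h : NK K f) (hd : finrank F V = finrank F W) :
    ∃ g : End F W, NK K g ∧ Sim f g := by
  have := Module.Finite.of_restrictScalars_finite F K V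
  have := Module.Finite.of_restrictScalars_finite F K W
  rw [← Module.finrank_mul_finrank F K V, ← Module.finrank_mul_finrank F K W] at hd
  let e := LinearEquiv.ofFinrankEq V W (Nat.eq_of_mul_eq_mul_left finrank_pos hd)
  refine ⟨_, fun k => (h k).imp fun k' hk v => ?_, sim_conj (e.restrictScalars F) f⟩
  simp [LinearEquiv.conj_apply, hk]

end End

variable {ι : Type} [Fintype ι] [DecidableEq ι] {H : Subgroup (GL ι F)} {r k : ℕ}
  {A : Matrix ι ι F}

theorem exists_c3.{u} {F : Type u} [Field F] [Finite F] [Nonempty ι]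
    {K : Subalgebra F (Matrix ι ι F)} (hK : IsFieldSubalgebra k K) :
    ∃ (K' : Type u) (_ : Field K') (_ : Algebra F K') (_ : Module K' (ι → F))
      (_ : IsScalarTower F K' (ι → F)) (_ : Finite K'), finrank F K' = k ∧
      ∀ g : GL ι F, g ∈ subalgebraNormalizer K ↔ NK K' (toLin' (g : Matrix ι ι F)) := by
  obtain ⟨K', _, _, _, _, _, h1, h2, h3⟩ := H62.exists_field_model hK
  exact ⟨K', _, _, _, ‹_›, ‹_›, h1, H62.mem_subalgebraNormalizer_iff h2 h3⟩

theorem toLin'_pow_one {F : Type*} [Field F] {A : Matrix ι ι F} (h : A ^ r = 1) :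
    (toLin' A : End F (ι → F)) ^ r = 1 :=
  (toLin'_pow_eq (c := 1) (by simpa using h)).trans (one_smul _ _)

variable [Module K (ι → F)] [IsScalarTower F K (ι → F)] [Finite F] [Finite K]
  (hH : ∀ g : GL ι F, g ∈ H ↔ NK K (toLin' (g : Matrix ι ι F)))
include hH

theorem c3_scalars_le : scalars ι F ≤ H := fun g hg => by
  obtain ⟨c, hc⟩ := (mem_scalars_iff g).1 hg
  exact (hH g).2 fun k => ⟨k, fun v => by simp [hc, smul_comm k]⟩

theorem c3_gc {W : Type*} [AddCommGroup W] [Module F W] [Module K W] [IsScalarTower F K W]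
    [FiniteDimensional F W] {f : End F W} (hu : IsUnit f) (h : NK K f)
    (hd : finrank F W = Fintype.card ι) : GC H (ed f) := by
  obtain ⟨g, h1, h2⟩ := h.exists_conj (W := ι → F) (by simpa using hd)
  obtain ⟨g, rfl⟩ := exists_gl_toLin'_eq (h2.isUnit_iff.1 hu)
  exact ⟨g, (hH g).2 h1, h2.ed_eq.symm⟩

theorem c3_not_gc (hk : (finrank F K).Prime) {s : Multiset F[X]} {a : F} (ha : a ≠ 0) {d : ℕ}
    [DecidablePred fun P : F[X] => P.IsRoot a] (hd : s.countP (·.IsRoot a) = d)
    (h1 : ¬ finrank F K ∣ d) (h2 : Fintype.card ι < 2 * d) : ¬ GC H s := by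
  rintro ⟨g, hg, rfl⟩
  have := ((hH g).1 hg).kd hk ha
  rw [kd_eq_kds, kds_X_sub_C (ed_isPP _), ← med, hd,
    finrank_fintype_fun_eq_card] at this
  omega

theorem c3_not_allG_lin (hk : (finrank F K).Prime) {t : Multiset F} {a b z : F} {d : ℕ}
    (h1 : t.card + d = Fintype.card ι) (h2 : t.prod * a ^ d = 1) (h3 : ∀ x ∈ t, x ^ r = z)
    (h4 : a ^ r = z) (h5 : b ∈ t) (h6 : a ∉ t) (h7 : ¬ finrank F K ∣ d)
    (h8 : Fintype.card ι < 2 * d) : ¬ AllG H r := fun h => by
  classical
  have hd : d ≠ 0 := by omega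
  obtain ⟨A, h9, h10⟩ := exists_po_lin (ι := ι) (r := r) (t := t + Multiset.replicate d a) (z := z)
    (by simpa using h1) (by simpa using h2) (by
      simp +contextual [Multiset.mem_replicate, or_imp, h3, h4]) (a := a) (b := b)
    (by simp [Multiset.mem_replicate, hd]) (by simp [h5]) (by rintro rfl; exact h6 h5)
  refine c3_not_gc hH hk (a := a) (by rintro rfl; simp [hd] at h2) ?_ h7 h8 (h10 ▸ h A h9)
  rw [Multiset.countP_map]
  simp [sub_eq_zero, Multiset.filter_eq, Multiset.count_eq_zero.2 h6]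

theorem c3_not_allG_char (hk : (finrank F K).Prime) (p : ℕ) [hp : Fact p.Prime] [CharP F p]
    (h1 : 3 ≤ Fintype.card ι) (h2 : finrank F K ∣ Fintype.card ι) : ¬ AllG H p := fun h => by
  classical
  obtain ⟨A, h3, -, -, h4⟩ := exists_po_mjt (F := F) (ι := ι) p
    (μ := 2 ::ₘ Multiset.replicate (Fintype.card ι - 2) 1)
    (by simp +contextual [Multiset.mem_replicate, hp.out.two_le, hp.out.one_le]) (by simp; omega)
    ⟨2, by simp⟩
  refine c3_not_gc hH hk (a := 1) (d := Fintype.card ι - 1) one_ne_zero ?_ (fun e => hk.ne_one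
    (Nat.dvd_one.1 ((show Fintype.card ι - (Fintype.card ι - 1) = 1 by omega) ▸ Nat.dvd_sub h2 e)))
    (by omega) (h4 ▸ h A h3)
  rw [Multiset.countP_eq_card.2 (by simp +contextual [Multiset.mem_replicate])]
  simp; omega

theorem c3_exists_frob (h1 : 1 < k) (hk : finrank F K = k) (hn : Fintype.card ι = k) :
    ∃ g ∈ H, (g : Matrix ι ι F) ^ k = 1 ∧ (g : Matrix ι ι F).charpoly = X ^ k - 1 ∧
      (g : Matrix ι ι F) ≠ 1 := by
  have := Fintype.ofFinite F
  have h2 := FiniteField.minpoly_frobeniusAlgHom F K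
  set f := (FiniteField.frobeniusAlgHom F K).toLinearMap
  rw [hk] at h2
  have h3 : aeval f (X ^ k - 1 : F[X]) = 0 := h2 ▸ minpoly.aeval F f
  have h4 : (X ^ k - 1 : F[X]).natDegree = k := by rw [← C_1, natDegree_X_pow_sub_C]
  obtain ⟨g, h5, h6⟩ := c3_gc hH (f := f) (IsUnit.of_pow_eq_one (n := k)
    (by simpa [sub_eq_zero] using h3) (by omega))
    (fun x => ⟨f x, fun v => map_mul (FiniteField.frobeniusAlgHom F K) x v⟩) (hk.trans hn.symm)
  refine ⟨g, h5, (pow_eq_one_iff_med _ _).2 (h6 ▸ (aeval_eq_zero_iff_ed f _).1 h3), ?_, fun e => ?_⟩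
  · rw [charpoly_eq_prod_med, h6, ← charpoly_eq_prod_ed]
    exact eq_of_monic_of_dvd_of_natDegree_le (monic_X_pow_sub_C 1 (by omega)) f.charpoly_monic
      (h2 ▸ f.minpoly_dvd_charpoly) (by rw [h4, f.charpoly_natDegree, hk])
  · have := natDegree_le_of_dvd (minpoly.dvd F f ((aeval_eq_zero_iff_ed f (X - 1)).2 fun P hP =>
      ((eq_one_iff_med _).1 e P (h6 ▸ hP)).dvd)) monic_X_sub_one.ne_zero
    rw [h2, h4, natDegree_X_sub_one] at this
    omega

theorem c3_gc_of_charpoly (h1 : 1 < k) (hk : finrank F K = k) (hn : Fintype.card ι = k)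
    (h0 : (k : F) ≠ 0) (h2 : A ^ k = 1) (h3 : A.charpoly = X ^ k - 1) : GC H (med A) := by
  obtain ⟨g, h4, h5, h6, -⟩ := c3_exists_frob hH h1 hk hn
  exact ⟨g, h4, (isSS_of_pow_eq_one h0 h5).med_eq_of_charpoly_eq (isSS_of_pow_eq_one h0 h2)
    (h6.trans h3.symm)⟩

theorem c3_two (hk : finrank F K = 2) (hn : 2 ≤ Fintype.card ι) (he : 2 ∣ Fintype.card ι) :
    AllG H 2 ↔ (Fintype.card ι = 2 ∨ (Odd (Nat.card F) ∧
      padicValNat 2 (Nat.card F - 1) ≤ padicValNat 2 (Fintype.card ι))) := by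
  have : Nonempty ι := Fintype.card_pos_iff.1 (by omega)
  have hZ := c3_scalars_le hH
  by_cases h2 : (2 : F) = 0
  · have : CharP F 2 := CharTwo.of_one_ne_zero_of_two_eq_zero one_ne_zero h2
    rw [or_iff_left fun e => odd_card_iff.1 e.1 h2]
    refine ⟨fun h => by_contra fun e => c3_not_allG_char hH (hk ▸ Nat.prime_two) 2 (by omega)
      (hk ▸ he) h, fun h => allG_char 2 hZ fun μ h3 h4 h5 => ?_⟩
    obtain ⟨g, h6, h7, -, h8⟩ := c3_exists_frob hH one_lt_two hk h
    have h9 := isNilpotent_of_pow_char 2 (toLin'_pow_one h7)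
    have key : ∀ ν : Multiset ℕ, (∀ k ∈ ν, 0 < k) → ν.sum = 2 → (∃ k ∈ ν, 1 < k) → ν = {2} := by
      rintro ν h1 h2 ⟨k, h3, h4⟩
      obtain ⟨ν, rfl⟩ := Multiset.exists_cons_of_mem h3
      rw [Multiset.sum_cons] at h2
      obtain rfl : ν = 0 := Multiset.eq_zero_of_forall_notMem fun j hj => by
        have := h1 j (by simp [hj])
        have := Multiset.single_le_sum (fun _ _ => Nat.zero_le _) j hj
        omega
      obtain rfl : k = 2 := by simpa using h2
      rfl
    refine ⟨g, h6, (ed_eq_map_jt h9).trans (congrArg _ ?_)⟩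
    rw [key μ (fun k hk => (h3 k hk).1) (h4.trans h) h5]
    refine key _ (jt_pos _) ((sum_mjt _).trans h) ((eq_replicate_one_or (jt_pos _)).resolve_left
      fun e => h8 ((eq_one_iff_mjt ((isNilpotent_toLin'_sub_one _).1 h9)).2 fun k hk =>
        Multiset.eq_of_mem_replicate (Multiset.mem_of_le e.le hk)))
  rw [and_iff_right (odd_card_iff.2 h2), ← not_lt, ← exists_pow_eq_neg_one_iff h2 (by omega)]
  refine ⟨fun h => or_iff_not_imp_left.2 fun h3 ⟨c, hc⟩ => ?_, fun h => (allG_two_iff h2 hZ).2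
    ⟨fun a b ha hb h3 h4 => ?_, npc_of_forall Nat.prime_two fun z k h3 h4 => ?_⟩⟩
  · have h0 : c ≠ 0 := by rintro rfl; simp at hc
    refine c3_not_allG_lin hH (hk ▸ Nat.prime_two) (t := {-c}) (a := c) (b := -c) (z := c ^ 2)
      (d := Fintype.card ι - 1) (by simp; omega) ?_ (by simp) rfl (by simp)
      (fun e => h0 ((mul_eq_zero.1 (by
        linear_combination Multiset.mem_singleton.1 e : 2 * c = 0)).resolve_left h2))
      (by rw [hk]; omega) (by omega) h
    rw [Multiset.prod_singleton, neg_mul, ← pow_succ', Nat.sub_add_cancel (by omega), hc, neg_neg]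
  · by_cases h5 : Fintype.card ι = 2
    · obtain ⟨A, hA⟩ := exists_lin (ι := ι) (t := two F a b) (by simpa using h3)
      obtain rfl : a = 1 := by omega
      obtain rfl : b = 1 := by omega
      refine hA ▸ c3_gc_of_charpoly hH one_lt_two hk h5 (by simpa using h2) (by
        simpa using (pow_lin hA (z := 1)).2 (by simp)) ?_
      rw [charpoly_eq_prod_med, hA]
      simp; ring
    obtain ⟨b, rfl⟩ : Even b := by
      by_contra h8
      exact h.resolve_left h5 (by simpa [(Nat.not_even_iff_odd.1 h8).neg_one_pow] using h4)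
    obtain ⟨a, rfl⟩ : Even a := by rw [Nat.even_iff] at *; omega
    have h6 : ∀ a, finrank F (Fin a → K) = a + a := fun a => by
      rw [← Module.finrank_mul_finrank F K, hk]; simp; ring
    have := c3_gc hH (W := (Fin a → K) × (Fin b → K))
      (f := LinearMap.prodMap ((1 : F) • 1) ((-1 : F) • 1))
      (IsUnit.of_pow_eq_one (n := 2) (by ext <;> simp [sq]) two_ne_zero)
      (fun k => ⟨k, fun v => by simp⟩) (by simp [h6, h3])
    rw [ed_prodMap, ed_smul_one, ed_smul_one, h6, h6] at this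
    simpa using this
  · obtain ⟨y, hy⟩ := isSquare_map (K := F) (F := K) (fun e => h2
      ((algebraMap F K).injective (by rw [map_ofNat, e, map_zero]))) (by
        rw [Module.natCard_eq_pow_finrank (K := F), hk]) z
    have h5 : ((LinearMap.lsmul K (ι → F) y).restrictScalars F) ^ 2 = z • 1 := by
      refine LinearMap.ext fun v => ?_
      simp [sq, smul_smul, ← hy]
    obtain ⟨g, hg⟩ := exists_gl_toLin'_eq (f := (LinearMap.lsmul K (ι → F) y).restrictScalars F)
      (isUnit_pow_iff two_ne_zero |>.1 (h5 ▸ isUnit_one.smul (Units.mk0 z fun e => h3 0 (by simp [e]))))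
    exact ⟨g, (hH g).2 fun k => ⟨k, fun v => by simp [hg, smul_comm k]⟩, toLin'_pow_iff.1 (hg ▸ h5)⟩

theorem c3_allG (hr : r.Prime) (h2 : 2 < r) (h0 : (r : F) ≠ 0) (hk : finrank F K = r)
    (hn : Fintype.card ι = r) (hi : orderOf (Nat.card F : ZMod r) = r - 1) : AllG H r := by
  have : Nonempty ι := Fintype.card_pos_iff.1 (by omega)
  have := Fact.mk hr
  refine (allG_iff hr (c3_scalars_le hH)).2 ⟨fun c A h3 h4 _ =>
    c3_gc_of_charpoly hH hr.one_lt hk hn h0 h3 ?_, fun z A h3 => (exists_pow_eq_of_not_dvd hr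
      (mt (orderOf_eq_one_iff_dvd Nat.card_pos).2 (by omega)) z).elim fun b e => (h3 b e).elim⟩
  obtain ⟨s, N, h5, h6⟩ := exists_ed_of_pow_eq_one (f := toLin' A) hr h0 (toLin'_pow_one h3)
  have h7 := dg_cyc h0 h5 N
  rw [← h6, dg_ed, finrank_fintype_fun_eq_card, hn, hi] at h7
  have h8 : s.card ≠ 0 := fun e => h4 1 (by
    rw [one_smul, eq_one_iff_med, med, h6, Multiset.card_eq_zero.1 e]
    simp +contextual [Multiset.mem_replicate])
  have h9 : s.card = 1 := by
    by_contra h9
    have := Nat.mul_le_mul_right (r - 1) (show 2 ≤ s.card by omega)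
    omega
  obtain ⟨φ, rfl⟩ := Multiset.card_eq_one.1 h9
  obtain rfl : N = 1 := by simp at h7; omega
  obtain ⟨h10, h11, h12⟩ := (mem_cycF h0).1 (h5 φ (by simp))
  rw [charpoly_eq_prod_med, med, h6, ← cyclotomic_prime_mul_X_sub_one,
    eq_of_monic_of_dvd_of_natDegree_le h10 (cyclotomic.monic r F)
      ((pord_eq_iff_dvd_cyclotomic h11 h0).1 h12) (by
        rw [natDegree_cyclotomic, natDegree_of_mem_cycF h0 (h5 φ (by simp)), hi, Nat.totient_prime hr])]
  simp

theorem c3_singer (hr : r.Prime) (h3 : 3 < r) (h0 : (r : F) ≠ 0) (hk : finrank F K = r)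
    (hn : Fintype.card ι = r) : AllG H r ↔ orderOf (Nat.card F : ZMod r) = r - 1 := by
  classical
  refine ⟨fun h => by_contra fun h1 => ?_, c3_allG hH hr (by omega) h0 hk hn⟩
  have := Fact.mk hr
  have h4 : r ≠ 4 := by rintro rfl; exact absurd hr (by decide)
  have h5 : ∀ d, 0 < d → d < r → ¬ finrank F K ∣ d := fun d h5 h6 e =>
    (Nat.le_of_dvd h5 e).not_gt (hk ▸ h6)
  by_cases hi : orderOf (Nat.card F : ZMod r) = 1
  · obtain ⟨ζ, hζ⟩ := exists_prim_of_dvd ((orderOf_eq_one_iff_dvd Nat.card_pos).1 hi)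
    exact c3_not_allG_lin hH (hk ▸ hr) (t := {ζ, ζ⁻¹}) (a := 1) (b := ζ) (z := 1) (d := r - 2)
      (by simp; omega) (by simp [hζ.ne_zero hr.ne_zero]) (by simp [hζ.pow_eq_one]) (by simp) (by simp)
      (by simp [(hζ.ne_one hr.one_lt).symm, hζ.ne_one hr.one_lt]) (h5 _ (by omega) (by omega)) (by omega) h
  obtain ⟨c, hc⟩ := ZMod.orderOf_dvd_card_sub_one (p := r) (a := Nat.card F) fun e =>
    not_dvd_card_of_ne_zero hr h0 ((ZMod.natCast_eq_zero_iff _ _).1 e)
  have h6 : 2 ≤ c := by
    rcases c with _ | _ | c <;> omega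
  have h7 := Nat.mul_le_mul_left (orderOf (Nat.card F : ZMod r)) h6
  have h8 := orderOf_card_pos h0
  obtain ⟨A, φ, h9, h10, -, h11⟩ := exists_po_cyc (ι := ι) hr h0 hi one_pos (by omega)
  refine c3_not_gc hH (hk ▸ hr) (a := 1) (d := r - orderOf (Nat.card F : ZMod r)) one_ne_zero ?_
    (h5 _ (by omega) (by omega)) (by omega) (h11 ▸ h A h10)
  have h12 : ¬ φ.IsRoot 1 := fun e => (one_lt_of_ne_one h0 hi h9).ne' (natDegree_eq_of_degree_eq_some
    (degree_eq_one_of_irreducible_of_root ((mem_cycF h0).1 h9).2.1 e))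
  rw [Multiset.countP_add, Multiset.countP_eq_zero.2 fun P hP => Multiset.eq_of_mem_replicate hP ▸ h12,
    Multiset.countP_eq_card.2 (by simp +contextual [Multiset.mem_replicate])]
  simp [hn]

omit hH in
theorem c3_three (p : ℕ) [hp : Fact p.Prime] [CharP F p] {H : Subgroup (GL (Fin 3) F)}
    [Module K (Fin 3 → F)] [IsScalarTower F K (Fin 3 → F)]
    (hH : ∀ g : GL (Fin 3) F, g ∈ H ↔ NK K (toLin' (g : Matrix (Fin 3) (Fin 3) F)))
    (hk : finrank F K = 3)
    (hΩ : 3 ∣ (H.comap (SpecialLinearGroup.toGL : SpecialLinearGroup (Fin 3) F →* _)).index) :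
    AllS H 3 ↔ Nat.card F % 9 = 4 ∨ Nat.card F % 9 = 7 ∨ Nat.card F % 9 = 8 := by
  classical
  have := Fact.mk Nat.prime_three
  by_cases h3 : 3 = p
  · subst h3
    have := char_dvd_card (F := F) 3
    exact iff_of_false (fun h => c3_not_allG_char hH (hk ▸ Nat.prime_three) 3 (by simp) (by simp [hk])
      h.allG) (by omega)
  have h0 := natCast_ne_zero_of_prime_ne (F := F) p Nat.prime_three h3
  have h1 := not_dvd_card_of_ne_zero Nat.prime_three h0
  have hq : 1 < Nat.card F := Finite.one_lt_card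
  rw [allS_iff fun A => detC_top p Nat.prime_three (.inr h3)]
  by_cases h4 : Nat.card F % 3 = 2
  · have hi : orderOf (Nat.card F : ZMod 3) = 3 - 1 := by
      rw [← ZMod.natCast_mod, h4]; exact orderOf_eq_prime (p := 2) (x := (2 : ZMod 3)) (by decide +revert) (by decide +revert)
    have h5 := c3_allG hH Nat.prime_three (by omega) h0 hk (by simp) hi
    refine iff_of_true h5 ?_
    obtain ⟨A, φ, -, h6, h7, -⟩ := exists_po_cyc (F := F) (ι := Fin 3) Nat.prime_three h0 (by omega)
      one_pos (by simp [hi])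
    obtain ⟨g, h8, h9⟩ := h5 A h6
    obtain ⟨x, hx⟩ := exists_sl (A := g.1) (by rw [det_eq_of_med, h9, ← det_eq_of_med, h6.det])
    have h10 : orderOf x = 3 := orderOf_eq_prime (Subtype.ext (by
      simpa [← hx] using pow_eq_of_med (r := 3) (z := 1) h9 (by simpa using h7)))
      fun e => ne_of_med h9 h6.ne 1 (by simp [← hx, e])
    have h11 := Nat.mul_dvd_mul hΩ (h10 ▸ Subgroup.orderOf_dvd_natCard (H.comap
      SpecialLinearGroup.toGL) (x := x) (by
        rwa [Subgroup.mem_comap, show SpecialLinearGroup.toGL x = g from Units.ext hx]))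
    have := Fintype.ofFinite F
    rw [Subgroup.index_mul_card, H57.card_sl_fin_eq, ← Nat.card_eq_fintype_card] at h11
    generalize Nat.card F = q at *
    simp only [Finset.prod_range_succ, Finset.range_zero, Finset.prod_empty, one_mul] at h11
    have h12 : Nat.Coprime 3 (q ^ 3 - 1) := (Nat.Prime.coprime_iff_not_dvd Nat.prime_three).2 fun e => by
      have := (Nat.modEq_iff_dvd' (Nat.one_le_pow 3 q (by omega))).2 e
      rw [Nat.ModEq, Nat.pow_mod, h4] at this
      exact absurd this (by decide)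
    have h13 : Nat.Coprime 3 q := (Nat.Prime.coprime_iff_not_dvd Nat.prime_three).2 h1
    have h14 := (Nat.modEq_iff_dvd' (Nat.one_le_pow 2 q (by omega))).2
      ((h12.mul_left h12).dvd_of_dvd_mul_right (((h13.mul_left h13).pow_right _).dvd_of_dvd_mul_left h11))
    rw [Nat.ModEq, Nat.pow_mod] at h14
    have h15 : q % 9 = 2 ∨ q % 9 = 5 ∨ q % 9 = 8 := by omega
    rcases h15 with h | h | h <;> simp [h] at h14 ⊢
  by_cases h5 : Nat.card F % 9 = 1
  · obtain ⟨η, hη⟩ := exists_prim_of_dvd (F := F) (M := 9) (by omega)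
    have h6 := hη.pow_eq_one
    refine iff_of_false (c3_not_allG_lin hH (hk ▸ Nat.prime_three) (t := {η ^ 7}) (a := η)
      (b := η ^ 7) (z := η ^ 3) (d := 2) (by simp) (by simpa [← pow_add] using h6) (by
        simp only [Multiset.mem_singleton, forall_eq]
        linear_combination (η ^ 12 + η ^ 3) * h6) rfl (by simp) (fun e => ?_) (by simp [hk]) (by simp))
      (by omega)
    exact absurd (hη.pow_inj (i := 1) (j := 7) (by omega) (by omega) (by simpa using e)) (by omega)
  refine iff_of_true (fun A hA => ?_) (by omega)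
  have h11 : Nat.card F - 1 ≠ 0 := by omega
  obtain ⟨c, t, hc, h6, h7, h8⟩ := hA.symm (.inl rfl) (by simp) (le_antisymm
    (Nat.lt_succ_iff.1 (not_le.1 (mt (padicValNat_dvd_iff_le h11).2 (show ¬ 9 ∣ _ by omega))))
    ((padicValNat_dvd_iff_le h11).1 (by omega)))
  have h9 : (c • A) ^ 3 = 1 := by simpa using (pow_lin h8).2 h6
  refine GC.of_smul (c3_scalars_le hH) hc (c3_gc_of_charpoly hH (by omega) hk (by simp) h0 h9 ?_)
  have h10 := congrArg Multiset.prod h7
  obtain ⟨x, y, z, rfl⟩ := Multiset.card_eq_three.1 (by simpa using card_lin h8 : t.card = 3)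
  have hx := h6 x (by simp)
  have hy := h6 y (by simp)
  have hz := h6 z (by simp)
  have h12 : x * y * z = 1 := by
    have h13 : (x * y * z) ^ 3 = 1 := by rw [mul_pow, mul_pow, hx, hy, hz]; simp
    have h14 : (x * y * z) ^ 2 = 1 := by
      rw [Multiset.prod_map_inv'] at h10
      simp only [Multiset.insert_eq_cons, Multiset.prod_cons, Multiset.prod_singleton, ← mul_assoc] at h10
      rw [sq]; nth_rw 1 [← h10]
      exact inv_mul_cancel₀ (by rintro e; simp [e] at h13)
    linear_combination h13 - x * y * z * h14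
  have h13 : ¬ (x = y ∧ y = z) := by
    rintro ⟨rfl, rfl⟩
    have := (pow_lin (r := 1) (z := x) h8).2 (by simp)
    exact hA.ne (c⁻¹ * x) (by rw [mul_smul, ← this, pow_one, inv_smul_smul₀ hc])
  have h14 : ∀ {x y z : F}, x ^ 3 = 1 → x * y * z = 1 → x = y → y = z := by
    rintro x _ z h1 h2 rfl
    linear_combination z * h1 - x * h2
  have h15 : x ≠ y := fun e => h13 ⟨e, h14 hx h12 e⟩
  have h16 : y ≠ z := fun e => h15 (h14 hz (by rw [← h12]; ring) e.symm).symm
  have h17 : x ≠ z := fun e => h16 (h14 hx (by rw [← h12]; ring) e).symm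
  have h18 : x ^ 2 + x * y + y ^ 2 = 0 :=
    mul_left_cancel₀ (sub_ne_zero.2 h15) (by linear_combination hx - hy)
  have h19 : x + y + z = 0 := mul_left_cancel₀ (sub_ne_zero.2 h16) (by
    linear_combination h18 - (mul_left_cancel₀ (sub_ne_zero.2 h17) (by linear_combination hx - hz) :
      x ^ 2 + x * z + z ^ 2 = 0))
  rw [charpoly_eq_prod_med, h8]
  have h20 := congrArg C h12
  have h21 := congrArg C h19
  have h22 := congrArg C h18
  simp only [map_add, map_mul, map_pow, map_one, map_zero] at h20 h21 h22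
  simp only [Multiset.insert_eq_cons, Multiset.map_cons, Multiset.map_singleton, Multiset.prod_cons,
    Multiset.prod_singleton]
  linear_combination (X * (C x + C y) - X ^ 2) * h21 - X * h22 - h20

end H71.El
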