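import Cfsg.Agent.H63.KgvSpec
import Cfsg.Agent.H45.BrGen

/-! # Tower KGV: a faithful irreducible character with a normal subgroup of type `r × r`. -/

set_option autoImplicit false

namespace H71.KgvSa

open Cfsg H28 Finset

universe u

theorem job : H63.Kgv.SaSt.{u} := by
  intro E _ _ χ q r z a hχ _ hq hf hr hz hzc har hac hw
  classical
  have h1 := hχ.apply_one_ne_zero
  have hcl := hχ.isCharacter.isClassFunction
  obtain ⟨lam, hl⟩ := hχ.exists_central_hom (Z := Subgroup.center E) le_rfl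
  have hzr : z ^ r = 1 := hz ▸ pow_orderOf_eq_one z
  have hc : ∀ u ∈ Subgroup.zpowers z, u ∈ Subgroup.center E ∧ u ^ r = 1 := fun u hu => by
    obtain ⟨k, rfl⟩ := Subgroup.mem_zpowers_iff.1 hu
    exact ⟨Subgroup.zpow_mem _ hzc k, by rw [← zpow_natCast, ← zpow_mul, mul_comm, zpow_mul,
      zpow_natCast, hzr, one_zpow]⟩
  have hcm : ∀ y t : E, t * (y * a * y⁻¹ * a⁻¹) = y * a * y⁻¹ * a⁻¹ * t := fun y t =>
    Subgroup.mem_center_iff.1 (hc _ (hw y)).1 t
  have hne : ∀ u : Subgroup.center E, (lam u : ℂ) = 1 → (u : E) = 1 := fun u hu =>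
    hf u (by simpa [hu] using hl u 1)
  let f : E →* E := MonoidHom.mk' (fun y => y * a * y⁻¹ * a⁻¹) fun y y' => by
    have e : y * y' * a * (y * y')⁻¹ * a⁻¹ = y * (y' * a * y'⁻¹ * a⁻¹) * a * y⁻¹ * a⁻¹ := by group
    rw [e, hcm y' y, hcm y' (y * a * y⁻¹ * a⁻¹)]
    group
  have hk : ∀ y, y ∈ f.ker ↔ y * a = a * y := fun y => by
    change y * a * y⁻¹ * a⁻¹ = 1 ↔ _
    rw [mul_inv_eq_one, mul_inv_eq_iff_eq_mul]
  obtain ⟨x, hx⟩ : ∃ x, x ∉ f.ker := by
    by_contra! h
    exact hac (Subgroup.mem_center_iff.2 fun y => (hk y).1 (h y))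
  have hidx : f.ker.index = r := by
    rw [Subgroup.index_ker]
    have : Nat.card f.range ∣ r := by
      rw [← hz, ← Nat.card_zpowers]
      exact Subgroup.card_dvd_of_le fun _ ⟨y, hy⟩ => hy ▸ hw y
    refine ((Nat.dvd_prime hr).1 this).resolve_left fun h => hx ?_
    have := Subgroup.card_eq_one.1 h
    exact MonoidHom.mem_ker.2 (Subgroup.mem_bot.1 (this ▸ ⟨x, rfl⟩))
  have ha1 : a ≠ 1 := fun h => hac (h ▸ one_mem _)
  have hoa : orderOf a = r := by
    have := Fact.mk hr
    exact orderOf_eq_prime har ha1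
  have hA : Subgroup.zpowers a ≤ f.ker := (Subgroup.zpowers_le).2 ((hk a).2 rfl)
  have hAc : ∀ (b : Subgroup.zpowers a) (h : f.ker), (h : E) * b = b * h := fun b h => by
    obtain ⟨k, hk'⟩ := Subgroup.mem_zpowers_iff.1 b.2
    rw [← hk']
    exact (Commute.zpow_right ((hk h).1 h.2) k).eq
  have hrq : r ∣ q - 1 := by
    rcases Nat.eq_zero_or_pos q with rfl | hq0
    · simp
    have e := hq z
    have e1 := hl (⟨z, hzc⟩ ^ q) 1
    have e2 := hl ⟨z, hzc⟩ 1
    rw [map_pow] at e1
    simp only [SubmonoidClass.mk_pow, mul_one] at e1 e2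
    rw [e1, e2, mul_left_inj' h1, Units.val_inj] at e
    have e3 : lam (⟨z, hzc⟩ ^ (q - 1)) = 1 := by
      rw [map_pow]
      refine mul_right_cancel (b := lam ⟨z, hzc⟩) ?_
      rw [← pow_succ, Nat.sub_add_cancel hq0, e, one_mul]
    have := hne _ (by rw [e3]; rfl)
    rw [← hz]
    exact orderOf_dvd_of_pow_eq_one (by simpa using this)
  have hcard : Nat.card (Subgroup.zpowers a) = r := by rw [Nat.card_zpowers, hoa]
  let ι : Subgroup.zpowers a →* f.ker := Subgroup.inclusion hA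
  have hφ : ∀ h : f.ker, H45.cPart ι 1 (fun h : f.ker => χ h) h =
      (r : ℂ)⁻¹ * ∑ b : Subgroup.zpowers a, χ (b * h) := fun h => by
    rw [H45.cPart, hcard]
    simp [ι]
  have hr0 : (r : ℂ) ≠ 0 := Nat.cast_ne_zero.2 hr.ne_zero
  refine ⟨f.ker, inferInstance, x, H45.cPart ι 1 (fun h : f.ker => χ h), ⟨hr, hidx, hx,
    H45.isCharacter_cPart (fun b => Subgroup.mem_center_iff.2 fun h => Subtype.ext (hAc b h)) 1
      (hχ.isCharacter.restrict _), fun y hy => ?_, fun h => ?_⟩, hrq, fun h => ?_⟩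
  · have e := hl ⟨_, (hc _ (hw y⁻¹)).1⟩ y
    have e2 : y⁻¹ * a * y⁻¹⁻¹ * a⁻¹ * y = a * y * a⁻¹ := by rw [← hcm]; group
    simp only [e2, hcl y a] at e
    by_contra h0
    refine hy (inv_mem_iff.1 (hne ⟨_, (hc _ (hw y⁻¹)).1⟩ ?_))
    exact mul_right_cancel₀ h0 (by rw [← e, one_mul])
  · simp only [hφ, ← mul_sum]
    rw [sum_comm, sum_eq_single (1 : Subgroup.zpowers a) (fun b _ hb => ?_) (by simp)]
    · have : ∀ j, χ ((1 : Subgroup.zpowers a) * (MulAut.conjNormal (x ^ j) h : f.ker)) = χ h :=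
        fun j => by rw [MulAut.conjNormal_apply, OneMemClass.coe_one, one_mul, hcl]
      simp only [this, sum_const, card_range, nsmul_eq_mul]
      rw [← mul_assoc, inv_mul_cancel₀ hr0, one_mul]
    · obtain ⟨k, hk'⟩ := (Submonoid.mem_powers_iff _ _).1 (mem_powers_iff_mem_zpowers.2 b.2)
      let w : Subgroup.center E := ⟨_, (hc _ (hw x⁻¹)).1⟩
      have hwc : ∀ t : E, Commute (w : E) t := fun t => (hcm x⁻¹ t).symm
      have e1 : x⁻¹ * a * x = w * a := by simp [w]
      have e2 : x⁻¹ * b * x = (w ^ k : Subgroup.center E) * b := by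
        rw [← hk', SubmonoidClass.coe_pow, ← (hwc a).mul_pow, ← e1]
        simpa using (conj_pow (a := x⁻¹) (b := a) (i := k)).symm
      have e3 : ∀ j : ℕ, (x ^ j)⁻¹ * b * x ^ j = ((w ^ k) ^ j : Subgroup.center E) * b := fun j => by
        induction j with
        | zero => simp
        | succ j ih =>
          have : (x ^ (j + 1))⁻¹ * b * x ^ (j + 1) = x⁻¹ * ((x ^ j)⁻¹ * b * x ^ j) * x := by
            rw [pow_succ]; group
          rw [this, ih, ← mul_assoc, Subgroup.mem_center_iff.1 ((w ^ k) ^ j).2 x⁻¹, mul_assoc,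
            mul_assoc, ← mul_assoc x⁻¹, e2, ← mul_assoc, pow_succ, Subgroup.coe_mul]
      have e4 : ∀ j : ℕ, χ (b * (MulAut.conjNormal (x ^ j) h : f.ker)) =
          (lam (w ^ k) : ℂ) ^ j * χ (b * h) := fun j => by
        rw [← Units.val_pow_eq_pow_val, ← map_pow, ← hl, ← mul_assoc, ← e3,
          ← hcl ((x ^ j)⁻¹ * b * x ^ j * h) (x ^ j), MulAut.conjNormal_apply]
        congr 1
        group
      simp only [e4, ← sum_mul]
      have e5 : (lam (w ^ k) : ℂ) ^ r = 1 := by
        have : w ^ r = 1 := Subtype.ext (hc _ (hw x⁻¹)).2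
        rw [← Units.val_pow_eq_pow_val, ← map_pow, ← pow_mul, mul_comm, pow_mul, this, one_pow,
          map_one, Units.val_one]
      have e6 : (lam (w ^ k) : ℂ) ≠ 1 := fun e => by
        have e7 := hne _ e
        rw [e7, one_mul] at e2
        have e8 : Commute x (b : E) := by
          have : x * (x⁻¹ * b * x) = x * b := by rw [e2]
          rw [← mul_assoc, mul_inv_cancel_left] at this
          exact this.symm
        have := Fact.mk hr
        have e9 : (⟨a, Subgroup.mem_zpowers a⟩ : Subgroup.zpowers a) ∈ Subgroup.zpowers b :=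
          mem_zpowers_of_prime_card hcard hb
        obtain ⟨i, hi⟩ := Subgroup.mem_zpowers_iff.1 e9
        have e10 : (b : E) ^ i = a := by simpa using congrArg Subtype.val hi
        exact hx ((hk x).2 (e10 ▸ (e8.zpow_right i).eq))
      have := geom_sum_eq e6 r
      rw [this, e5, sub_self, zero_div, zero_mul]
  · rw [hφ, hφ]
    congr 1
    refine sum_congr rfl fun b _ => ?_
    have hb : (b : E) ^ q = b := by
      rcases Nat.eq_zero_or_pos q with rfl | hq0
      · have e := hf a (by simpa using (hq a).symm)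
        exact absurd e ha1
      obtain ⟨c, hc'⟩ := hrq
      have : b ^ r = 1 := by rw [← hcard]; exact pow_card_eq_one'
      rw [← Nat.sub_add_cancel hq0, hc', pow_succ, pow_mul, ← Subgroup.coe_pow, this]
      simp
    rw [← hq (b * h), (Commute.mul_pow (hAc b h).symm q), hb, Subgroup.coe_pow]

end H71.KgvSa
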