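import Cfsg.Agent.H41.LDKit2

/-! LD5 job MA: positions of a reflection with respect to a monomial frame. -/

set_option autoImplicit false

open Matrix Cfsg Cfsg.Geo H41.LD

namespace H71.LD

universe u

variable {K : Type u} [Field K]

/-! ### field lemmas -/

/-- The possible ratios. -/
def T (x A : K) : Prop := A = 1 ∨ x * (2 * A - A ^ 2 - 1) = A ∨ (A = -1 ∧ 2 * x = 1)

theorem T.four {x A : K} (h : T x A) (h2 : 2 * x = 1) : A ^ 4 = 1 := by
  rcases h with rfl | h | ⟨rfl, -⟩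
  · simp
  · linear_combination (2 - 2 * A ^ 2) * h + (A ^ 2 - 1) * (2 * A - A ^ 2 - 1) * h2
  · ring

theorem T.cube {x A : K} (h : T x A) (h2 : 2 * x ≠ 1) (h3 : 3 * x = 1) : A ^ 3 = 1 := by
  rcases h with rfl | h | ⟨-, h⟩
  · simp
  · linear_combination (3 - 3 * A) * h + (A - 1) * (2 * A - A ^ 2 - 1) * h3
  · exact (h2 h).elim

theorem roots {x A B : K} (hx : x ≠ 0) (h : x * (2 * A - A ^ 2 - 1) = A)
    (h' : x * (2 * B - B ^ 2 - 1) = B) (n : A ≠ B) : A * B = 1 := by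
  have : x * ((A - B) * (1 - A * B)) = 0 := by linear_combination B * h - A * h'
  exact (sub_eq_zero.1 (((mul_eq_zero.1 ((mul_eq_zero.1 this).resolve_left hx))).resolve_left
    (sub_ne_zero.2 n))).symm

theorem three {x a ζ : K} (hx : x ≠ 0) (ha : a ≠ 0) (h0 : ζ ≠ 0) (hζ : ζ ^ 2 ≠ 1) (h2 : 2 * x ≠ 1)
    (h : ∀ k : ℕ, T x (ζ ^ k * a)) : 3 * x = 1 := by
  have h1 : ζ ≠ 1 := fun e => hζ (by simp [e])
  have q : ∀ k : ℕ, ζ ^ k * a ≠ 1 → x * (2 * (ζ ^ k * a) - (ζ ^ k * a) ^ 2 - 1) = ζ ^ k * a :=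
    fun k n => ((h k).resolve_left n).resolve_right fun e => h2 e.2
  obtain ⟨k, e⟩ : ∃ k : ℕ, ζ ^ k * a = 1 := by
    by_contra n
    push Not at n
    have e1 := roots hx (q 0 (n 0)) (q 1 (n 1)) fun e => h1 (by simpa [ha] using e.symm)
    have e2 := roots hx (q 0 (n 0)) (q 2 (n 2)) fun e => hζ (by simpa [ha] using e.symm)
    exact h1 (mul_left_cancel₀ (mul_ne_zero h0 (mul_ne_zero ha ha)) (by
      linear_combination e2 - e1))
  have e1 : ζ ^ (k + 1) * a = ζ := by linear_combination ζ * e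
  have e2 : ζ ^ (k + 2) * a = ζ ^ 2 := by linear_combination ζ ^ 2 * e
  have q1 := q (k + 1)
  have q2 := q (k + 2)
  rw [e1] at q1
  rw [e2] at q2
  have e3 := roots hx (q1 h1) (q2 hζ) fun e => h1 (mul_left_cancel₀ h0 (by linear_combination -e))
  have e4 : ζ ^ 2 + ζ + 1 = 0 :=
    mul_left_cancel₀ (sub_ne_zero.2 h1) (by linear_combination e3)
  exact mul_right_cancel₀ h0 (by linear_combination q1 h1 + x * e4)

theorem sq_ne (h2 : (2 : K) = 0) {z : K} (h : z ≠ 1) : z ^ 2 ≠ 1 := fun e =>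
  h (sub_eq_zero.1 (pow_eq_zero_iff two_ne_zero |>.1 (by linear_combination e + (1 - z) * h2 :
    (z - 1) ^ 2 = 0)))

variable {n m : ℕ} {G : Subgroup (GL (Fin n) K)} {x : R n K}

section dual

variable {e ε : Fin m → Fin n → K} {i j k : Fin m}

theorem Z.X (h : Z e ε x i) : X e ε x i = 0 := by simp [H41.LD.X, h.1]

theorem pl (hd : Dual e ε) (hij : i ≠ j)
    (h : x.1 ∈ Submodule.span K {e i, e j} ∧ x.2 ∈ Submodule.span K {ε i, ε j}) :
    x.1 = (ε i ⬝ᵥ x.1) • e i + (ε j ⬝ᵥ x.1) • e j ∧ x.2 = (x.2 ⬝ᵥ e i) • ε i + (x.2 ⬝ᵥ e j) • ε j := by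
  obtain ⟨a, b, h1⟩ := Submodule.mem_span_pair.1 h.1
  obtain ⟨c, d, h2⟩ := Submodule.mem_span_pair.1 h.2
  rw [← h1, ← h2]
  simp [hd.same, hd.ne hij, hd.ne hij.symm]

theorem pl_sum (hd : Dual e ε) (hij : i ≠ j) (hx : Rf G x)
    (h : x.1 ∈ Submodule.span K {e i, e j} ∧ x.2 ∈ Submodule.span K {ε i, ε j}) :
    X e ε x i + X e ε x j = 2 := by
  rw [← hx.1]
  conv_rhs => rw [(pl hd hij h).1]
  simp [X]

theorem pl_Z (hd : Dual e ε) (hij : i ≠ j) (hik : i ≠ k) (hjk : j ≠ k)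
    (h : x.1 ∈ Submodule.span K {e i, e j} ∧ x.2 ∈ Submodule.span K {ε i, ε j}) : Z e ε x k := by
  constructor
  · rw [(pl hd hij h).1]
    simp [hd.ne hik.symm, hd.ne hjk.symm]
  · rw [(pl hd hij h).2]
    simp [hd.ne hik, hd.ne hjk]

theorem pl_dg (hd : Dual e ε) (hij : i ≠ j) (hx : Rf G x)
    (h : x.1 ∈ Submodule.span K {e i, e j} ∧ x.2 ∈ Submodule.span K {ε i, ε j}) (hz : Z e ε x j) :
    (2 : K) ≠ 0 ∧ N x = N (dg e ε i) := by
  have s := pl_sum hd hij hx h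
  obtain ⟨h1, h2⟩ := pl hd hij h
  rw [hz.1, zero_smul, add_zero] at h1
  rw [hz.2, zero_smul, add_zero] at h2
  rw [Z.X hz, add_zero, X] at s
  have e1 : N x = N (dg e ε i) := by
    rw [show x = (_, _) from Prod.ext h1 h2, N_smul_left, N_smul_right, smul_smul, s, dg,
      N_smul_right]
  exact ⟨fun e2 => hx.N_ne (by rw [e1, dg, e2, zero_smul, N_zero_right]), e1⟩

end dual

/-- The hypotheses. -/
structure Fm (G : Subgroup (GL (Fin n) K)) (e ε : Fin 3 → Fin n → K) (ζ : K) : Prop where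
  th : Thin G
  tv : (2 : K) ≠ 0 → NoTv G
  fr : Frame G e ε
  mu : Mu G e ε ζ
  z2 : ζ ^ 2 ≠ 1
  hp : HP G e ε

variable {e ε : Fin 3 → Fin n → K} {ζ η : K} {i j k : Fin 3}

theorem cover (hij : i ≠ j) (hik : i ≠ k) (hjk : j ≠ k) (l : Fin 3) : l = i ∨ l = j ∨ l = k := by
  revert i j k l; decide

theorem third (hij : i ≠ j) : ∃ k, i ≠ k ∧ j ≠ k := by revert i j; decide

theorem others (k : Fin 3) : ∃ i j, i ≠ j ∧ i ≠ k ∧ j ≠ k := by revert k; decide

namespace Fm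

variable (h : Fm G e ε ζ)
include h

theorem z1 : ζ ≠ 1 := fun e => h.z2 (by simp [e])

theorem step1 (hx : Rf G x) : (∀ i j, X e ε x i = X e ε x j) ∨
    (∃ i, X e ε x i = 1 ∧ ∀ j, j ≠ i → Z e ε x j) ∨
    (∃ k, Z e ε x k ∧ ∀ i, i ≠ k → X e ε x i = 1) ∨
    ∃ i j, Z e ε x j ∧ (2 : K) ≠ 0 ∧ N x = N (dg e ε i) := by
  have hd := h.fr.dual
  have h12 : (1 : K) ≠ 2 := fun e => one_ne_zero (by linear_combination -e : (1 : K) = 0)
  have key : ∀ i j k : Fin 3, i ≠ j → i ≠ k → j ≠ k → X e ε x i = 1 → Z e ε x j →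
      (∃ i, X e ε x i = 1 ∧ ∀ j, j ≠ i → Z e ε x j) ∨
      ∃ k, Z e ε x k ∧ ∀ i, i ≠ k → X e ε x i = 1 := fun i j k hij hik hjk h1 h2 => by
    by_cases h3 : X e ε x k = 1
    · refine Or.inr ⟨j, h2, fun l hl => ?_⟩
      rcases cover hij hik hjk l with rfl | rfl | rfl
      exacts [h1, (hl rfl).elim, h3]
    refine Or.inl ⟨i, h1, fun l hl => ?_⟩
    rcases cover hij hik hjk l with rfl | rfl | rfl
    · exact (hl rfl).elim
    · exact h2
    rcases h.hp.pair h.fr hx hik with p | p | p | p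
    · exact (h3 (p ▸ h1)).elim
    · exact p.2
    · exact (h3 p.1).elim
    rcases h.hp.pair h.fr hx hjk with q | q | q | q
    · have s := pl_sum hd hik hx p
      rw [← q, Z.X h2, h1, add_zero] at s
      exact (h12 s).elim
    · exact q.2
    · exact (h3 q.1).elim
    · exact (one_ne_zero (h1.symm.trans (Z.X (pl_Z hd hjk hij.symm hik.symm q)))).elim
  refine or_iff_not_imp_left.2 fun ne => ?_
  push Not at ne
  obtain ⟨i, j, ne⟩ := ne
  have hij : i ≠ j := fun e => ne (e ▸ rfl)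
  obtain ⟨k, hik, hjk⟩ := third hij
  rw [← or_assoc]
  rcases h.hp.pair h.fr hx hij with p | p | p | p
  · exact (ne p).elim
  · exact Or.inl (key i j k hij hik hjk p.1 p.2)
  · exact Or.inl (key j i k hij.symm hjk hik p.1 p.2)
  have zk := pl_Z hd hij hik hjk p
  have s := pl_sum hd hij hx p
  have k0 := Z.X zk
  have fin : ∀ i j : Fin 3, i ≠ k → X e ε x i + X e ε x j = 2 → X e ε x i ≠ X e ε x j →
      X e ε x i ≠ 0 → (2 : K) ≠ 0 ∧ N x = N (dg e ε i) := fun i j hik s ne n0 => by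
    rcases h.hp.pair h.fr hx hik with q | q | q | q
    · exact (n0 (q.trans k0)).elim
    · exact (ne (by linear_combination 2 * q.1 - s)).elim
    · exact (one_ne_zero (q.1.symm.trans k0)).elim
    · exact pl_dg hd hik hx q zk
  by_cases n0 : X e ε x i = 0
  · exact Or.inr ⟨j, k, zk, fin j i hjk (by rw [add_comm, s]) ne.symm fun e => ne (n0.trans e.symm)⟩
  · exact Or.inr ⟨i, k, zk, fin i j hik s ne n0⟩

theorem symw (hx : Rf G x) (hη : Mu G e ε η) (hij : i ≠ j) :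
    ε i ⬝ᵥ x.1 = η⁻¹ * (ε j ⬝ᵥ x.1) ↔ x.2 ⬝ᵥ e i = η * (x.2 ⬝ᵥ e j) := by
  have s := h.fr.sw hη hij
  constructor
  · intro p
    simpa [sw, sub_eq_zero] using h.th.sym s hx (by simp [sw, p])
  · intro p
    simpa [sw, sub_eq_zero] using h.th.sym hx s (by simp [sw, p])

theorem allZ (hx : Rf G x) (h0 : ∀ i, X e ε x i = 0) (l : Fin 3) : Z e ε x l := by
  have z1 := h.z1
  have zv : ∀ i j : Fin 3, i ≠ j → ε i ⬝ᵥ x.1 = 0 → ε j ⬝ᵥ x.1 = 0 → x.2 ⬝ᵥ e j = 0 :=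
    fun i j hij p q => by
      have a := (h.symw hx h.fr.mu_one hij).1 (by simp [p, q])
      have b := (h.symw hx h.mu hij).1 (by simp [p, q])
      exact mul_left_cancel₀ (sub_ne_zero.2 z1) (by linear_combination a - b)
  have zp : ∀ i j : Fin 3, i ≠ j → x.2 ⬝ᵥ e i = 0 → x.2 ⬝ᵥ e j = 0 → ε j ⬝ᵥ x.1 = 0 :=
    fun i j hij p q => by
      have a := (h.symw hx h.fr.mu_one hij).2 (by simp [p, q])
      have b := (h.symw hx h.mu hij).2 (by simp [p, q])
      refine mul_left_cancel₀ (sub_ne_zero.2 (inv_ne_one.2 z1)) ?_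
      rw [inv_one] at a
      linear_combination a - b
  obtain ⟨i, j, hij, hi, hj⟩ := others l
  rcases mul_eq_zero.1 (h0 l) with c | c
  · refine ⟨c, ?_⟩
    rcases mul_eq_zero.1 (h0 i) with a | a
    · exact zv i l hi a c
    rcases mul_eq_zero.1 (h0 j) with b | b
    exacts [zv j l hj b c, zv i l hi (zp j i hij.symm b a) c]
  · refine ⟨?_, c⟩
    rcases mul_eq_zero.1 (h0 i) with a | a
    · rcases mul_eq_zero.1 (h0 j) with b | b
      exacts [zp i l hi (zv j i hij.symm b a) c, zp j l hj b c]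
    · exact zp i l hi a c

end Fm

/-- Normal form of a reflection with diagonal `(1, 1, 0)`. -/
structure P2 (e ε : Fin 3 → Fin n → K) (x : R n K) (i j : Fin 3) (a b : K) (f χ : Fin n → K) :
    Prop where
  a0 : a ≠ 0
  b0 : b ≠ 0
  e1 : x.1 = a • e i + b • (e j + f)
  e2 : x.2 = a⁻¹ • ε i + b⁻¹ • (ε j + χ)
  hf : ∀ l, ε l ⬝ᵥ f = 0
  hc : ∀ l, χ ⬝ᵥ e l = 0
  cf : χ ⬝ᵥ f = 0

theorem exists_P2 (hd : Dual e ε) (hx : Rf G x) (hij : i ≠ j) (hik : i ≠ k) (hjk : j ≠ k)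
    (hi : X e ε x i = 1) (hj : X e ε x j = 1) (hk : Z e ε x k) :
    ∃ f χ, P2 e ε x i j (ε i ⬝ᵥ x.1) (ε j ⬝ᵥ x.1) f χ := by
  have a0 := left_ne_zero_of_mul_eq_one hi
  have b0 := left_ne_zero_of_mul_eq_one hj
  have pa := (inv_eq_of_mul_eq_one_right hi).symm
  have pb := (inv_eq_of_mul_eq_one_right hj).symm
  have h2 := hx.1
  obtain ⟨z1, z2⟩ := hk
  generalize ha : ε i ⬝ᵥ x.1 = a at *
  generalize hb : ε j ⬝ᵥ x.1 = b at *
  refine ⟨b⁻¹ • (x.1 - a • e i - b • e j), b • (x.2 - a⁻¹ • ε i - b⁻¹ • ε j), a0, b0, ?_, ?_,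
    fun l => ?_, fun l => ?_, ?_⟩
  · match_scalars <;> field_simp <;> ring
  · match_scalars <;> field_simp <;> ring
  · rcases cover hij hik hjk l with rfl | rfl | rfl <;>
      simp [ha, hb, z1, hd.same, hd.ne hij, hd.ne hij.symm, hd.ne hik.symm, hd.ne hjk.symm]
  · rcases cover hij hik hjk l with rfl | rfl | rfl <;>
      simp [pa, pb, z2, hd.same, hd.ne hij, hd.ne hij.symm, hd.ne hik, hd.ne hjk]
  · simp [ha, hb, pa, pb, h2, hd.same, hd.ne hij, hd.ne hij.symm, a0, b0]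
    norm_num

section P2

variable {a b : K} {f χ : Fin n → K}

theorem P2.heis (p : P2 e ε x i j a b f χ) (h : Frame G e ε) (hx : Rf G x) (hij : i ≠ j)
    (hη : Mu G e ε η) : In G (1 + (η - 1) • N (e j, χ) + (1 - η⁻¹) • N (f, ε j) +
      (η - 1) • N (f, χ)) := by
  obtain ⟨k, hik, hjk⟩ := third hij
  have hd := h.dual
  have a0 := p.a0
  have b0 := p.b0
  have e0 := hη.1
  have c1 : N (cj x (e i, ε i)) = N (e j + f, ε j + χ) := by
    have : cj x (e i, ε i) = ((-(b / a)) • (e j + f), (-(b / a))⁻¹ • (ε j + χ)) := by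
      refine Prod.ext ?_ ?_ <;>
        simp only [cj, p.e1, p.e2, add_dotProduct, dotProduct_add, smul_dotProduct, dotProduct_smul,
          hd.same, hd.ne hij, hd.ne hij.symm, p.hf, p.hc, smul_eq_mul] <;>
        match_scalars <;> field_simp <;> ring
    rw [this]
    exact N_scale (neg_ne_zero.2 (div_ne_zero b0 a0)) (e j + f, ε j + χ)
  have c2 : cj x (e k, ε k) = (e k, ε k) := by
    simp [cj, p.e1, p.e2, hd.ne hik, hd.ne hik.symm, hd.ne hjk, hd.ne hjk.symm, p.hf, p.hc]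
  have i1 := (hx.isIn.mul (h.diag hη hik)).mul hx.isIn
  rw [mul_add, mul_add, add_mul, add_mul, mul_one, rf_mul_self hx.1, mul_smul_comm, smul_mul_assoc,
    mul_smul_comm, smul_mul_assoc, ← N_cj, ← N_cj, c1, c2] at i1
  rw [← hl e0 (hd.same j) (p.hc j)]
  convert i1.mul (h.diag hη hjk.symm) using 1
  simp only [mul_add, add_mul, smul_mul_assoc, mul_smul_comm, N_mk_mul, add_dotProduct, hd.same,
    hd.ne hjk, hd.ne hjk.symm, p.hc, mul_one, one_mul, zero_smul, smul_zero, add_zero, one_smul]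
  match_scalars <;> field_simp <;> ring

theorem P2.conj (p : P2 e ε x i j a b f χ) (h : Frame G e ε) (hij : i ≠ j) (hη : Mu G e ε η)
    {α β κ : K} (q : In G (1 + N (α • e j, χ) + N (f, β • ε j) + κ • N (f, χ))) :
    In G (1 + N ((α * η) • e j, χ) + N (f, (β * η⁻¹) • ε j) + κ • N (f, χ)) := by
  obtain ⟨k, hik, hjk⟩ := third hij
  have hd := h.dual
  have e0 := hη.1
  refine ((h.diag hη hjk).mul q).of_mul (h.diag hη hjk) ?_
  simp only [N_smul_left, N_smul_right, mul_add, add_mul, smul_mul_assoc, mul_smul_comm, N_mk_mul,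
    hd.same, hd.ne hjk, hd.ne hjk.symm, p.hc, p.hf, mul_one, one_mul, zero_smul, smul_zero,
    add_zero, one_smul]
  match_scalars <;> field_simp <;> ring

theorem P2.comm (p : P2 e ε x i j a b f χ) (hd : Dual e ε) {α β κ α' β' κ' : K}
    (q : In G (1 + N (α • e j, χ) + N (f, β • ε j) + κ • N (f, χ)))
    (q' : In G (1 + N (α' • e j, χ) + N (f, β' • ε j) + κ' • N (f, χ))) :
    Tv G (f, (β * α' - β' * α) • χ) := by
  simpa [hd.same, mul_comm] using H41.LD.hc q q' (by simp [p.hc]) (by simp [p.hc]) p.cf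
    (by simp [p.hf]) (by simp [p.hf])

theorem P2.cj (p : P2 e ε x i j a b f χ) (hd : Dual e ε) (hij : i ≠ j) :
    P2 e ε (cj x (sw e ε i j 1)) i j (a / b) (-(b / a)) ((1 - a / b) • f) ((1 - b / a) • χ) := by
  have a0 := p.a0
  have b0 := p.b0
  refine ⟨div_ne_zero a0 b0, neg_ne_zero.2 (div_ne_zero b0 a0), ?_, ?_, fun l => by simp [p.hf],
    fun l => by simp [p.hc], by simp [p.cf]⟩ <;>
  simp only [H41.LD.cj, sw, p.e1, p.e2, add_dotProduct, dotProduct_add, smul_dotProduct,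
    dotProduct_smul, sub_dotProduct, dotProduct_sub, hd.same, hd.ne hij, hd.ne hij.symm, p.hf,
    p.hc, smul_eq_mul] <;> match_scalars <;> field_simp <;> ring

theorem rf_of_tv (h2 : (2 : K) = 0) {y : R n K} (h : Tv G y) (h1 : y.1 ≠ 0) (h3 : y.2 ≠ 0) :
    Rf G y := ⟨h.1.trans h2.symm, h1, h3, by
  rw [show 1 - N y = 1 + N y by
    rw [sub_eq_add_neg, neg_eq_of_add_eq_zero_left (by rw [← two_smul K, h2, zero_smul])]]
  exact h.2⟩

theorem uniq2 (h2 : (2 : K) = 0) (hT : Thin G) {c d : K} (h : Tv G (f, c • χ))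
    (h' : Tv G (f, d • χ)) (hf : f ≠ 0) (hχ : χ ≠ 0) (hc : c ≠ 0) (hd : d ≠ 0) : c = d :=
  smul_left_injective K hχ (hT.uniqL (rf_of_tv h2 h hf (smul_ne_zero hc hχ))
    (rf_of_tv h2 h' hf (smul_ne_zero hd hχ)) rfl)

theorem uniq2' (h2 : (2 : K) = 0) (hT : Thin G) {c d : K} (h : Tv G (c • f, χ))
    (h' : Tv G (d • f, χ)) (hf : f ≠ 0) (hχ : χ ≠ 0) (hc : c ≠ 0) (hd : d ≠ 0) : c = d :=
  smul_left_injective K hf (hT.uniqR (rf_of_tv h2 h (smul_ne_zero hc hf) hχ)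
    (rf_of_tv h2 h' (smul_ne_zero hd hf) hχ) rfl)

theorem P2.main (p : P2 e ε x i j a b f χ) (h : Fm G e ε ζ) (hx : Rf G x) (hij : i ≠ j) :
    (f = 0 ∧ χ = 0) ∨ ((2 : K) = 0 ∧ (∀ η, Mu G e ε η → η ^ 3 = 1) ∧ a ^ 3 = b ^ 3) := by
  have hd := h.fr.dual
  have z0 := h.mu.1
  have α0 : ζ - 1 ≠ 0 := sub_ne_zero.2 h.z1
  have β0 : 1 - ζ⁻¹ ≠ 0 := sub_ne_zero.2 (inv_ne_one.2 h.z1).symm
  have q := p.heis h.fr hx hij h.mu
  by_cases h2 : (2 : K) = 0
  swap
  · obtain ⟨k, hik, hjk⟩ := third hij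
    refine Or.inl (hl0 (h.tv h2) q α0 β0 (by simp [hd.same]) (p.hc j) p.cf (p.hf j)
      (h.fr.diag h.mu hjk) ?_ ?_ ?_ ?_ h.z2)
    · simp only [add_mulVec, smul_mulVec, N_mulVec, hd.same, hd.ne hjk.symm, one_mulVec]
      module
    · simp only [vecMul_add, vecMul_smul, vecMul_N, hd.same, hd.ne hjk, vecMul_one]
      module
    · simp [add_mulVec, smul_mulVec, N_mulVec, p.hf]
    · simp [vecMul_add, vecMul_smul, vecMul_N, p.hc]
  rw [← N_smul_left, ← N_smul_right] at q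
  have q1 := p.conj h.fr hij h.mu q
  have e0 : e j ≠ 0 := fun c => by simpa [c] using hd.same j
  have ε0 : ε j ≠ 0 := fun c => by simpa [c] using hd.same j
  by_cases hf : f = 0
  · refine Or.inl ⟨hf, by_contra fun hχ => h.z1 ?_⟩
    simp only [hf, N_zero_left, smul_zero, add_zero] at q q1
    exact mul_left_cancel₀ α0 ((uniq2' h2 h.th ⟨by simp [p.hc], q1⟩ ⟨by simp [p.hc], q⟩ e0 hχ
      (mul_ne_zero α0 z0) α0).trans (mul_one _).symm)
  by_cases hχ : χ = 0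
  · simp only [hχ, N_zero_right, smul_zero, add_zero] at q q1
    exact (inv_ne_one.2 h.z1 (mul_left_cancel₀ β0 ((uniq2 h2 h.th ⟨by simp [p.hf], q1⟩
      ⟨by simp [p.hf], q⟩ hf ε0 (mul_ne_zero β0 (inv_ne_zero z0)) β0).trans (mul_one _).symm))).elim
  have tv : ∀ η, Mu G e ε η → Tv G (f, ((ζ - 1) * (1 - ζ⁻¹) * (η - η⁻¹)) • χ) := fun η hη => by
    convert p.comm hd q (p.conj h.fr hij hη q) using 3
    ring
  have uq : ∀ {c d : K}, Tv G (f, ((ζ - 1) * (1 - ζ⁻¹) * c) • χ) →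
      Tv G (f, ((ζ - 1) * (1 - ζ⁻¹) * d) • χ) → c ≠ 0 → d ≠ 0 → c = d := fun t t' hc hd =>
    mul_left_cancel₀ (mul_ne_zero α0 β0) (uniq2 h2 h.th t t' hf hχ
      (mul_ne_zero (mul_ne_zero α0 β0) hc) (mul_ne_zero (mul_ne_zero α0 β0) hd))
  have ne : ∀ {η : K}, η ≠ 0 → η ≠ 1 → η - η⁻¹ ≠ 0 := fun {η} h0 h1 c => sq_ne h2 h1 (by
    field_simp at c
    linear_combination c)
  have sum : ∀ η, Mu G e ε η → η ≠ 1 → η ^ 2 + η + 1 = 0 := fun η hη h1 => by
    have h0 := hη.1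
    have c := uq (tv η hη) (tv _ (h.fr.mu_pow hη 2)) (ne h0 h1) (ne (pow_ne_zero 2 h0) (sq_ne h2 h1))
    refine mul_left_cancel₀ (sub_ne_zero.2 (sq_ne h2 h1)) ?_
    field_simp at c
    linear_combination -c + η * (η ^ 2 - 1) * h2
  refine Or.inr ⟨h2, fun η hη => ?_, ?_⟩
  · by_cases h1 : η = 1
    · simp [h1]
    · linear_combination (η - 1) * sum η hη h1
  have a0 := p.a0
  have b0 := p.b0
  by_cases h1 : a / b = 1
  · rw [div_eq_one_iff_eq b0] at h1
    rw [h1]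
  have q2 := (p.cj hd hij).heis h.fr (hx.cj (h.fr.sw h.fr.mu_one hij)) hij h.mu
  simp only [N_smul_left, N_smul_right, smul_smul] at q2
  rw [← N_smul_left, ← N_smul_right] at q2
  have t : Tv G (f, ((ζ - 1) * (1 - ζ⁻¹) * (a / b - (a / b)⁻¹)) • χ) := by
    convert p.comm hd q q2 using 3
    rw [inv_div]
    ring
  have c := uq t (tv ζ h.mu) (ne (div_ne_zero a0 b0) h1) (ne z0 h.z1)
  have s := sum ζ h.mu h.z1
  have c1 : ζ - ζ⁻¹ = 1 := by
    field_simp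
    linear_combination s - (ζ + 1) * h2
  rw [c1] at c
  field_simp at c
  linear_combination (a - b) * c + (a ^ 2 * b - b ^ 3) * h2

end P2

theorem Fm.ratio (h : Fm G e ε ζ) (hx : Rf G x) {c : K} (h0 : c ≠ 0) (hX : ∀ l, X e ε x l = c)
    (hij : i ≠ j) (hη : Mu G e ε η) : T c (η * ((ε i ⬝ᵥ x.1) / (ε j ⬝ᵥ x.1))) := by
  obtain ⟨k, hik, hjk⟩ := third hij
  have hd := h.fr.dual
  have e0 := hη.1
  have v0 : ∀ l, ε l ⬝ᵥ x.1 ≠ 0 := fun l => left_ne_zero_of_mul (hX l ▸ h0 : X e ε x l ≠ 0)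
  have pv : ∀ l, x.2 ⬝ᵥ e l = c / (ε l ⬝ᵥ x.1) := fun l => by
    rw [eq_div_iff (v0 l), mul_comm]
    exact hX l
  have vi := v0 i
  have vj := v0 j
  have vk := v0 k
  have zz : ∀ l, Z e ε (cj x (sw e ε i j η)) l → T c (η * ((ε i ⬝ᵥ x.1) / (ε j ⬝ᵥ x.1))) := by
    have fin : ∀ A : K, A ≠ 0 → c * (1 - A) = 1 → c * (A - 1) = A → T c A := fun A _ p q => by
      have e : A = -1 := by linear_combination -p - q
      exact Or.inr (Or.inr ⟨e, by linear_combination p + c * e⟩)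
    intro l ⟨z1, z2⟩
    rcases cover hij hik hjk l with rfl | rfl | rfl <;>
      simp only [cj_dot_left, cj_dot_right, sw, sub_dotProduct, dotProduct_sub, smul_dotProduct,
        dotProduct_smul, hd.same, hd.ne hij, hd.ne hij.symm, hd.ne hik, hd.ne hik.symm, hd.ne hjk,
        hd.ne hjk.symm, pv, smul_eq_mul] at z1 z2
    · refine fin _ (mul_ne_zero e0 (div_ne_zero vi vj)) ?_ ?_
      · field_simp at z1 ⊢
        linear_combination -z1
      · field_simp at z2 ⊢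
        linear_combination -z2
    · refine fin _ (mul_ne_zero e0 (div_ne_zero vi vj)) ?_ ?_
      · field_simp at z2 ⊢
        linear_combination z2
      · field_simp at z1 ⊢
        linear_combination z1
    · refine Or.inl ?_
      field_simp at z2 ⊢
      exact mul_left_cancel₀ h0 (by linear_combination -z2)
  rcases h.step1 (hx.cj (h.fr.sw hη hij)) with p | ⟨l, -, p⟩ | ⟨l, p, -⟩ | ⟨-, l, p, -⟩
  · have q := p i k
    simp only [X, cj_dot_left, cj_dot_right, sw, sub_dotProduct, dotProduct_sub, smul_dotProduct,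
      dotProduct_smul, hd.same, hd.ne hij, hd.ne hij.symm, hd.ne hik, hd.ne hik.symm, hd.ne hjk,
      hd.ne hjk.symm, pv, smul_eq_mul] at q
    refine Or.inr (Or.inl ?_)
    field_simp at q ⊢
    exact mul_left_cancel₀ vk (by linear_combination -q)
  · obtain ⟨r, -, -, hr, -⟩ := others l
    exact zz r (p r hr)
  · exact zz l p
  · exact zz l p

theorem Fm.pat (h : Fm G e ε ζ) (hx : Rf G x) : Pat G e ε x := by
  have hd := h.fr.dual
  rcases h.step1 hx with p | p | ⟨k, zk, p⟩ | ⟨i, -, -, p⟩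
  · by_cases h0 : X e ε x 0 = 0
    · exact Or.inl (h.allZ hx fun i => (p i 0).trans h0)
    have v0 : ∀ l, ε l ⬝ᵥ x.1 ≠ 0 := fun l => left_ne_zero_of_mul (p l 0 ▸ h0 : X e ε x l ≠ 0)
    have t := fun i j η (hij : i ≠ j) => h.ratio (η := η) hx h0 (fun l => p l 0) hij
    have fin : ∀ r : ℕ, (∀ A, T (X e ε x 0) A → A ^ r = 1) → (∀ η, Mu G e ε η → η ^ r = 1) ∧
        ∀ i j, (ε i ⬝ᵥ x.1) ^ r = (ε j ⬝ᵥ x.1) ^ r := fun r hr => by
      have a := fun i j hij => hr _ (t i j 1 hij h.fr.mu_one)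
      refine ⟨fun η hη => ?_, fun i j => ?_⟩
      · have b := hr _ (t 0 1 η (by decide) hη)
        have c := a 0 1 (by decide)
        rw [one_mul] at c
        rwa [mul_pow, c, mul_one] at b
      · by_cases hij : i = j
        · rw [hij]
        · have c := a i j hij
          rwa [one_mul, div_pow, div_eq_one_iff_eq (pow_ne_zero _ (v0 j))] at c
    refine Or.inr (Or.inr (Or.inr (Or.inr (Or.inr ?_))))
    by_cases h2 : 2 * X e ε x 0 = 1
    · obtain ⟨a, b⟩ := fin 4 fun A hA => hA.four h2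
      exact Or.inr ⟨a, fun i => p i 0 ▸ h2, b⟩
    · have h3 := three h0 (div_ne_zero (v0 0) (v0 1)) h.mu.1 h.z2 h2 fun k =>
        t 0 1 _ (by decide) (h.fr.mu_pow h.mu k)
      obtain ⟨a, b⟩ := fin 3 fun A hA => hA.cube h2 h3
      exact Or.inl ⟨a, fun i => p i 0 ▸ h3, b⟩
  · exact Or.inr (Or.inl p)
  · obtain ⟨i, j, hij, hik, hjk⟩ := others k
    obtain ⟨f, χ, q⟩ := exists_P2 hd hx hij hik hjk (p i hik) (p j hjk) zk
    rcases q.main h hx hij with ⟨rfl, rfl⟩ | ⟨h2, h3, h4⟩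
    · have a0 := q.a0
      have b0 := q.b0
      have e1 := q.e1
      have e2 := q.e2
      generalize ε i ⬝ᵥ x.1 = a at *
      generalize ε j ⬝ᵥ x.1 = b at *
      have e3 : N x = N (sw e ε i j (-(b / a))) := by
        rw [← N_scale a0 (sw e ε i j (-(b / a)))]
        refine congrArg N (Prod.ext ?_ ?_) <;> simp only [e1, e2, sw] <;> match_scalars <;>
          field_simp
      exact Or.inr (Or.inr (Or.inl ⟨i, j, _, hij, h.fr.mu_of (neg_ne_zero.2 (div_ne_zero b0 a0)) hij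
        (hx.of_N e3.symm), e3⟩))
    · refine Or.inr (Or.inr (Or.inr (Or.inr (Or.inl ⟨h2, h3, k, zk, p, fun r s hr hs => ?_⟩))))
      rcases cover hij hik hjk r with rfl | rfl | rfl <;>
        rcases cover hij hik hjk s with rfl | rfl | rfl <;> simp_all
  · exact Or.inr (Or.inr (Or.inr (Or.inl ⟨i, p⟩)))

theorem jobMA : JobMA.{u} := fun _ _ _ hG _ _ _ fr mu z2 hp _ hx =>
  Fm.pat ⟨hG.thin, hG.tv, fr, mu, z2, hp⟩ hx

end H71.LD
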