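import Cfsg.Agent.H71.LDMA

/-! LD5 job MB: frames have parameter group of order three. -/

set_option autoImplicit false

open Matrix Cfsg Cfsg.Geo H41.LD

namespace H71.LD

universe u

variable {K : Type u} [Field K] {n m : ℕ} {G : Subgroup (GL (Fin n) K)} {x : R n K} {M : K → Prop}
  {e ε : Fin m → Fin n → K} {i j k : Fin m}

/-- The pair `i, j` behaves as the first pair of the given frame. -/
def PF (G : Subgroup (GL (Fin n) K)) (M : K → Prop) (e ε : Fin m → Fin n → K) (i j : Fin m) : Prop :=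
  (∀ η, η ≠ 0 → (Rf G (sw e ε i j η) ↔ M η)) ∧ ∀ x, Rf G x → HP2 e ε x i j

/-- Frames of arbitrary rank. -/
structure KF (G : Subgroup (GL (Fin n) K)) (M : K → Prop) (e ε : Fin m → Fin n → K) : Prop where
  dual : Dual e ε
  pf : ∀ i j, i ≠ j → PF G M e ε i j

theorem PF.swap (hd : Dual e ε) {a b : Fin m} (hab : a ≠ b) (s : Rf G (sw e ε a b 1))
    (h : PF G M e ε i j) : PF G M e ε (Equiv.swap a b i) (Equiv.swap a b j) :=
  ⟨fun η h0 => Iff.trans ⟨fun r => by simpa [cj_sw_one hd] using s.cj r,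
    fun r => cj_sw_one hd a b i j η ▸ s.cj r⟩ (h.1 η h0),
    fun x hx => HP2.of_cj hd hab (h.2 _ (s.cj hx))⟩

theorem exists_third (hm : 3 ≤ m) (i j : Fin m) : ∃ k, i ≠ k ∧ j ≠ k := by
  by_contra h
  push Not at h
  have h0 := h ⟨0, by omega⟩
  have h1 := h ⟨1, by omega⟩
  have h2 := h ⟨2, by omega⟩
  simp only [ne_eq, Fin.ext_iff] at h0 h1 h2
  omega

theorem Dual.le (hd : Dual e ε) : m ≤ n := by
  have := rank_mul_le_left (Matrix.of ε) (Matrix.of e)ᵀ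
  rw [hd.mul, rank_one, Fintype.card_fin] at this
  exact this.trans (rank_le_width _)

theorem KF.ext (h : KF G M e ε) (hm : 3 ≤ m) (h1 : M 1) (hx : Rf G x) (hi : X e ε x i = 1)
    (hz : ∀ j, j ≠ i → Z e ε x j) : ∃ e' ε' : Fin (m + 1) → Fin n → K, KF G M e' ε' := by
  have hd := h.dual
  have a0 := left_ne_zero_of_mul_eq_one hi
  have pa := (inv_eq_of_mul_eq_one_right hi).symm
  let E : R n K := (e i - (ε i ⬝ᵥ x.1)⁻¹ • x.1, ε i - (ε i ⬝ᵥ x.1) • x.2)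
  have hd' := hd.snoc (E := E) (by
    simp [E, hd.same, pa, hx.1, a0]
    field_simp
    ring) fun j => by
      by_cases c : j = i
      · simp [E, c, hd.same, pa, a0]
      · simp [E, hd.ne c, hd.ne (Ne.symm c), (hz j c).1, (hz j c).2]
  refine ⟨_, _, hd', ?_⟩
  have old : ∀ a b : Fin m, a ≠ b → PF G M (Fin.snoc e E.1 : Fin (m + 1) → Fin n → K) (Fin.snoc ε E.2)
      a.castSucc b.castSucc := fun a b hab => by
    simpa [PF, sw, HP2, X, Z] using h.pf a b hab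
  have s : Rf G (sw (Fin.snoc e E.1 : Fin (m + 1) → Fin n → K) (Fin.snoc ε E.2) i.castSucc
      (Fin.last m) 1) := hx.of_N (by
    rw [← N_scale (inv_ne_zero a0) x]
    simp [sw, E])
  have ne := Fin.castSucc_ne_last (n := m)
  have p1 : ∀ c, c ≠ i → PF G M (Fin.snoc e E.1 : Fin (m + 1) → Fin n → K) (Fin.snoc ε E.2)
      c.castSucc (Fin.last m) ∧ PF G M (Fin.snoc e E.1 : Fin (m + 1) → Fin n → K) (Fin.snoc ε E.2)
      (Fin.last m) c.castSucc := fun c hc => by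
    have a := (old c i hc).swap hd' (ne i) s
    have b := (old i c hc.symm).swap hd' (ne i) s
    rw [Equiv.swap_apply_left, Equiv.swap_apply_of_ne_of_ne (Fin.castSucc_injective m |>.ne hc)
      (ne c)] at a b
    exact ⟨a, b⟩
  have p2 : ∀ c : Fin m, PF G M (Fin.snoc e E.1 : Fin (m + 1) → Fin n → K) (Fin.snoc ε E.2)
      c.castSucc (Fin.last m) ∧ PF G M (Fin.snoc e E.1 : Fin (m + 1) → Fin n → K) (Fin.snoc ε E.2)
      (Fin.last m) c.castSucc := fun c => by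
    by_cases hc : c = i
    swap; · exact p1 c hc
    subst hc
    obtain ⟨d, hcd, -⟩ := exists_third hm c c
    have n' := Fin.castSucc_injective m |>.ne hcd.symm
    have s' := ((old d c hcd.symm).1 1 one_ne_zero).2 h1
    have a := (p1 d hcd.symm).1.swap hd' n' s'
    have b := (p1 d hcd.symm).2.swap hd' n' s'
    rw [Equiv.swap_apply_left, Equiv.swap_apply_of_ne_of_ne (ne d).symm (ne c).symm] at a b
    exact ⟨a, b⟩
  intro a b
  refine Fin.lastCases ?_ (fun a => ?_) a <;> refine Fin.lastCases ?_ (fun b => ?_) b <;> intro hab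
  exacts [(hab rfl).elim, (p2 b).2, (p2 a).1, old a b fun c => hab (c ▸ rfl)]

/-- Monomial reflections. -/
def Mon (e ε : Fin m → Fin n → K) (x : R n K) : Prop :=
  (∃ a b η, a ≠ b ∧ η ≠ 0 ∧ N x = N (sw e ε a b η)) ∨ ∃ a, N x = N (dg e ε a)

theorem Mon.two (h : Mon e ε x) (hx : Rf G x) : ∃ (a b : Fin m) (c d : K), x.1 = c • e a + d • e b := by
  have key : ∀ y : R n K, N x = N y → ∃ c : K, x.1 = c • y.1 := fun y p => by
    have := mt N_eq_zero.2 (p ▸ hx.N_ne)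
    push Not at this
    obtain ⟨c, -, q, -⟩ := exists_smul_of_N p this.1 this.2
    exact ⟨c, q⟩
  rcases h with ⟨a, b, η, -, -, p⟩ | ⟨a, p⟩ <;> obtain ⟨c, q⟩ := key _ p
  · exact ⟨a, b, c, -(c * η), by rw [q, sw]; module⟩
  · exact ⟨a, a, c, 0, by rw [q, dg]; module⟩

theorem Mon.mem (h : Mon e ε x) (hx : Rf G x) : x.1 ∈ Submodule.span K (Set.range e) := by
  obtain ⟨a, b, c, d, p⟩ := h.two hx
  exact p ▸ add_mem (Submodule.smul_mem _ _ (Submodule.subset_span ⟨a, rfl⟩))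
    (Submodule.smul_mem _ _ (Submodule.subset_span ⟨b, rfl⟩))

theorem Mon.perm (h : Mon e ε x) (hd : Dual e ε) (i : Fin m) :
    ∃ j, (1 - N x) * N (e i, ε i) = N (e j, ε j) * (1 - N x) := by
  rcases h with ⟨a, b, η, hab, h0, p⟩ | ⟨a, p⟩ <;> rw [p]
  · refine ⟨Equiv.swap a b i, ?_⟩
    by_cases h1 : i = a
    · simp only [h1, Equiv.swap_apply_left, sw, N_sub_left, N_sub_right, N_smul_left, N_smul_right,
        mul_sub, sub_mul, smul_mul_assoc, mul_smul_comm, N_mk_mul, hd.same,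
        hd.ne hab.symm, mul_one, one_mul]
      match_scalars <;> field_simp <;> ring
    by_cases h2 : i = b
    · simp only [h2, Equiv.swap_apply_right, sw, N_sub_left, N_sub_right, N_smul_left, N_smul_right,
        mul_sub, sub_mul, smul_mul_assoc, mul_smul_comm, N_mk_mul, hd.same, hd.ne hab,
        mul_one, one_mul]
      match_scalars <;> field_simp <;> ring
    · simp [Equiv.swap_apply_of_ne_of_ne h1 h2, sw, mul_sub, sub_mul, N_mk_mul, hd.ne h1, hd.ne h2,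
        hd.ne (Ne.symm h1), hd.ne (Ne.symm h2)]
  · refine ⟨i, ?_⟩
    by_cases h1 : i = a
    · simp [h1, dg, N_smul_right, mul_sub, sub_mul]
    · simp [dg, mul_sub, sub_mul, N_mk_mul, hd.ne h1, hd.ne (Ne.symm h1)]

/-- The data of the main argument. -/
structure Bad (G : Subgroup (GL (Fin n) K)) (M : K → Prop) (ζ : K) : Prop where
  th : Thin G
  tv : (2 : K) ≠ 0 → NoTv G
  ne : ∀ η, M η → η ≠ 0
  one : M 1
  mu : M ζ
  pow : ∀ k : ℕ, M (ζ ^ k)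
  z2 : ζ ^ 2 ≠ 1
  ex : ∃ η, M η ∧ η ^ 3 ≠ 1

variable {ζ : K}

theorem KF.tri (h : KF G M e ε) (B : Bad G M ζ) (hx : Rf G x) (hij : i ≠ j) (hik : i ≠ k)
    (hjk : j ≠ k) : Z e ε x i ∨ (X e ε x i = 1 ∧ Z e ε x j) ∨ Mon e ε x ∨
      ((∀ η, M η → η ^ 4 = 1) ∧ 2 * X e ε x i = 1 ∧ 2 * X e ε x j = 1 ∧
        (ε i ⬝ᵥ x.1) ^ 4 = (ε j ⬝ᵥ x.1) ^ 4) := by
  have hσ : Function.Injective ![i, j, k] := fun a b => by
    fin_cases a <;> fin_cases b <;> simp [hij, hik, hjk, hij.symm, hik.symm, hjk.symm]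
  have mu : ∀ η, Mu G (e ∘ ![i, j, k]) (ε ∘ ![i, j, k]) η ↔ M η := fun η =>
    ⟨fun a => ((h.pf i j hij).1 η a.1).1 a.2, fun a => ⟨B.ne η a, ((h.pf i j hij).1 η (B.ne η a)).2 a⟩⟩
  have F : Fm G (e ∘ ![i, j, k]) (ε ∘ ![i, j, k]) ζ := ⟨B.th, B.tv, ⟨h.dual.perm hσ,
    ((h.pf i j hij).1 1 one_ne_zero).2 B.one, ((h.pf j k hjk).1 1 one_ne_zero).2 B.one⟩,
    (mu ζ).2 B.mu, B.z2, fun y hy => (h.pf i j hij).2 y hy⟩
  obtain ⟨η, h1, h2⟩ := B.ex
  rcases F.pat hx with p | ⟨l, p, q⟩ | ⟨a, b, θ, hab, p, q⟩ | ⟨a, -, p⟩ | ⟨-, p, -⟩ | ⟨p, -⟩ |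
    ⟨p, q, r⟩
  · exact Or.inl (p 0)
  · by_cases c : l = 0
    · subst c
      exact Or.inr (Or.inl ⟨p, q 1 (by decide)⟩)
    · exact Or.inl (q 0 (Ne.symm c))
  · exact Or.inr (Or.inr (Or.inl (Or.inl ⟨_, _, θ, hσ.ne hab, p.1, q⟩)))
  · exact Or.inr (Or.inr (Or.inl (Or.inr ⟨_, p⟩)))
  · exact (h2 (p η ((mu η).2 h1))).elim
  · exact (h2 (p η ((mu η).2 h1))).elim
  · exact Or.inr (Or.inr (Or.inr ⟨fun θ a => p θ ((mu θ).2 a), q 0, q 1, r 0 1⟩))

variable (h : KF G M e ε) (B : Bad G M ζ) (hm : 3 ≤ m)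
  (mx : ¬ ∃ e' ε' : Fin (m + 1) → Fin n → K, KF G M e' ε')
include h B hm mx

theorem KF.cls (hx : Rf G x) : (∀ i, Z e ε x i) ∨ Mon e ε x ∨
    ((∀ η, M η → η ^ 4 = 1) ∧ (∀ l, 2 * X e ε x l = 1) ∧
      ∃ i j, i ≠ j ∧ (ε i ⬝ᵥ x.1) ^ 4 = (ε j ⬝ᵥ x.1) ^ 4) := by
  refine or_iff_not_imp_left.2 fun nz => or_iff_not_imp_left.2 fun nm => ?_
  push Not at nz
  obtain ⟨i, nz⟩ := nz
  have t := fun j (hj : j ≠ i) => ((h.tri B hx hj.symm (exists_third hm i j).choose_spec.1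
    (exists_third hm i j).choose_spec.2).resolve_left nz).imp_right (Or.resolve_left · nm)
  by_cases h1 : X e ε x i = 1
  · refine (mx (h.ext hm B.one hx h1 fun j hj => (t j hj).elim And.right fun c => ?_)).elim
    exact absurd (by linear_combination c.2.1 - 2 * h1 : (1 : K) = 0) one_ne_zero
  have t' := fun j hj => (t j hj).resolve_left fun c => h1 c.1
  obtain ⟨j, hij, -⟩ := exists_third hm i i
  refine ⟨(t' j hij.symm).1, fun l => ?_, i, j, hij, (t' j hij.symm).2.2.2⟩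
  by_cases c : l = i
  exacts [c ▸ (t' j hij.symm).2.1, (t' l c).2.2.1]

theorem KF.cls' (hx : Rf G x) : (∀ i, Z e ε x i) ∨ Mon e ε x ∨
    (m < 5 ∧ x.1 ∈ Submodule.span K (Set.range e)) := by
  refine (h.cls B hm mx hx).imp_right (Or.imp_right fun ⟨h4, h2, i, j, hij, hv⟩ => ?_)
  have hd := h.dual
  have v0 : ∀ l, ε l ⬝ᵥ x.1 ≠ 0 := fun l => left_ne_zero_of_mul (right_ne_zero_of_mul_eq_one (h2 l))
  have t0 : (2 : K) ≠ 0 := left_ne_zero_of_mul_eq_one (h2 i)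
  have pv : ∀ l, x.2 ⬝ᵥ e l = (2 * (ε l ⬝ᵥ x.1))⁻¹ := fun l =>
    (inv_eq_of_mul_eq_one_right (by rw [mul_assoc]; exact h2 l)).symm
  have vi := v0 i
  have vj := v0 j
  have hη : M (-((ε j ⬝ᵥ x.1) / (ε i ⬝ᵥ x.1))) := by
    have e1 : (-((ε j ⬝ᵥ x.1) / (ε i ⬝ᵥ x.1))) ^ 4 = 1 := by
      rw [Even.neg_pow (by decide), div_pow, ← hv, div_self (pow_ne_zero _ vi)]
    generalize -((ε j ⬝ᵥ x.1) / (ε i ⬝ᵥ x.1)) = η at e1
    have e2 : ζ ^ 2 = -1 := mul_left_cancel₀ (sub_ne_zero.2 B.z2) (by linear_combination h4 ζ B.mu)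
    have e3 : (η - ζ ^ 0) * (η - ζ ^ 1) * (η - ζ ^ 2) * (η - ζ ^ 3) = 0 := by
      linear_combination e1 + (ζ ^ 4 - ζ ^ 2 + 1 - η * ζ * (ζ ^ 2 + ζ - 1 + 1) * ζ - η * ζ + η * ζ ^ 2
        + η ^ 2 * (ζ ^ 3 + ζ ^ 2 + ζ) - η ^ 3 * (ζ + 1) + η * ζ * (1 - ζ)) * e2
    simp only [mul_eq_zero, sub_eq_zero] at e3
    rcases e3 with ((rfl | rfl) | rfl) | rfl <;> exact B.pow _
  have ht := hx.cj (((h.pf i j hij).1 _ (B.ne _ hη)).2 hη)
  have α : x.2 ⬝ᵥ (sw e ε i j (-((ε j ⬝ᵥ x.1) / (ε i ⬝ᵥ x.1)))).1 = (ε i ⬝ᵥ x.1)⁻¹ := by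
    simp only [sw, dotProduct_sub, dotProduct_smul, pv, smul_eq_mul]
    field_simp
    ring
  have c1 : ∀ l, i ≠ l → j ≠ l →
      ε l ⬝ᵥ (cj x (sw e ε i j (-((ε j ⬝ᵥ x.1) / (ε i ⬝ᵥ x.1))))).1 ≠ 0 := fun l p q => by
    rw [cj_dot_right, α]
    simp [sw, hd.ne p.symm, hd.ne q.symm, vi, v0 l]
  have c2 : ε i ⬝ᵥ (cj x (sw e ε i j (-((ε j ⬝ᵥ x.1) / (ε i ⬝ᵥ x.1))))).1 = 0 := by
    rw [cj_dot_right, α]
    simp [sw, hd.same, hd.ne hij, vi]
  rcases h.cls B hm mx ht with p | p | ⟨-, p, -⟩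
  · obtain ⟨k, a, b⟩ := exists_third hm i j
    exact (c1 k a b (p k).1).elim
  · constructor
    · obtain ⟨a, b, c, d, q⟩ := p.two ht
      by_contra h5
      obtain ⟨l, -, hl⟩ := Finset.exists_mem_notMem_of_card_lt_card (s := {i, j, a, b})
        (t := Finset.univ) (Finset.card_le_four.trans_lt (by simp; omega))
      simp only [Finset.mem_insert, Finset.mem_singleton, not_or] at hl
      exact c1 l (Ne.symm hl.1) (Ne.symm hl.2.1) (by simp [q, hd.ne hl.2.2.1, hd.ne hl.2.2.2])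
    · have q := p.mem ht
      simp only [cj, α] at q
      exact (Submodule.smul_mem_iff _ (inv_ne_zero vi)).1 ((Submodule.sub_mem_iff_right _
        (sub_mem (Submodule.subset_span (Set.mem_range_self i))
          (Submodule.smul_mem _ _ (Submodule.subset_span (Set.mem_range_self j))))).1 q)
  · have := p i
    simp [X, c2] at this

omit h B hm mx

theorem KF.false {G : Subgroup (GL (Fin 5) K)} {e ε : Fin m → Fin 5 → K} (hG : RS G)
    (h : KF G M e ε) (B : Bad G M ζ) (hm : 3 ≤ m)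
    (mx : ¬ ∃ e' ε' : Fin (m + 1) → Fin 5 → K, KF G M e' ε') : False := by
  have hd := h.dual
  obtain ⟨j, hij, -⟩ := exists_third hm ⟨0, by omega⟩ ⟨0, by omega⟩
  generalize (⟨0, by omega⟩ : Fin m) = i at hij
  have s := fun η hη => ((h.pf i j hij).1 η (B.ne η hη)).2 hη
  have e0 : e i ≠ 0 := fun c => by simpa [c] using hd.same i
  have ε0 : ε i ≠ 0 := fun c => by simpa [c] using hd.same i
  rcases (Dual.le hd).lt_or_eq with h5 | rfl
  · obtain ⟨y, hy, h1, w, hw, h2⟩ := hG.exists_out (s 1 B.one) (W := Submodule.span K (Set.range e))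
      (fun c => e0 ((Submodule.eq_bot_iff _).1 c _ (Submodule.subset_span ⟨i, rfl⟩)))
      (span_ne_top h5 e)
    rcases h.cls' B hm mx hy with p | p | p
    · refine h2 (Submodule.span_induction (p := fun w _ => y.2 ⬝ᵥ w = 0) ?_ (by simp)
        (fun a b _ _ ha hb => by simp [ha, hb]) (fun c a _ ha => by simp [ha]) hw)
      rintro _ ⟨l, rfl⟩
      exact (p l).2
    exacts [h1 (p.mem hy), h1 p.2]
  have mon : ∀ y, Rf G y → Mon e ε y := fun y hy => by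
    rcases h.cls' B hm mx hy with p | p | p
    · refine (hy.2.1 ?_).elim
      rw [← one_mulVec y.1, ← hd.sum_eq_one, sum_mulVec]
      simp [N_mulVec, fun l => (p l).1]
    exacts [p, absurd p.1 (lt_irrefl _)]
  have perm : ∀ g ∈ G, ∀ a, ∃ b, g.val * N (e a, ε a) = N (e b, ε b) * g.val := fun g hg => by
    obtain ⟨k, hk, c, rfl⟩ := mem_sup_scalars ((hG.gen_all (s 1 B.one)).2 hg)
    have := gen_induction (fun _ a => a.1)
      (p := fun A => ∀ a, ∃ b, A * N (e a, ε a) = N (e b, ε b) * A) (fun a => ⟨a, by simp⟩)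
      (fun y hy A hA a => by
        obtain ⟨b, p⟩ := hA a
        obtain ⟨c, q⟩ := (mon y hy).perm hd b
        exact ⟨c, by rw [mul_assoc, p, ← mul_assoc, q, mul_assoc]⟩) hk
    exact fun a => (this a).imp fun b p => by simp [p]
  let L : Subgroup (GL (Fin 5) K) :=
    { carrier := {g | g ∈ G ∧ ∀ a, Commute (N (e a, ε a)) g.val}
      one_mem' := ⟨G.one_mem, fun a => Commute.one_right _⟩
      mul_mem' := fun p q => ⟨G.mul_mem p.1 q.1, fun a => (p.2 a).mul_right (q.2 a)⟩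
      inv_mem' := fun p => ⟨G.inv_mem p.1, fun a => (p.2 a).units_inv_right⟩ }
  rcases hG.qp L (fun g hg => hg.1) (fun g hg y hy => ⟨G.mul_mem (G.mul_mem hg hy.1) (G.inv_mem hg),
    fun a => by
      obtain ⟨b, p⟩ := perm _ (G.inv_mem hg) a
      have q : N (e a, ε a) * g.val = g.val * N (e b, ε b) := by
        rw [← one_mul (N (e a, ε a)), ← g.mul_inv, mul_assoc g.val, p, mul_assoc, mul_assoc,
          g.inv_mul, mul_one]
      change _ * (g.val * y.val * (g⁻¹).val) = g.val * y.val * (g⁻¹).val * _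
      rw [mul_assoc _ (g⁻¹).val, p, ← mul_assoc, ← mul_assoc, q, mul_assoc g.val, (hy.2 b).eq]
      simp only [mul_assoc]⟩) with c | ⟨c, -⟩
  · obtain ⟨g, hg, p⟩ := (s 1 B.one).isIn.mul (s ζ B.mu).isIn
    rw [sw_mul_sw hd hij (B.ne ζ B.mu) one_ne_zero, inv_one, mul_one, mul_one] at p
    have cm : ∀ a b, Commute (N (e a, ε a)) (N (e b, ε b)) := fun a b => by
      by_cases c : a = b
      · rw [c]
      · simp [commute_iff_eq, N_mk_mul, hd.ne c, hd.ne (Ne.symm c)]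
    obtain ⟨d, q⟩ := (mem_scalars_iff g).1 (c ⟨hg, fun a => p ▸
      ((Commute.one_right _).add_right ((cm a i).smul_right _)).add_right ((cm a j).smul_right _)⟩)
    have r := fun a => congrArg (fun A => ε a ⬝ᵥ A *ᵥ e a) (p.symm.trans q)
    have r1 := r i
    have r2 := r j
    simp [add_mulVec, smul_mulVec, N_mulVec, hd.same, hd.ne hij, hd.ne hij.symm] at r1 r2
    exact B.z2 (by rw [pow_two]; nth_rw 1 [r1, ← r2]; exact inv_mul_cancel₀ (B.ne ζ B.mu))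
  · obtain ⟨d, q⟩ := H19.exists_smul_of_commute_gspan c fun g hg => (hg.2 i).eq
    exact N_ne_smul_one (by norm_num) (mt N_eq_zero.1 (not_or.2 ⟨e0, ε0⟩)) d q

theorem cv {e ε : Fin 3 → Fin n → K} (F : Fm G e ε ζ) (h3 : ∀ η, Mu G e ε η → η ^ 3 = 1)
    (hx : Rf G x) : cc (sw e ε 0 1 1) x = 0 ∨ cc (sw e ε 0 1 1) x = 1 ∨ N x = N (sw e ε 0 1 1) := by
  have hd := F.fr.dual
  have c := cc_sw e ε 0 1 (one_ne_zero (α := K)) x
  have cube : ∀ a : K, a ^ 3 = 1 → a = 1 ∨ a + a⁻¹ = -1 := fun a ha =>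
    or_iff_not_imp_left.2 fun p => by
      have a0 : a ≠ 0 := fun q => by simp [q] at ha
      field_simp
      exact mul_left_cancel₀ (sub_ne_zero.2 p) (by linear_combination ha)
  have eq : ∀ r : K, r ≠ 0 → X e ε x 0 = r → X e ε x 1 = r → (ε 0 ⬝ᵥ x.1) ^ 3 = (ε 1 ⬝ᵥ x.1) ^ 3 →
      cc (sw e ε 0 1 1) x = 0 ∨ cc (sw e ε 0 1 1) x = 3 * r := fun r r0 p q t => by
    have v0 : ε 0 ⬝ᵥ x.1 ≠ 0 := left_ne_zero_of_mul (p ▸ r0 : X e ε x 0 ≠ 0)
    have v1 : ε 1 ⬝ᵥ x.1 ≠ 0 := left_ne_zero_of_mul (q ▸ r0 : X e ε x 1 ≠ 0)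
    have p0 : x.2 ⬝ᵥ e 0 = r / (ε 0 ⬝ᵥ x.1) := by rw [eq_div_iff v0, mul_comm]; exact p
    have p1 : x.2 ⬝ᵥ e 1 = r / (ε 1 ⬝ᵥ x.1) := by rw [eq_div_iff v1, mul_comm]; exact q
    have c' : cc (sw e ε 0 1 1) x =
        r * (2 - ((ε 0 ⬝ᵥ x.1) / (ε 1 ⬝ᵥ x.1) + ((ε 0 ⬝ᵥ x.1) / (ε 1 ⬝ᵥ x.1))⁻¹)) := by
      rw [c, p, q, p0, p1]
      field_simp
      ring
    rcases cube ((ε 0 ⬝ᵥ x.1) / (ε 1 ⬝ᵥ x.1)) (by rw [div_pow, t, div_self (pow_ne_zero _ v1)])
      with a | a <;> rw [a] at c'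
    · exact Or.inl (by rw [c']; norm_num)
    · exact Or.inr (by rw [c']; ring)
  have z0 : Z e ε x 0 → cc (sw e ε 0 1 1) x = X e ε x 1 := fun p => by simp [c, X, p.1, p.2]
  have z1 : Z e ε x 1 → cc (sw e ε 0 1 1) x = X e ε x 0 := fun p => by simp [c, X, p.1, p.2]
  rcases F.pat hx with p | ⟨l, p, q⟩ | ⟨a, b, θ, hab, p, q⟩ | ⟨a, t, p⟩ | ⟨t, -, k, p, q, r⟩ |
    ⟨-, p, q⟩ | ⟨p, -⟩
  · exact Or.inl ((z0 (p 0)).trans (Z.X (p 1)))
  · fin_cases l
    exacts [Or.inr (Or.inl ((z1 (q 1 (by decide))).trans p)),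
      Or.inr (Or.inl ((z0 (q 0 (by decide))).trans p)),
      Or.inl ((z0 (q 0 (by decide))).trans (Z.X (q 1 (by decide))))]
  · rw [cc_congr rfl q, q]
    have θ0 := p.1
    have k01 : ∀ θ : K, θ ≠ 0 → θ ^ 3 = 1 → cc (sw e ε 0 1 1) (sw e ε 0 1 θ) = 1 ∨
        N (sw e ε 0 1 θ) = N (sw e ε 0 1 1) := fun θ θ0 t => by
      rcases cube θ t with rfl | a
      · exact Or.inr rfl
      · exact Or.inl (by rw [cc_sw_sw hd (by decide) one_ne_zero θ0]; linear_combination a)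
    have d : ∀ i j, ε i ⬝ᵥ e j = if i = j then 1 else 0 := hd
    fin_cases a <;> fin_cases b <;> simp at hab
    · exact Or.inr (k01 θ θ0 (h3 θ p))
    · simp [cc, sw, d]
    · have := N_sw_symm e ε 1 0 θ0
      have r := k01 _ (inv_ne_zero θ0) (h3 _ (F.fr.mu_inv p))
      rw [cc_congr rfl this, this] at r
      exact Or.inr r
    · simp [cc, sw, d]
    · simp [cc, sw, d, θ0]
    · simp [cc, sw, d, θ0]
  · obtain ⟨b, hab, -⟩ := exists_third le_rfl a a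
    have r := (hx.of_N p.symm).cj (F.fr.sw F.fr.mu_one hab)
    have r' : Rf G (sw e ε a b (-1)) := r.of_N (by
      rw [← N_scale (neg_ne_zero.2 (one_ne_zero (α := K))) (sw e ε a b (-1))]
      refine congrArg N (Prod.ext ?_ ?_) <;>
        simp [cj, sw, dg, hd.same, hd.ne hab, hd.ne hab.symm] <;> module)
    exact (t (by linear_combination -h3 _ (F.fr.mu_of (by simp) hab r'))).elim
  · fin_cases k
    exacts [Or.inr (Or.inl ((z0 p).trans (q 1 (by decide)))),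
      Or.inr (Or.inl ((z1 p).trans (q 0 (by decide)))),
      (eq 1 one_ne_zero (q 0 (by decide)) (q 1 (by decide)) (r 0 1 (by decide) (by decide))).imp_right
        fun a => Or.inl (by linear_combination a + t)]
  · have t0 : (3 : K) ≠ 0 := left_ne_zero_of_mul_eq_one (p 0)
    exact (eq _ (right_ne_zero_of_mul_eq_one (p 0)) rfl (mul_left_cancel₀ t0 ((p 1).trans (p 0).symm))
      (q 0 1)).imp_right fun a => Or.inl (a.trans (p 0))
  · exact (F.z1 (by linear_combination p ζ F.mu - ζ * h3 ζ F.mu)).elim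

theorem jobMB : JobMB.{u} := fun _ K _ G hG e ε ζ fr mu z2 hp => by
  have F : Fm G e ε ζ := ⟨hG.thin, hG.tv, fr, mu, z2, hp⟩
  have h3 : ∀ η, Mu G e ε η → η ^ 3 = 1 := by
    by_contra c
    push Not at c
    have B : Bad G (Mu G e ε) ζ :=
      ⟨hG.thin, hG.tv, fun _ a => a.1, fr.mu_one, mu, fr.mu_pow mu, z2, c⟩
    have k3 : KF G (Mu G e ε) e ε := ⟨fr.dual, fun i j hij =>
      ⟨fun η h0 => ⟨fr.mu_of h0 hij, fun a => fr.sw a hij⟩, fun x hx => hp.pair fr hx hij⟩⟩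
    refine k3.false hG B le_rfl fun ⟨_, _, k4⟩ => k4.false hG B (by decide) fun ⟨_, _, k5⟩ =>
      k5.false hG B (by decide) fun ⟨_, _, k6⟩ => absurd (Dual.le k6.dual) (by decide)
  have om : ζ ^ 2 + ζ + 1 = 0 :=
    mul_left_cancel₀ (sub_ne_zero.2 F.z1) (by linear_combination h3 ζ mu)
  refine ⟨fr, om, fun t => F.z1 (sub_eq_zero.1 (pow_eq_zero_iff two_ne_zero |>.1
    (by linear_combination om - ζ * t : (ζ - 1) ^ 2 = 0))), fun η => ⟨h3 η, fun a => ?_⟩,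
    fun _ => F.pat, fun _ => cv F h3⟩
  have e3 : (η - ζ ^ 0) * (η - ζ ^ 1) * (η - ζ ^ 2) = 0 := by
    linear_combination a + (1 - ζ + η * ζ - η ^ 2) * om
  simp only [mul_eq_zero, sub_eq_zero] at e3
  rcases e3 with (rfl | rfl) | rfl <;> exact fr.mu_pow mu _

end H71.LD
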