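/- OC tower: a normal 2-subgroup acted on by a dihedral group of order 10, all element orders at
most 6. -/
import Cfsg.Agent.H74.OCSpec

set_option autoImplicit false

namespace H71.OCMod

open Cfsg Subgroup H74.OC

universe u

section
variable {H : Type u} [Group H] {Q : Subgroup H} {σ t : H}

theorem four (h : Sp 6 H) (hQ : IsPGroup 2 Q) {x : H} (hx : x ^ 4 ∈ Q) : x ^ 4 = 1 := by
  obtain ⟨k, hk⟩ := hQ ⟨_, hx⟩
  have h1 : x ^ 2 ^ (k + 2) = 1 := by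
    rw [pow_add, mul_comm, pow_mul]
    exact congrArg Subtype.val hk
  obtain ⟨j, -, hj⟩ := (Nat.dvd_prime_pow Nat.prime_two).1 (orderOf_dvd_of_pow_eq_one h1)
  have h6 := h x
  have : j ≤ 2 := by
    by_contra hlt
    have : 2 ^ 3 ≤ 2 ^ j := Nat.pow_le_pow_right (by norm_num) (by omega)
    omega
  exact orderOf_dvd_iff_pow_eq_one.1 (hj ▸ pow_dvd_pow 2 this)

theorem fpf (h : Sp 6 H) (hQ : IsPGroup 2 Q) {s : H} (hs : orderOf s = 5) {q : H} (hq : q ∈ Q)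
    (hc : s * q = q * s) : q = 1 := by
  obtain ⟨k, hk⟩ := hQ ⟨_, hq⟩
  have h1 : q ^ 2 ^ k = 1 := congrArg Subtype.val hk
  obtain ⟨j, -, hj⟩ := (Nat.dvd_prime_pow Nat.prime_two).1 (orderOf_dvd_of_pow_eq_one h1)
  have := h.mul_le hc (by rw [hs, hj]; exact Nat.Coprime.pow_right _ (by norm_num))
  have h0 : 0 < 2 ^ j := by positivity
  rw [hs, hj] at this
  exact orderOf_eq_one_iff.1 (by omega)

theorem surj [Finite H] [hn : Q.Normal] (h : Sp 6 H) (hQ : IsPGroup 2 Q) {s : H}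
    (hs : orderOf s = 5) {v : H} (hv : v ∈ Q) : ∃ y ∈ Q, v = y * (s * y⁻¹ * s⁻¹) := by
  let f : Q → Q := fun y => ⟨y * (s * (y : H)⁻¹ * s⁻¹), mul_mem y.2 (hn.conj_mem _ (inv_mem y.2) s)⟩
  have hf : Function.Injective f := fun y z e => by
    have e1 : (y : H) * (s * (y : H)⁻¹ * s⁻¹) = z * (s * (z : H)⁻¹ * s⁻¹) := congrArg Subtype.val e
    have := fpf h hQ hs (mul_mem (inv_mem z.2) y.2) (by
      calc s * ((z : H)⁻¹ * y) = (z : H)⁻¹ * (z * (s * (z : H)⁻¹ * s⁻¹)) * s * y := by group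
        _ = (z : H)⁻¹ * y * s := by rw [← e1]; group)
    exact Subtype.ext (inv_mul_eq_one.1 this).symm
  obtain ⟨y, hy⟩ := Finite.injective_iff_surjective.1 hf ⟨v, hv⟩
  exact ⟨y, y.2, (congrArg Subtype.val hy).symm⟩

theorem ord_sq (hs : orderOf σ = 5) : orderOf (σ * σ) = 5 := by
  rw [← pow_two, Nat.Coprime.orderOf_pow (by rw [hs]; norm_num), hs]

/-- The coset of `t` contains an involution inverting `σ`. -/
theorem exists_inv [Finite H] [hn : Q.Normal] (h : Sp 6 H) (hQ : IsPGroup 2 Q)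
    (hs : orderOf σ = 5) (h1 : t * σ * t⁻¹ * σ ∈ Q) (h2 : t * t ∈ Q) :
    ∃ q ∈ Q, q * t * (q * t) = 1 ∧ q * t * σ = σ⁻¹ * (q * t) := by
  have h3 : t * σ⁻¹ * t⁻¹ * σ⁻¹ ∈ Q := by
    have := hn.conj_mem _ (inv_mem h1) σ
    rwa [show σ * (t * σ * t⁻¹ * σ)⁻¹ * σ⁻¹ = t * σ⁻¹ * t⁻¹ * σ⁻¹ by group] at this
  obtain ⟨y, hy, e⟩ := surj h hQ hs h3
  have e1 : y⁻¹ * t * σ = σ⁻¹ * (y⁻¹ * t) := by
    calc y⁻¹ * t * σ = σ⁻¹ * y⁻¹ * (y * (σ * y⁻¹ * σ⁻¹)) * σ * t * σ := by group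
      _ = σ⁻¹ * (y⁻¹ * t) := by rw [← e]; group
  have e2 : y⁻¹ * t * σ⁻¹ = σ * (y⁻¹ * t) := by
    calc y⁻¹ * t * σ⁻¹ = σ * (σ⁻¹ * (y⁻¹ * t)) * σ⁻¹ := by group
      _ = σ * (y⁻¹ * t) := by rw [← e1]; group
  refine ⟨y⁻¹, inv_mem hy, fpf h hQ hs ?_ ?_, e1⟩
  · have := mul_mem (mul_mem (inv_mem hy) (hn.conj_mem _ (inv_mem hy) t)) h2
    rwa [show y⁻¹ * (t * y⁻¹ * t⁻¹) * (t * t) = y⁻¹ * t * (y⁻¹ * t) by group] at this
  · rw [← mul_assoc, ← e2, mul_assoc _ σ⁻¹, ← e1, ← mul_assoc]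

/-- The reduced setting. -/
structure Hyp (Q : Subgroup H) (σ t : H) : Prop where
  sp : Sp 6 H
  nrm : Q.Normal
  two : IsPGroup 2 Q
  ord : orderOf σ = 5
  tt : t * t = 1
  ts : t * σ = σ⁻¹ * t

namespace Hyp

variable (h : Hyp Q σ t)
include h

theorem tt' (x : H) : t * (t * x) = x := by rw [← mul_assoc, h.tt, one_mul]
theorem ti : t⁻¹ = t := inv_eq_of_mul_eq_one_right h.tt
theorem ts' (x : H) : t * (σ * x) = σ⁻¹ * (t * x) := by rw [← mul_assoc, h.ts, mul_assoc]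
theorem tsi : t * σ⁻¹ = σ * t := by
  calc t * σ⁻¹ = σ * (σ⁻¹ * t) * σ⁻¹ := by group
    _ = σ * t := by rw [← h.ts]; group
theorem tsi' (x : H) : t * (σ⁻¹ * x) = σ * (t * x) := by rw [← mul_assoc, h.tsi, mul_assoc]

theorem tq {x : H} (hx : x ∈ Q) : t * x * t ∈ Q := by
  have := h.nrm.conj_mem x hx t
  rwa [h.ti] at this

theorem eq_mem {x : H} (hx : x ∈ Q) : x * (t * x * t) ∈ Q := mul_mem hx (h.tq hx)

theorem e_sq {x : H} (hx : x ∈ Q) : x * (t * x * t) * (x * (t * x * t)) = 1 := by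
  have e : (x * t) ^ 4 = x * (t * x * t) * (x * (t * x * t)) := by
    simp only [pow_succ, pow_zero, one_mul, mul_assoc]
  rw [← e]
  exact four h.sp h.two (e ▸ mul_mem (h.eq_mem hx) (h.eq_mem hx))

theorem decomp [Finite H] {v : H} (hv : v ∈ Q) :
    ∃ x ∈ Q, ∃ r ∈ Q, v = x * (t * x * t) * (σ * (r * (t * r * t)) * σ⁻¹) := by
  have := h.nrm
  obtain ⟨y, hy, e⟩ := surj h.sp h.two (ord_sq h.ord) hv
  refine ⟨y, hy, σ⁻¹ * (t * y⁻¹ * t) * σ⁻¹⁻¹, h.nrm.conj_mem _ (h.tq (inv_mem hy)) _, ?_⟩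
  rw [e]
  simp only [mul_assoc, mul_inv_rev, inv_inv, h.tt', h.ts', h.tsi', mul_inv_cancel_left,
    h.tt, mul_one]

/-- The step from class two to exponent two. -/
theorem step [Finite H] (W : Subgroup H) [W.Normal] (hW : ∀ w ∈ W, ∀ q ∈ Q, q * w = w * q)
    (hW2 : ∀ w ∈ W, w * w = 1) (hsq : ∀ x ∈ Q, x * x ∈ W) {v : H} (hv : v ∈ Q) : v * v = 1 := by
  let π := QuotientGroup.mk' W
  have hπ : ∀ a b : H, π a = π b → ∃ w ∈ W, a = b * w := fun a b e =>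
    ⟨b⁻¹ * a, QuotientGroup.eq.1 e.symm, by group⟩
  have hs1 : ∀ x ∈ Q, π x * π x = 1 := fun x hx => by
    rw [← map_mul]; exact (QuotientGroup.eq_one_iff _).2 (hsq x hx)
  have hcm : ∀ x ∈ Q, ∀ y ∈ Q, π x * π y = π y * π x := fun x hx y hy => by
    have h1 := hs1 _ (mul_mem hx hy)
    rw [map_mul] at h1
    rw [eq_inv_of_mul_eq_one_left h1, mul_inv_rev, inv_eq_of_mul_eq_one_right (hs1 x hx),
      inv_eq_of_mul_eq_one_right (hs1 y hy)]
  let E : H → Prop := fun a => a ∈ Q ∧ ∃ x ∈ Q, π a = π (x * (t * x * t))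
  have Esq : ∀ a, E a → a * a = 1 := by
    rintro a ⟨-, x, hx, e⟩
    obtain ⟨w, hw, rfl⟩ := hπ _ _ e
    calc x * (t * x * t) * w * (x * (t * x * t) * w)
        = x * (t * x * t) * (w * (x * (t * x * t))) * w := by group
      _ = x * (t * x * t) * (x * (t * x * t)) * (w * w) := by
        rw [← hW w hw _ (h.eq_mem hx)]; group
      _ = 1 := by rw [h.e_sq hx, hW2 w hw, one_mul]
  have Emul : ∀ a b, E a → E b → E (a * b) := by
    rintro a b ⟨ha, x, hx, e⟩ ⟨hb, y, hy, e'⟩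
    refine ⟨mul_mem ha hb, x * y, mul_mem hx hy, ?_⟩
    have e1 : x * y * (t * (x * y) * t) = x * (y * (t * x * t)) * (t * y * t) := by
      simp only [mul_assoc, h.tt']
    rw [map_mul, e, e', e1, map_mul π (x * _), map_mul π x (y * _), map_mul π y (t * x * t),
      hcm y hy _ (h.tq hx), map_mul π x, map_mul π y]
    simp only [mul_assoc]
  have Ecomm : ∀ a b, E a → E b → a * b = b * a := fun a b ha hb => by
    rw [eq_inv_of_mul_eq_one_left (Esq _ (Emul a b ha hb)), mul_inv_rev,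
      inv_eq_of_mul_eq_one_right (Esq a ha), inv_eq_of_mul_eq_one_right (Esq b hb)]
  have Efix : ∀ b, E b → π (t * b * t) = π b := by
    rintro b ⟨-, x, hx, e⟩
    rw [map_mul, map_mul, e, ← map_mul, ← map_mul, show t * (x * (t * x * t)) * t = t * x * t * x by
      simp only [mul_assoc, h.tt, mul_one], map_mul π _ x, hcm _ (h.tq hx) x hx, ← map_mul]
  have E3 : ∀ b, E b → E (σ * b * σ⁻¹ * (σ⁻¹ * b * σ)) := fun b hb => by
    have h1 := h.nrm.conj_mem b hb.1 σ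
    have h2 := h.nrm.conj_mem b hb.1 σ⁻¹
    rw [inv_inv] at h2
    refine ⟨mul_mem h1 h2, _, h1, ?_⟩
    rw [show t * (σ * b * σ⁻¹) * t = σ⁻¹ * (t * b * t) * σ by
      simp only [mul_assoc, h.ts', h.ts], map_mul π (σ * b * σ⁻¹), map_mul π (σ * b * σ⁻¹),
      map_mul π _ σ, map_mul π _ σ, map_mul π σ⁻¹, map_mul π σ⁻¹, Efix b hb]
  have key : ∀ a b, E a → E b →
      σ * (a * (σ * b * σ⁻¹) * (a * (σ * b * σ⁻¹))) * σ⁻¹ =
        b * (σ * a * σ⁻¹) * (b * (σ * a * σ⁻¹)) := fun a b ha hb => by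
    have hc := E3 b hb
    have hA := h.nrm.conj_mem a ha.1 σ
    have hC := h.nrm.conj_mem _ hc.1 σ
    have hb2 := Esq b hb
    have hbi := inv_eq_of_mul_eq_one_right hb2
    have hAC : σ * a * σ⁻¹ * (σ * (σ * b * σ⁻¹ * (σ⁻¹ * b * σ)) * σ⁻¹) =
        σ * (σ * b * σ⁻¹ * (σ⁻¹ * b * σ)) * σ⁻¹ * (σ * a * σ⁻¹) := by
      calc _ = σ * (a * (σ * b * σ⁻¹ * (σ⁻¹ * b * σ))) * σ⁻¹ := by group
        _ = _ := by rw [Ecomm a _ ha hc]; group
    have hC2 : σ * (σ * b * σ⁻¹ * (σ⁻¹ * b * σ)) * σ⁻¹ *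
        (σ * (σ * b * σ⁻¹ * (σ⁻¹ * b * σ)) * σ⁻¹) = 1 := by
      calc _ = σ * (σ * b * σ⁻¹ * (σ⁻¹ * b * σ) * (σ * b * σ⁻¹ * (σ⁻¹ * b * σ))) * σ⁻¹ := by group
        _ = _ := by rw [Esq _ hc]; group
    have e1 : σ * (σ * b * σ⁻¹) * σ⁻¹ = σ * (σ * b * σ⁻¹ * (σ⁻¹ * b * σ)) * σ⁻¹ * b := by
      calc _ = σ * (σ * b * σ⁻¹) * σ⁻¹ * (b * b) := by rw [hb2, mul_one]
        _ = _ := by group
    have e2 : σ * (σ * b * σ⁻¹) * σ⁻¹ = b * (σ * (σ * b * σ⁻¹ * (σ⁻¹ * b * σ)) * σ⁻¹) := by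
      calc _ = σ * (σ * b⁻¹ * σ⁻¹) * σ⁻¹ := by rw [hbi]
        _ = (σ * (σ * b * σ⁻¹) * σ⁻¹)⁻¹ := by simp only [mul_inv_rev, inv_inv, mul_assoc]
        _ = _ := by rw [e1, mul_inv_rev, hbi, inv_eq_of_mul_eq_one_right hC2]
    have e3 : σ * (a * (σ * b * σ⁻¹) * (a * (σ * b * σ⁻¹))) * σ⁻¹ =
        σ * a * σ⁻¹ * (σ * (σ * b * σ⁻¹) * σ⁻¹) * (σ * a * σ⁻¹ * (σ * (σ * b * σ⁻¹) * σ⁻¹)) := by
      group
    rw [e3]
    nth_rewrite 1 [e1]
    rw [e2]
    generalize σ * (σ * b * σ⁻¹ * (σ⁻¹ * b * σ)) * σ⁻¹ = C at *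
    generalize σ * a * σ⁻¹ = A at *
    have hw := hsq _ (mul_mem hb.1 hA)
    calc A * (C * b) * (A * (b * C)) = A * C * b * A * b * C := by group
      _ = C * A * (b * A * (b * A)) * A⁻¹ * C := by rw [hAC]; group
      _ = b * A * (b * A) * (C * A * A⁻¹ * C) := by
        rw [hW _ hw _ (mul_mem hC hA)]; group
      _ = _ := by rw [mul_inv_cancel_right, hC2, mul_one]
  obtain ⟨x, hx, r, hr, rfl⟩ := h.decomp hv
  have ha : E (x * (t * x * t)) := ⟨h.eq_mem hx, x, hx, rfl⟩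
  have hb : E (r * (t * r * t)) := ⟨h.eq_mem hr, r, hr, rfl⟩
  refine fpf h.sp h.two (ord_sq h.ord) (mul_mem hv hv) ?_
  have k1 := key _ _ ha hb
  have k2 := key _ _ hb ha
  rw [← k1] at k2
  rw [← k2]
  nth_rewrite 1 [k2]
  group

end Hyp

end

theorem exp_two (n : ℕ) : ∀ (H : Type u) [Group H] [Finite H] (Q : Subgroup H) (σ t : H),
    Nat.card H = n → Hyp Q σ t → ∀ v ∈ Q, v * v = 1 := by
  induction n using Nat.strong_induction_on with
  | _ n ih =>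
  intro H _ _ Q σ t hn h v hv
  by_cases hQ : Q = ⊥
  · rw [hQ, mem_bot] at hv
    rw [hv, one_mul]
  let W : Subgroup H :=
    { carrier := {w | w ∈ Q ∧ (∀ q ∈ Q, q * w = w * q) ∧ w * w = 1}
      mul_mem' := by
        rintro a b ⟨a1, a2, a3⟩ ⟨b1, b2, b3⟩
        refine ⟨mul_mem a1 b1, fun q hq => by rw [← mul_assoc, a2 q hq, mul_assoc, b2 q hq,
          mul_assoc], ?_⟩
        calc a * b * (a * b) = a * (b * a) * b := by group
          _ = 1 := by rw [a2 b b1, ← mul_assoc, a3, one_mul, b3]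
      one_mem' := ⟨one_mem _, by simp, by simp⟩
      inv_mem' := by
        rintro a ⟨a1, a2, a3⟩
        rw [inv_eq_of_mul_eq_one_right a3]
        exact ⟨a1, a2, a3⟩ }
  have hWn : W.Normal := ⟨by
    rintro a ⟨a1, a2, a3⟩ g
    refine ⟨h.nrm.conj_mem a a1 g, fun q hq => ?_, ?_⟩
    · have := a2 _ (h.nrm.conj_mem q hq g⁻¹)
      calc q * (g * a * g⁻¹) = g * (g⁻¹ * q * g⁻¹⁻¹ * a) * g⁻¹ := by group
        _ = _ := by rw [this]; group
    · calc g * a * g⁻¹ * (g * a * g⁻¹) = g * (a * a) * g⁻¹ := by group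
        _ = 1 := by rw [a3]; group⟩
  have hW1 : W ≠ ⊥ := by
    have : Nontrivial Q := (nontrivial_iff_ne_bot Q).2 hQ
    have := h.two.center_nontrivial
    obtain ⟨⟨⟨z, hz⟩, hzc⟩, hz1⟩ := exists_ne (1 : center Q)
    have hz2 : z ≠ 1 := fun e => hz1 (Subtype.ext (Subtype.ext e))
    have hz3 : ∀ q ∈ Q, q * z = z * q := fun q hq =>
      congrArg Subtype.val (mem_center_iff.1 hzc ⟨q, hq⟩)
    intro hb
    by_cases h2 : z * z = 1
    · exact hz2 (mem_bot.1 (hb ▸ (⟨hz, hz3, h2⟩ : z ∈ W)))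
    · refine h2 (mem_bot.1 (hb ▸ (⟨mul_mem hz hz, fun q hq => by
        rw [← mul_assoc, hz3 q hq, mul_assoc, hz3 q hq, mul_assoc], ?_⟩ : z * z ∈ W)))
      rw [← four h.sp h.two (pow_mem hz 4)]
      simp only [pow_succ, pow_zero, one_mul, mul_assoc]
  let π := QuotientGroup.mk' W
  have hlt : Nat.card (H ⧸ W) < n := by
    rw [← hn, card_eq_card_quotient_mul_card_subgroup W]
    exact lt_mul_of_one_lt_right Nat.card_pos ((one_lt_card_iff_ne_bot W).2 hW1)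
  have : Fact (Nat.Prime 5) := ⟨by norm_num⟩
  have h' : Hyp (Q.map π) (π σ) (π t) :=
    { sp := h.sp.quot W
      nrm := h.nrm.map π (QuotientGroup.mk'_surjective W)
      two := h.two.map π
      ord := orderOf_eq_prime (by rw [← map_pow, ← h.ord, pow_orderOf_eq_one, map_one]) fun e => by
        have h1 := fpf h.sp h.two h.ord ((QuotientGroup.eq_one_iff σ).1 e).1 rfl
        have h2 := h.ord
        rw [h1, orderOf_one] at h2
        omega
      tt := by rw [← map_mul, h.tt, map_one]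
      ts := by rw [← map_mul, h.ts, map_mul, map_inv] }
  refine h.step W (fun w hw => hw.2.1) (fun w hw => hw.2.2) (fun x hx => ?_) hv
  have := ih _ hlt _ _ _ _ rfl h' (π x) ⟨x, hx, rfl⟩
  rw [← map_mul] at this
  exact (QuotientGroup.eq_one_iff _).1 this

theorem jobMOD : JobMOD.{u} := by
  intro H _ _ Q σ t0 hsp hn hQ hs h1 h2
  obtain ⟨q, hq, htt, hts⟩ := exists_inv hsp hQ hs h1 h2
  set t := q * t0 with ht
  have h : Hyp Q σ t := ⟨hsp, hn, hQ, hs, htt, hts⟩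
  have hsq := exp_two _ H Q σ t rfl h
  have hi : ∀ a ∈ Q, a⁻¹ = a := fun a ha => inv_eq_of_mul_eq_one_right (hsq a ha)
  have hc : ∀ a ∈ Q, ∀ b ∈ Q, a * b = b * a := fun a ha b hb => by
    rw [← hi _ (mul_mem ha hb), mul_inv_rev, hi a ha, hi b hb]
  let C : Subgroup H := Q ⊓ centralizer ({t0} : Set H)
  have hC : ∀ c, c ∈ C ↔ c ∈ Q ∧ t * c * t = c := fun c => by
    rw [mem_inf, mem_centralizer_singleton_iff]
    refine and_congr_right fun hc' => ?_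
    nth_rewrite 2 [← h.ti]
    rw [mul_inv_eq_iff_eq_mul, ht, ← mul_assoc, ← hc q hq c hc', mul_assoc, mul_assoc,
      mul_right_inj, eq_comm]
  have hE : ∀ x ∈ Q, x * (t * x * t) ∈ C := fun x hx => (hC _).2 ⟨h.eq_mem hx, by
    rw [hc x hx _ (h.tq hx)]
    nth_rewrite 1 [← hc x hx _ (h.tq hx)]
    simp only [mul_assoc, h.tt, mul_one]⟩
  have hint : ∀ a ∈ C, σ * a * σ⁻¹ ∈ C → a = 1 := fun a ha hb => by
    obtain ⟨ha1, ha2⟩ := (hC a).1 ha
    obtain ⟨-, hb2⟩ := (hC _).1 hb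
    refine fpf hsp hQ (ord_sq hs) ha1 ?_
    have e : t * (σ * a * σ⁻¹) * t = σ⁻¹ * (t * a * t) * σ := by
      simp only [mul_assoc, h.ts', h.ts]
    rw [e, ha2] at hb2
    calc σ * σ * a = σ * (σ * a * σ⁻¹) * σ := by group
      _ = a * (σ * σ) := by rw [← hb2]; group
  have huniq : ∀ a ∈ C, ∀ b ∈ C, ∀ a' ∈ C, ∀ b' ∈ C,
      a * (σ * b * σ⁻¹) = a' * (σ * b' * σ⁻¹) → a = a' ∧ b = b' := by
    intro a ha b hb a' ha' b' hb' e
    have e1 : σ * (b * b'⁻¹) * σ⁻¹ = a⁻¹ * a' := by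
      calc _ = a⁻¹ * (a * (σ * b * σ⁻¹)) * (σ * b' * σ⁻¹)⁻¹ := by group
        _ = _ := by rw [e]; group
    have e2 := hint _ (mul_mem hb (inv_mem hb')) (e1 ▸ mul_mem (inv_mem ha) ha')
    rw [e2, mul_one, mul_inv_cancel] at e1
    exact ⟨inv_mul_eq_one.1 e1.symm, mul_inv_eq_one.1 e2⟩
  refine ⟨⟨⟨⟨fun a b => Subtype.ext (hc a a.2 b b.2)⟩⟩, fun a ha => by rw [pow_two, hsq a ha]⟩,
    ?_, fun hQ1 y hy => hQ1 ?_⟩
  · let f : C × C → Q := fun p => ⟨p.1 * (σ * p.2 * σ⁻¹), mul_mem p.1.2.1 (hn.conj_mem _ p.2.2.1 σ)⟩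
    have hf : Function.Bijective f := by
      refine ⟨fun p p' e => ?_, fun v => ?_⟩
      · obtain ⟨e1, e2⟩ := huniq _ p.1.2 _ p.2.2 _ p'.1.2 _ p'.2.2 (congrArg Subtype.val e)
        exact Prod.ext (Subtype.ext e1) (Subtype.ext e2)
      · obtain ⟨x, hx, r, hr, e⟩ := h.decomp v.2
        exact ⟨(⟨_, hE x hx⟩, ⟨_, hE r hr⟩), Subtype.ext e.symm⟩
    rw [← Nat.card_eq_of_bijective f hf, Nat.card_prod, pow_two]
  · have hyt : y * y * t ∈ Q := by
      have := mul_mem hy (inv_mem hq)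
      rwa [mul_assoc, ← mul_inv_rev, ← ht, h.ti] at this
    have hu : ∀ x ∈ Q, y * y * x * (y * y)⁻¹ = t * x * t := fun x hx => by
      calc y * y * x * (y * y)⁻¹ = y * y * t * (t * x * t) * (y * y * t)⁻¹ := by
            simp only [mul_assoc, mul_inv_rev, h.tt', h.ti]
        _ = _ := by rw [hc _ hyt _ (h.tq hx), mul_inv_cancel_right]
    have hyy : y * y * (y * y) ∈ Q := by
      have := h.eq_mem hyt
      simpa only [mul_assoc, h.tt', h.tt, mul_one] using this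
    have hy4 : y * y * (y * y) = 1 := by
      have e : y ^ 4 = y * y * (y * y) := by simp only [pow_succ, pow_zero, one_mul, mul_assoc]
      rw [← e]
      exact four hsp hQ (e ▸ hyy)
    have hp : ∀ x ∈ Q, x * (y * x * y⁻¹) ∈ C := fun x hx => by
      have hm := mul_mem hx (hn.conj_mem x hx y)
      have e : (x * y) ^ 4 = x * (y * x * y⁻¹) * (y * y * (x * (y * x * y⁻¹)) * (y * y)⁻¹) *
          (y * y * (y * y)) := by
        simp only [pow_succ, pow_zero, one_mul, mul_assoc, mul_inv_rev, inv_mul_cancel_left]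
      rw [hu _ hm, hy4, mul_one] at e
      have e1 := four hsp hQ (e ▸ h.eq_mem hm)
      rw [e] at e1
      exact (hC _).2 ⟨hm, by rw [eq_inv_of_mul_eq_one_right e1, hi _ hm]⟩
    have hfix : ∀ c ∈ C, y * c * y⁻¹ = c := fun c hc' => by
      obtain ⟨x, hx, r, hr, e⟩ := h.decomp hc'.1
      obtain ⟨e1, -⟩ := huniq c hc' 1 (one_mem _) _ (hE x hx) _ (hE r hr) (by rw [← e]; group)
      have hx' := hn.conj_mem x hx y
      have e2 := ((hC _).1 (hp x hx)).2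
      have e3 : y * (t * x * t) * y⁻¹ = t * (y * x * y⁻¹) * t := by
        rw [← hu x hx, ← hu _ hx']; group
      have e4 : t * x * t * (t * (y * x * y⁻¹) * t) = x * (y * x * y⁻¹) := by
        rw [← e2]
        simp only [mul_assoc, h.tt']
      rw [e1]
      calc y * (x * (t * x * t)) * y⁻¹ = y * x * y⁻¹ * (y * (t * x * t) * y⁻¹) := by group
        _ = y * x * y⁻¹ * ((t * x * t)⁻¹ * (x * (y * x * y⁻¹))) := by
          rw [e3, ← e4, inv_mul_cancel_left]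
        _ = y * x * y⁻¹ * (y * x * y⁻¹) * (x * (t * x * t)) := by
          rw [hi _ (h.tq hx), ← mul_assoc (t * x * t), hc _ (mul_mem (h.tq hx) hx) _ hx',
            hc _ (h.tq hx) _ hx, ← mul_assoc]
        _ = _ := by rw [hsq _ hx', one_mul]
    have hall : ∀ x ∈ Q, x ∈ C := fun x hx => by
      have e := hfix _ (hp x hx)
      have hx' := hn.conj_mem x hx y
      refine (hC x).2 ⟨hx, ?_⟩
      rw [← hu x hx]
      rw [hc x hx _ hx'] at e
      nth_rewrite 1 [← hc x hx _ hx'] at e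
      calc y * y * x * (y * y)⁻¹ = (y * x * y⁻¹)⁻¹ * (y * (x * (y * x * y⁻¹)) * y⁻¹) := by group
        _ = x := by rw [e, inv_mul_cancel_left]
    exact eq_bot_iff.2 fun x hx => hint x (hall x hx) (hall _ (hn.conj_mem x hx σ))

end H71.OCMod
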