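import Cfsg.Agent.H71.Suz
import Cfsg.Agent.H71.Coset
import Cfsg.Agent.H71.SuzU
/-! The action of the presented Suzuki group on the 22880 cosets of `⟨a, b, c, d, f, g⟩`. -/
set_option maxRecDepth 100000
namespace H71.Suz
open Cfsg.Spor

/-- The action on the 22880 cosets of `⟨a, b, c, d, f, g⟩`. -/
noncomputable def ρU : Suz →* Equiv.Perm ℕ :=
  PresentedGroup.toGroup (f := fun x => SuzU.π (code x))
    (cox_lift SuzU.pinv code SuzU.relP (by decide +kernel)
      (extra_lift SuzU.pinv code SuzU.relP (by decide +kernel)))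

theorem hρU (l : ℕ) : ρU (val l) = SuzU.π l := by
  rw [val, map_mkVal]
  simp only [ρU, List.map, PresentedGroup.toGroup.of]
  rfl

theorem stabU : gen val [0, 1, 2, 3, 5, 6] = stab ρU 0 :=
  eq_stab_of_done (SuzU.done hv he (rels_of_subset hR (by decide +kernel))
    fun _ h => mem_gen val h) ρU (fun l _ => hρU l) top
    (gen_le_stab SuzU.env ρU (fun l _ => hρU l) (by decide +kernel))

theorem orbU : orb ρU ⊤ 0 = Set.Ico 0 22880 := by
  rw [← top]
  exact orb_gen_eq SuzU.env ρU (fun l _ => hρU l)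
    (sched := [4,3,2,1,3,0,5,6,1,2,4,3,1,5,0,1,4,2,6,1,3,0,5,6,1,2,4,3,1,6,5,4,1,2,6,1,3,2])
    (by decide +kernel) (by decide +kernel) (by omega)

theorem indexU : (gen val [0, 1, 2, 3, 5, 6]).index = 22880 := index_eq stabU orbU

end H71.Suz
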