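/- SZSOL job B: the field form of the pairing lemma. -/
import Cfsg.Agent.H2.SzSpec
import Cfsg.Agent.H69.FieldAut

set_option autoImplicit false

universe u

namespace H71.SzB

open Polynomial

theorem pow_dvd_of_pow_dvd {r n k : ℕ} (hr : r.Prime) (h1 : r ∣ 2 ^ n - 1) (h2 : r ^ k ∣ n) :
    r ^ (k + 1) ∣ 2 ^ n - 1 := by
  obtain ⟨m, rfl⟩ := h2
  have : Fact r.Prime := ⟨hr⟩
  have h3 : ∀ j : ℕ, ((2 ^ j - 1 : ℕ) : ℤ) = 2 ^ j - 1 := fun j => by
    rw [Nat.cast_sub Nat.one_le_two_pow]; simp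
  have h4 : (r : ℤ) ∣ 2 ^ m - 1 := by
    rw [← ZMod.intCast_zmod_eq_zero_iff_dvd]
    have h5 := (ZMod.intCast_zmod_eq_zero_iff_dvd _ r).2 (Int.natCast_dvd_natCast.2 h1)
    rw [h3] at h5
    push_cast at h5 ⊢
    rwa [mul_comm, pow_mul, ZMod.pow_card_pow] at h5
  have h6 := dvd_sub_pow_of_dvd_sub h4 k
  rw [← Int.natCast_dvd_natCast, h3, mul_comm, pow_mul]
  simpa using h6

theorem dvd_of_index {r n s d : ℕ} (hr : r.Prime) (hn : n ≠ 0) (h : s * d = 2 ^ n - 1) (hd : d ∣ n)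
    (h1 : r ∣ 2 ^ n - 1) : r ∣ s := by
  by_contra hs
  have key : ∀ k, r ^ k ∣ n := by
    intro k
    induction k with
    | zero => simp
    | succ k ih =>
      have h2 := pow_dvd_of_pow_dvd hr h1 ih
      rw [← h] at h2
      exact (Nat.Coprime.dvd_of_dvd_mul_left
        (Nat.Coprime.pow_left _ ((Nat.Prime.coprime_iff_not_dvd hr).2 hs)) h2).trans hd
  exact absurd (Nat.le_of_dvd (Nat.pos_of_ne_zero hn) (key n)) (not_le.2 (Nat.lt_pow_self hr.one_lt))

variable {F : Type} [Field F] [Fintype F] [Algebra (ZMod 2) F]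

theorem exists_pow (σ : F ≃+* F) :
    ∃ k < Module.finrank (ZMod 2) F, ∀ x, σ x = x ^ 2 ^ k := by
  let σ' : F ≃ₐ[ZMod 2] F := AlgEquiv.ofRingEquiv (f := σ) fun x =>
    DFunLike.congr_fun (RingHom.ext_zmod ((σ : F →+* F).comp (algebraMap (ZMod 2) F))
      (algebraMap (ZMod 2) F)) x
  obtain ⟨k, hk⟩ := (FiniteField.bijective_frobeniusAlgEquivOfAlgebraic_pow (ZMod 2) F).2 σ'
  refine ⟨k, k.2, fun x => ?_⟩
  have h := congrFun (FiniteField.coe_frobeniusAlgEquivOfAlgebraic_iterate (ZMod 2) F k) x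
  rw [← AlgEquiv.coe_pow, ZMod.card] at h
  rw [← h]
  exact (DFunLike.congr_fun hk x).symm

theorem aut_comm (σ τ : F ≃+* F) (x : F) : σ (τ x) = τ (σ x) := by
  obtain ⟨k, -, hk⟩ := exists_pow σ
  rw [hk, hk, map_pow]

theorem card_eq : Fintype.card F = 2 ^ Module.finrank (ZMod 2) F := by
  rw [Module.card_eq_pow_finrank (K := ZMod 2), ZMod.card]

theorem pow_mod (x : F) (k : ℕ) : x ^ 2 ^ (k % Module.finrank (ZMod 2) F) = x ^ 2 ^ k := by
  conv_rhs => rw [← Nat.div_add_mod k (Module.finrank (ZMod 2) F), pow_add, pow_mul 2, pow_mul,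
    ← card_eq, FiniteField.pow_card_pow]

/-- Two scalars acting on a graph-like subgroup of `F × F` are conjugate. -/
theorem exists_conj_of_graph (Γ : AddSubgroup (F × F)) {l m : F}
    (h1 : ∀ p ∈ Γ, (l * p.1, m * p.2) ∈ Γ) (h2 : ∀ p ∈ Γ, p.1 = 0 → p.2 = 0) {p : F × F}
    (hp : p ∈ Γ) (h0 : p.2 ≠ 0) : ∃ ρ : F ≃+* F, ρ l = m := by
  have key : ∀ f : (ZMod 2)[X], (aeval l f * p.1, aeval m f * p.2) ∈ Γ := by
    intro f
    induction f using Polynomial.induction_on' with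
    | add f g hf hg => simpa [add_mul] using Γ.add_mem hf hg
    | monomial k a =>
      have h3 : (l ^ k * p.1, m ^ k * p.2) ∈ Γ := by
        induction k with
        | zero => simpa using hp
        | succ k ih => simpa [pow_succ', mul_assoc] using h1 _ ih
      have h4 : ∀ a : ZMod 2, a = 0 ∨ a = 1 := by decide
      rcases h4 a with rfl | rfl
      · simp only [map_zero, zero_mul]
        exact Γ.zero_mem
      · simpa [aeval_monomial] using h3
  have h5 := h2 _ (key (minpoly (ZMod 2) l)) (by simp)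
  obtain ⟨ρ, hρ⟩ := minpoly.exists_algEquiv_of_root' (Algebra.IsAlgebraic.isAlgebraic l)
    ((mul_eq_zero.1 h5).resolve_right h0)
  exact ⟨ρ.toRingEquiv, hρ⟩

omit [Algebra (ZMod 2) F] in
theorem mem_of_pow_card (S : Subgroup Fˣ) {s : Fˣ} (h : s ^ Nat.card S = 1) : s ∈ S := by
  have h1 : S ≤ (powMonoidHom (Nat.card S) : Fˣ →* Fˣ).ker := fun x hx =>
    congrArg Subtype.val (pow_card_eq_one' (x := (⟨x, hx⟩ : S)))
  have h2 := Subgroup.eq_of_le_of_card_ge h1 (by
    rw [IsCyclic.card_powMonoidHom_ker]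
    exact Nat.gcd_le_right _ Nat.card_pos)
  rw [h2]
  exact h

/-- The multipliers of a transitive semilinear group. -/
theorem exists_mult {Y : Type u} [Group Y] [Finite Y] (a : Y → Fˣ) (t : Y →* (F ≃+* F))
    (ha : ∀ y z, (a (y * z) : F) = a y * t y (a z)) (hs : Function.Surjective a) :
    ∃ S : Subgroup Fˣ, (∀ s ∈ S, ∃ y, t y = 1 ∧ a y = s) ∧ S.index ∣ Module.finrank (ZMod 2) F := by
  let α : t.ker →* Fˣ := MonoidHom.mk' (fun y => a y) fun y z => Units.ext (by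
    have hy : t y = 1 := y.2
    rw [Subgroup.coe_mul, ha, hy]; rfl)
  have hinv : ∀ (σ : F ≃+* F) (s s' : Fˣ), (s' : F) = σ s → s ∈ α.range → s' ∈ α.range := by
    intro σ s s' h hs
    obtain ⟨k, -, hk⟩ := exists_pow σ
    rw [show s' = s ^ 2 ^ k from Units.ext (by rw [h, hk]; simp)]
    exact α.range.pow_mem hs _
  have hrel : ∀ y z, (a y)⁻¹ * a (y * z) ∈ α.range ↔ a z ∈ α.range := fun y z =>
    ⟨hinv (t y).symm _ _ (by simp [ha]), hinv (t y) _ _ (by simp [ha])⟩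
  have h1 : a 1 = 1 := by
    have := ha 1 1
    rw [mul_one, map_one] at this
    exact Units.ext ((mul_eq_left₀ (a 1).ne_zero).1 this.symm)
  let Y0 : Subgroup Y :=
    { carrier := {y | a y ∈ α.range}
      mul_mem' := fun {y z} hy hz => (α.range.mul_mem_cancel_left (α.range.inv_mem hy)).1
        ((hrel y z).2 hz)
      one_mem' := by change a 1 ∈ α.range; rw [h1]; exact α.range.one_mem
      inv_mem' := fun {y} hy => (hrel y y⁻¹).1 (by
        rw [mul_inv_cancel, h1, mul_one]; exact α.range.inv_mem hy) }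
  have hrel' : ∀ y z, y⁻¹ * z ∈ Y0 ↔ (a y)⁻¹ * a z ∈ α.range := fun y z => by
    have := hrel y (y⁻¹ * z)
    rw [mul_inv_cancel_left] at this
    exact this.symm
  refine ⟨α.range, ?_, ?_⟩
  · rintro _ ⟨y, rfl⟩
    exact ⟨y, y.2, rfl⟩
  · have h2 : Y0.index = α.range.index := by
      refine Nat.card_congr (Equiv.ofBijective (Quotient.map' a fun y z h => ?_) ⟨?_, ?_⟩)
      · rw [QuotientGroup.leftRel_apply] at h ⊢
        exact (hrel' y z).1 h
      · rintro ⟨y⟩ ⟨z⟩ h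
        exact QuotientGroup.eq.2 ((hrel' y z).2 (QuotientGroup.eq.1 h))
      · rintro ⟨s⟩
        obtain ⟨y, rfl⟩ := hs s
        exact ⟨QuotientGroup.mk y, rfl⟩
    have h3 : t.ker ≤ Y0 := fun y hy => ⟨⟨y, hy⟩, rfl⟩
    have := H69.finite_ringEquiv (F := F)
    rw [← h2, ← H69.card_ringEquiv 2]
    refine (Subgroup.index_dvd_of_le h3).trans ?_
    rw [Subgroup.index_ker]
    exact Subgroup.card_subgroup_dvd_card _

theorem eq_of_conj (hA : H2.Sz.JobA) (hF : 2 < Fintype.card F) {μ : Fˣ} {d : ℕ}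
    (hd : d ∣ Module.finrank (ZMod 2) F) (hμ : orderOf μ * d = 2 ^ Module.finrank (ZMod 2) F - 1)
    {ρ σ τ : F ≃+* F} (h : ρ (μ / σ μ) = μ / τ μ) : σ = τ := by
  obtain ⟨a, ha, ha'⟩ := exists_pow ρ
  obtain ⟨c, hc, hc'⟩ := exists_pow τ
  obtain ⟨e, he, he'⟩ := exists_pow (σ.trans ρ)
  have hn : 2 ≤ Module.finrank (ZMod 2) F := by
    rw [card_eq] at hF
    by_contra h2
    have := Nat.pow_le_pow_right (n := 2) (by norm_num)
      (show Module.finrank (ZMod 2) F ≤ 1 by omega)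
    omega
  have h1 : μ ^ (2 ^ a + 2 ^ c) = μ ^ (1 + 2 ^ e) := by
    apply Units.ext
    rw [map_div₀, div_eq_div_iff (by simp) (by simp)] at h
    simp only [Units.val_pow_eq_pow_val, pow_add, pow_one, Units.val_mul]
    rw [← ha', ← hc', ← he', h]
    rfl
  have h2 := Nat.ModEq.mul_right' d (pow_eq_pow_iff_modEq.1 h1)
  rw [hμ] at h2
  have h3 := hA _ d a c e hn hd (Dvd.intro_left _ hμ) ha hc he h2
  refine RingEquiv.ext fun x => ρ.injective ?_
  rw [← RingEquiv.trans_apply, he', ← h3, pow_mod, ha', hc', ← pow_mul, ← pow_add, add_comm]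

theorem jobB (hA : H2.Sz.JobA) : H2.Sz.JobB.{u} := by
  intro F _ _ _ G _ Y _ _ ψ act A C B hF hact htr hAC hC hirr hadd hBA hequi
  classical
  let _ := ZMod.algebra F 2
  have := H69.finite_ringEquiv (F := F)
  have := Fintype.ofFinite (F ≃+* F)
  choose a0 τ hact using hact
  have ha0 : ∀ y, a0 y ≠ 0 := fun y h =>
    zero_ne_one ((act y).injective (by rw [hact, hact, h, zero_mul, zero_mul]))
  have hmul : ∀ y z x, a0 (y * z) * τ (y * z) x = a0 y * τ y (a0 z) * τ y (τ z x) := fun y z x => by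
    rw [← hact, map_mul, Equiv.Perm.mul_apply, hact, hact, map_mul, mul_assoc]
  have hmul1 : ∀ y z, a0 (y * z) = a0 y * τ y (a0 z) := fun y z => by simpa using hmul y z 1
  let t : Y →* (F ≃+* F) := MonoidHom.mk' τ fun y z => RingEquiv.ext fun x => by
    have := hmul y z x
    rw [← hmul1] at this
    exact mul_left_cancel₀ (ha0 _) this
  let a : Y → Fˣ := fun y => Units.mk0 (a0 y) (ha0 y)
  obtain ⟨S, hS, hd⟩ := exists_mult a t hmul1 fun s => by
    obtain ⟨y, hy⟩ := htr 1 s one_ne_zero s.ne_zero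
    exact ⟨y, Units.ext (show a0 y = s by simpa [hact] using hy)⟩
  have hM : Nat.card S * S.index = 2 ^ Module.finrank (ZMod 2) F - 1 := by
    rw [Subgroup.card_mul_index, Nat.card_units, Nat.card_eq_fintype_card, card_eq]
  choose c hc using fun u => H69.exists_addHom_eq_sum (B u)
  have cadd : ∀ u ∈ C, ∀ w ∈ C, c (u * w) = c u + c w := fun u hu w hw =>
    H69.coeff_eq_of_sum_ringEquiv_eq fun x => by
      rw [← hc, hadd u hu w hw, AddMonoidHom.add_apply, hc, hc, ← Finset.sum_add_distrib]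
      exact Finset.sum_congr rfl fun σ _ => (add_mul _ _ _).symm
  have czero : ∀ u ∈ A, c u = 0 := fun u hu =>
    H69.coeff_eq_of_sum_ringEquiv_eq fun x => by rw [← hc, hBA u hu]; simp
  have cinv : ∀ u ∈ C, ∀ σ, c u⁻¹ σ = -c u σ := fun u hu σ => by
    have := congrFun (cadd u hu _ (C.inv_mem hu)) σ
    rw [mul_inv_cancel, czero 1 A.one_mem] at this
    exact eq_neg_of_add_eq_zero_right this.symm
  have cequi : ∀ y, ∀ u ∈ C, ∀ σ, c (ψ y u) σ * σ (a0 y) = a0 y * τ y (c u σ) := by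
    intro y u hu
    refine congrFun (H69.coeff_eq_of_sum_ringEquiv_eq (c := fun σ => c (ψ y u) σ * σ (a0 y))
      (d := fun σ => a0 y * τ y (c u σ)) fun x => ?_)
    obtain ⟨x, rfl⟩ := (τ y).surjective x
    have := hequi y u hu x
    rw [hact, hact, hc, hc, map_sum, Finset.mul_sum] at this
    refine Eq.trans ?_ (this.trans ?_)
    · exact Finset.sum_congr rfl fun σ _ => by rw [map_mul, mul_assoc]
    · exact Finset.sum_congr rfl fun σ _ => by rw [map_mul, mul_assoc, aut_comm σ]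
  have cker : ∀ σ, (∀ u ∈ C, c u σ = 0) ∨ ∀ u ∈ C, c u σ = 0 → u ∈ A := by
    intro σ
    let K : Subgroup G :=
      { carrier := {u | u ∈ C ∧ c u σ = 0}
        mul_mem' := fun {u w} hu hw => ⟨C.mul_mem hu.1 hw.1, by
          rw [cadd u hu.1 w hw.1, Pi.add_apply, hu.2, hw.2, add_zero]⟩
        one_mem' := ⟨C.one_mem, by rw [czero 1 A.one_mem]; rfl⟩
        inv_mem' := fun {u} hu => ⟨C.inv_mem hu.1, by rw [cinv u hu.1, hu.2, neg_zero]⟩ }
    rcases hirr K (fun y w hw => ⟨hC y w hw.1, by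
        have := cequi y w hw.1 σ
        rw [hw.2, map_zero, mul_zero] at this
        exact (mul_eq_zero.1 this).resolve_right (by simpa using ha0 y)⟩)
      (fun u hu => ⟨hAC hu, by rw [czero u hu]; rfl⟩) (fun u hu => hu.1) with h | h
    · exact Or.inr fun u hu h0 => h ▸ (⟨hu, h0⟩ : u ∈ K)
    · exact Or.inl fun u hu => (h.symm ▸ hu : u ∈ K).2
  by_cases h0 : ∀ σ, ∀ u ∈ C, c u σ = 0
  · exact Or.inl fun u hu => AddMonoidHom.ext fun x => by simp [hc, h0 _ u hu]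
  push Not at h0
  obtain ⟨σ, u0, hu0, hσ0⟩ := h0
  have hσ := (cker σ).resolve_left fun h => hσ0 (h u0 hu0)
  obtain ⟨μ, hμ⟩ := IsCyclic.exists_ofOrder_eq_natCard (α := S)
  obtain ⟨y0, hy0, hy0'⟩ := hS μ μ.2
  have hy1 : τ y0 = 1 := hy0
  have hy2 : a0 y0 = ((μ : Fˣ) : F) := congrArg Units.val hy0'
  have huniq : ∀ ρ, ρ ≠ σ → ∀ u ∈ C, c u ρ = 0 := by
    intro ρ hρ u hu
    by_contra hne
    let Γ : AddSubgroup (F × F) :=
      { carrier := {p | ∃ w ∈ C, p = (c w σ, c w ρ)}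
        add_mem' := by
          rintro _ _ ⟨v, hv, rfl⟩ ⟨w, hw, rfl⟩
          exact ⟨v * w, C.mul_mem hv hw, by rw [cadd v hv w hw]; rfl⟩
        zero_mem' := ⟨1, C.one_mem, by rw [czero 1 A.one_mem]; rfl⟩
        neg_mem' := by
          rintro _ ⟨v, hv, rfl⟩
          exact ⟨v⁻¹, C.inv_mem hv, by rw [cinv v hv, cinv v hv]; rfl⟩ }
    have hstep : ∀ w ∈ C, ∀ κ : F ≃+* F,
        ((μ : Fˣ) : F) / κ ((μ : Fˣ) : F) * c w κ = c (ψ y0 w) κ := fun w hw κ => by
      have := cequi y0 w hw κ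
      rw [hy1, hy2] at this
      rw [div_mul_eq_mul_div, div_eq_iff (by simp), this]
      rfl
    obtain ⟨κ, hκ⟩ := exists_conj_of_graph Γ (l := ((μ : Fˣ) : F) / σ ((μ : Fˣ) : F))
      (m := ((μ : Fˣ) : F) / ρ ((μ : Fˣ) : F)) (by
        rintro _ ⟨w, hw, rfl⟩
        exact ⟨ψ y0 w, hC y0 w hw, by rw [hstep w hw, hstep w hw]⟩) (by
        rintro _ ⟨w, hw, rfl⟩ h
        exact congrFun (czero w (hσ w hw h)) ρ) (p := (c u σ, c u ρ)) ⟨u, hu, rfl⟩ hne
    exact hρ (eq_of_conj hA hF hd (by rw [Subgroup.orderOf_coe, hμ, hM]) hκ).symm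
  have hB : ∀ u ∈ C, ∀ x, B u x = c u σ * σ x := fun u hu x => by
    rw [hc, Finset.sum_eq_single σ (fun ρ _ hρ => by rw [huniq ρ hρ u hu, zero_mul]) (by simp)]
  refine Or.inr ⟨fun u hu x hx h => hσ u hu ?_, fun hfix u hu x x' hx hx' h h' => ?_⟩
  · rw [hB u hu] at h
    exact (mul_eq_zero.1 h).resolve_right (by simpa using hx)
  by_contra hne
  rw [hB u hu] at h h'
  let s : Fˣ := Units.mk0 (x / x') (div_ne_zero hx hx')
  have hs1 : s ≠ 1 := fun e => hne ((div_eq_one_iff_eq hx').1 (congrArg Units.val e))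
  have hsσ : σ (s : F) = s := by
    change σ (x / x') = x / x'
    rw [map_div₀, div_eq_div_iff (by simpa using hx') hx']
    linear_combination σ x' * h - σ x * h'
  obtain ⟨r, hr, hro⟩ := Nat.exists_prime_and_dvd (mt orderOf_eq_one_iff.1 hs1)
  have ho := orderOf_pow_orderOf_div (orderOf_pos s).ne' hro
  set s' := s ^ (orderOf s / r) with hs'
  have hrS : r ∣ Nat.card S := dvd_of_index hr Module.finrank_pos.ne' hM hd (by
    rw [← hM, Subgroup.card_mul_index, ← ho]; exact orderOf_dvd_natCard s')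
  obtain ⟨y, hy, hy'⟩ := hS s' (mem_of_pow_card S (orderOf_dvd_iff_pow_eq_one.1 (ho ▸ hrS)))
  have hy1 : τ y = 1 := hy
  have hy2 : a0 y = (s' : F) := congrArg Units.val hy'
  obtain ⟨z, hz, hz'⟩ := hfix y fun w hw => hσ _ (C.mul_mem (C.inv_mem hw) (hC y w hw)) (by
    have h1 := cequi y w hw σ
    have h2 : σ (s' : F) = s' := by rw [hs', Units.val_pow_eq_pow_val, map_pow, hsσ]
    rw [hy1, hy2, h2, mul_comm] at h1
    rw [cadd _ (C.inv_mem hw) _ (hC y w hw), Pi.add_apply, cinv w hw,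
      mul_left_cancel₀ s'.ne_zero h1]
    exact neg_add_cancel _)
  rw [hact, hy1, hy2] at hz'
  have h3 : s' = 1 := Units.ext ((mul_eq_right₀ hz).1 hz')
  rw [h3, orderOf_one] at ho
  exact hr.one_lt.ne ho

end H71.SzB
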